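import Mathlib

/-!
# Recognising homocyclic groups
-/

set_option autoImplicit false
set_option linter.unusedSectionVars false

namespace Cfsg.Agent.H15.CTor

theorem homocyclic_of {S : Type*} [CommGroup S] [Finite S] {r a b : ℕ} [Fact r.Prime] (hb : 1 ≤ b)
    (hcard : Nat.card S = r ^ (a * b)) (hexp : ∀ x : S, x ^ (r ^ b) = 1) (htor : Nat.card {x : S // x ^ r = 1} ≤ r ^ a) :
    Nonempty (S ≃* (Fin a → Multiplicative (ZMod (r ^ b)))) := by
  classical
  have hr : r.Prime := Fact.out
  obtain ⟨ι, hι, n, hn, ⟨e⟩⟩ := CommGroup.equiv_prod_multiplicative_zmod_of_finite S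
  have h1 : ∀ i, n i ∣ r ^ b := by
    intro i
    have h2 := hexp (e.symm (Pi.mulSingle i (Multiplicative.ofAdd (1 : ZMod (n i)))))
    rw [← map_pow, map_eq_one_iff e.symm e.symm.injective] at h2
    have h3 := congrFun h2 i
    rw [Pi.pow_apply, Pi.mulSingle_eq_same, ← ofAdd_nsmul, Pi.one_apply] at h3
    have h4 : (r ^ b) • (1 : ZMod (n i)) = 0 := h3
    rw [nsmul_one] at h4
    exact (ZMod.natCast_eq_zero_iff _ _).1 h4
  have h2 : ∀ i, ∃ k, k ≤ b ∧ n i = r ^ k := fun i => (Nat.dvd_prime_pow hr).1 (h1 i)
  choose k hk hnk using h2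
  have hk1 : ∀ i, 1 ≤ k i := by
    intro i
    rcases Nat.eq_zero_or_pos (k i) with h | h
    · have := hn i
      rw [hnk i, h, pow_zero] at this
      omega
    · exact h
  haveI : ∀ i, NeZero (n i) := fun i => ⟨by have := hn i; omega⟩
  have hc : ∏ i, n i = r ^ (a * b) := by
    rw [← hcard, Nat.card_congr e.toEquiv, Nat.card_pi]
    refine Finset.prod_congr rfl fun i _ => ?_
    have : Nat.card (Multiplicative (ZMod (n i))) = Nat.card (ZMod (n i)) := rfl
    rw [this, Nat.card_zmod]
  have hsum : ∑ i, k i = a * b := by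
    rw [Finset.prod_congr rfl fun i _ => hnk i, Finset.prod_pow_eq_pow_sum] at hc
    exact Nat.pow_right_injective hr.two_le hc
  have hι : Fintype.card ι ≤ a := by
    have h3 : Nat.card {x : S // x ^ r = 1} = r ^ Fintype.card ι := by
      have e1 : {x : S // x ^ r = 1} ≃ {x : (i : ι) → Multiplicative (ZMod (n i)) // ∀ i, (x i) ^ r = 1} :=
        e.toEquiv.subtypeEquiv fun x => by
          constructor
          · intro h i
            have := congrArg e h
            rw [map_pow, map_one] at this
            exact congrFun this i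
          · intro h
            apply e.injective
            rw [map_pow, map_one]
            exact funext h
      rw [Nat.card_congr e1, Nat.card_congr (Equiv.subtypePiEquivPi (p := fun i (x : Multiplicative (ZMod (n i))) => x ^ r = 1)), Nat.card_pi]
      have e2 : ∀ i, Nat.card {x : Multiplicative (ZMod (n i)) // x ^ r = 1} = r := by
        intro i
        have h4 := IsCyclic.card_powMonoidHom_ker (G := Multiplicative (ZMod (n i))) r
        have h5 : Nat.card (Multiplicative (ZMod (n i))) = n i := by
          have : Nat.card (Multiplicative (ZMod (n i))) = Nat.card (ZMod (n i)) := rfl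
          rw [this, Nat.card_zmod]
        rw [h5] at h4
        have h6 : Nat.gcd (n i) r = r := by
          apply Nat.gcd_eq_right
          rw [hnk i]
          exact dvd_pow_self r (by have := hk1 i; omega)
        rw [h6] at h4
        exact h4
      rw [Finset.prod_congr rfl fun i _ => e2 i, Finset.prod_const, Finset.card_univ]
    rw [h3] at htor
    exact (Nat.pow_le_pow_iff_right hr.one_lt).1 htor
  have hle : ∑ i, k i ≤ Fintype.card ι * b := by
    calc ∑ i, k i ≤ ∑ _i : ι, b := Finset.sum_le_sum fun i _ => hk i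
      _ = Fintype.card ι * b := by rw [Finset.sum_const, Finset.card_univ, smul_eq_mul]
  have hcι : Fintype.card ι = a := by
    apply le_antisymm hι
    rw [hsum] at hle
    exact Nat.le_of_mul_le_mul_right hle (by omega)
  have hkb : ∀ i, k i = b := by
    have h3 : ∑ i, k i = ∑ _i : ι, b := by
      rw [hsum, Finset.sum_const, Finset.card_univ, smul_eq_mul, hcι]
    intro i
    exact (Finset.sum_eq_sum_iff_of_le (fun i _ => hk i)).1 h3 i (Finset.mem_univ i)
  have hn' : n = fun _ => r ^ b := funext fun i => by rw [hnk i, hkb i]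
  subst hn'
  have eι : ι ≃ Fin a := Fintype.equivFinOfCardEq hcι
  exact ⟨e.trans (MulEquiv.arrowCongr eι (MulEquiv.refl _))⟩

end Cfsg.Agent.H15.CTor
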