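import Cfsg.Agent.H15.CTor2

/-!
# Eigenspaces modulo `r` and cyclotomic factors of the characteristic polynomial
-/

set_option autoImplicit false
set_option linter.unusedSectionVars false

namespace Cfsg.Agent.H15.CTor

open Polynomial Matrix

section
variable {l : ℕ}

/-- roots of the characteristic polynomial are roots of unity -/
theorem root_pow_eq_one {P : Matrix (Fin l) (Fin l) ℤ} {m : ℕ} (hPm : P ^ m = 1) {z : ℂ}
    (hz : (P.charpoly.map (Int.castRingHom ℂ)).IsRoot z) : z ^ m = 1 := by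
  have h1 : (red ℂ P).charpoly = P.charpoly.map (Int.castRingHom ℂ) := Matrix.charpoly_map P (Int.castRingHom ℂ)
  rw [← h1, IsRoot, Matrix.eval_charpoly] at hz
  obtain ⟨v, hv, hv0⟩ := Matrix.exists_mulVec_eq_zero_iff.2 hz
  have h2 : red ℂ P *ᵥ v = z • v := by
    rw [Matrix.sub_mulVec, sub_eq_zero] at hv0
    rw [← hv0]
    funext i
    simp [Matrix.scalar_apply, Matrix.mulVec_diagonal]
  have h3 := aeval_mulVec h2 (X ^ m)
  rw [map_pow, aeval_X, ← map_pow, hPm, map_one, Matrix.one_mulVec, eval_pow, eval_X] at h3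
  obtain ⟨i, hi⟩ := Function.ne_iff.1 hv
  have h4 := congrFun h3 i
  rw [Pi.smul_apply, smul_eq_mul] at h4
  exact (mul_eq_right₀ hi).1 h4.symm

/-- splitting off the powers of `Φ_d` -/
theorem exists_split {P : Matrix (Fin l) (Fin l) ℤ} {m d : ℕ} (hPm : P ^ m = 1) (hm : m ≠ 0) (hd : 0 < d) :
    ∃ (k : ℕ) (h : ℤ[X]) (n : ℕ), P.charpoly = cyclotomic d ℤ ^ k * h ∧ h.Monic ∧ ¬ cyclotomic d ℤ ∣ h ∧
      h ∣ (∏ e ∈ (Nat.divisors m).erase d, cyclotomic e ℤ) ^ n := by
  classical
  have hχ : P.charpoly.Monic := Matrix.charpoly_monic P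
  have hΦ : (cyclotomic d ℤ).Monic := cyclotomic.monic d ℤ
  have hfin : FiniteMultiplicity (cyclotomic d ℤ) P.charpoly := by
    refine Polynomial.finiteMultiplicity_of_degree_pos_of_monic ?_ hΦ hχ.ne_zero
    rw [degree_cyclotomic]
    exact_mod_cast Nat.totient_pos.2 hd
  obtain ⟨h, hh, hnd⟩ := hfin.exists_eq_pow_mul_and_not_dvd
  have hhm : h.Monic := by
    have h1 := hχ
    rw [hh] at h1
    exact (hΦ.pow _).of_mul_monic_left h1
  set g : ℤ[X] := ∏ e ∈ (Nat.divisors m).erase d, cyclotomic e ℤ with hg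
  set hC := h.map (Int.castRingHom ℂ) with hhC
  have hCm : hC.Monic := hhm.map _
  have hroot : ∀ z ∈ hC.roots, (X - C z : ℂ[X]) ∣ g.map (Int.castRingHom ℂ) := by
    intro z hz
    rw [dvd_iff_isRoot]
    have hz1 : hC.IsRoot z := (mem_roots hCm.ne_zero).1 hz
    have hz2 : (P.charpoly.map (Int.castRingHom ℂ)).IsRoot z := by
      rw [hh, Polynomial.map_mul, IsRoot, eval_mul]
      rw [IsRoot] at hz1
      rw [← hhC, hz1, mul_zero]
    have hz3 := root_pow_eq_one hPm hz2
    have hzp : IsPrimitiveRoot z (orderOf z) := IsPrimitiveRoot.orderOf z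
    have hom : orderOf z ∣ m := orderOf_dvd_of_pow_eq_one hz3
    have hopos : 0 < orderOf z := Nat.pos_of_dvd_of_pos hom (Nat.pos_of_ne_zero hm)
    have hne : orderOf z ≠ d := by
      intro he
      apply hnd
      rw [he] at hzp
      have h3 : cyclotomic d ℤ = minpoly ℤ z := cyclotomic_eq_minpoly hzp hd
      rw [h3]
      refine minpoly.isIntegrallyClosed_dvd (hzp.isIntegral hd) ?_
      rw [IsRoot, hhC, eval_map] at hz1
      rw [aeval_def]
      exact hz1
    rw [IsRoot, hg, Polynomial.map_prod, eval_prod]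
    refine Finset.prod_eq_zero (Finset.mem_erase.2 ⟨hne, Nat.mem_divisors.2 ⟨hom, hm⟩⟩) ?_
    rw [map_cyclotomic]
    haveI : NeZero ((orderOf z : ℕ) : ℂ) := ⟨by exact_mod_cast hopos.ne'⟩
    exact isRoot_cyclotomic_iff.2 hzp
  refine ⟨_, h, Multiset.card hC.roots, hh, hhm, hnd, ?_⟩
  rw [← Polynomial.map_dvd_map (Int.castRingHom ℂ) (Int.cast_injective (α := ℂ)) hhm, ← hhC, Polynomial.map_pow]
  have h1 : hC = (hC.roots.map fun x => X - C x).prod := (IsAlgClosed.splits hC).eq_prod_roots_of_monic hCm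
  have h2 : (hC.roots.map fun _ : ℂ => g.map (Int.castRingHom ℂ)).prod = (g.map (Int.castRingHom ℂ)) ^ Multiset.card hC.roots := by
    rw [Multiset.map_const', Multiset.prod_replicate]
  rw [← h2]
  conv_lhs => rw [h1]
  exact Multiset.prod_dvd_prod_of_dvd _ _ hroot

/-- **eigenspaces modulo `r` are small** -/
theorem card_eig_le {P : Matrix (Fin l) (Fin l) ℤ} {m d r a : ℕ} [Fact r.Prime] {q : ZMod r} (hPm : P ^ m = 1) (hm : m ≠ 0)
    (hrm : ¬ r ∣ m) (hq : IsPrimitiveRoot q d) (hd : 0 < d) (hrd : ¬ r ∣ d)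
    (hb : ∀ k : ℕ, cyclotomic d ℤ ^ k ∣ P.charpoly → k ≤ a) :
    Nat.card {v : Fin l → ZMod r // red (ZMod r) P *ᵥ v = q • v} ≤ r ^ a := by
  classical
  obtain ⟨k, h, n, hχ, hhm, hnd, hdvd⟩ := exists_split hPm hm hd
  have hk : k ≤ a := hb k ⟨h, hχ⟩
  obtain ⟨f, hf⟩ : ∃ f : Module.End (ZMod r) (Fin l → ZMod r), f = Matrix.toLin' (red (ZMod r) P) := ⟨_, rfl⟩
  have h1 : (LinearMap.charpoly f) = (cyclotomic d (ZMod r)) ^ k * h.map (Int.castRingHom (ZMod r)) := by
    rw [hf, Matrix.charpoly_toLin']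
    have h2 : (red (ZMod r) P).charpoly = P.charpoly.map (Int.castRingHom (ZMod r)) := Matrix.charpoly_map P (Int.castRingHom (ZMod r))
    rw [h2, hχ, Polynomial.map_mul, Polynomial.map_pow, map_cyclotomic]
  haveI : NeZero (d : ZMod r) := ⟨fun h => hrd ((ZMod.natCast_eq_zero_iff _ _).1 h)⟩
  have hsep := separable_cyclotomic d (ZMod r)
  -- `h` does not vanish at `q`
  have hhq : ¬ (h.map (Int.castRingHom (ZMod r))).IsRoot q := by
    intro h0
    obtain ⟨u, hu⟩ := hdvd
    have h2 := congrArg (Polynomial.map (Int.castRingHom (ZMod r))) hu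
    rw [Polynomial.map_mul, Polynomial.map_pow] at h2
    have h3 := congrArg (Polynomial.eval q) h2
    rw [IsRoot] at h0
    rw [eval_mul, h0, zero_mul, eval_pow] at h3
    have hn0 : n ≠ 0 := by
      intro hn
      rw [hn, pow_zero] at h3
      exact one_ne_zero h3
    have h4 := (pow_eq_zero_iff hn0).1 h3
    rw [Polynomial.map_prod, eval_prod, Finset.prod_eq_zero_iff] at h4
    obtain ⟨e, he, h8⟩ := h4
    rw [map_cyclotomic] at h8
    have hem : e ∣ m := (Nat.mem_divisors.1 (Finset.mem_of_mem_erase he)).1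
    haveI : NeZero (e : ZMod r) := ⟨fun h => hrm (((ZMod.natCast_eq_zero_iff _ _).1 h).trans hem)⟩
    have h9 : IsPrimitiveRoot q e := isRoot_cyclotomic_iff.1 h8
    exact (Finset.mem_erase.1 he).1 (h9.unique hq)
  have h2 : rootMultiplicity q (LinearMap.charpoly f) ≤ a := by
    have hne1 : (cyclotomic d (ZMod r)) ≠ 0 := (cyclotomic.monic d _).ne_zero
    have hne2 : h.map (Int.castRingHom (ZMod r)) ≠ 0 := (hhm.map _).ne_zero
    have hpow : ∀ j : ℕ, rootMultiplicity q ((cyclotomic d (ZMod r)) ^ j) ≤ j := by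
      intro j
      induction j with
      | zero => simp
      | succ j ih =>
        rw [pow_succ, rootMultiplicity_mul (mul_ne_zero (pow_ne_zero _ hne1) hne1)]
        exact add_le_add ih (rootMultiplicity_le_one_of_separable hsep q)
    rw [h1, rootMultiplicity_mul (mul_ne_zero (pow_ne_zero _ hne1) hne2), rootMultiplicity_eq_zero hhq, add_zero]
    exact (hpow k).trans hk
  have h3 : Module.finrank (ZMod r) (Module.End.eigenspace f q) ≤ a := by
    refine le_trans ?_ h2
    rw [← LinearMap.finrank_maxGenEigenspace_eq]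
    exact Submodule.finrank_mono (Module.End.eigenspace_le_maxGenEigenspace)
  have h4 : Nat.card {v : Fin l → ZMod r // red (ZMod r) P *ᵥ v = q • v} = Nat.card (Module.End.eigenspace f q) := by
    refine Nat.card_congr (Equiv.subtypeEquivRight fun v => ?_)
    rw [Module.End.mem_eigenspace_iff, hf, Matrix.toLin'_apply]
  rw [h4, Module.natCard_eq_pow_finrank (K := ZMod r), Nat.card_zmod]
  exact Nat.pow_le_pow_right (Fact.out : r.Prime).pos h3

end
end Cfsg.Agent.H15.CTor
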