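import Cfsg.Agent.H15.CTor4
import Cfsg.Agent.H15.CTor9
import Cfsg.Agent.H15.CTor10

/-!
# Homocyclic Sylow subgroups of Chevalley groups: the main theorem
-/

set_option autoImplicit false
set_option linter.unusedSectionVars false
set_option maxHeartbeats 1000000

namespace Cfsg.Agent.H15.CTor

open Cfsg.Agent.H6 Cfsg.Lie Cfsg.Agent.H22 Cfsg.Agent.H15.Chev
open scoped Matrix

theorem exists_conj_group {G : Type*} [Group G] [Finite G] (T Q : Subgroup G) {r : ℕ} [Fact r.Prime] (h : ¬ r ∣ T.index)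
    (hQ : IsPGroup r Q) : ∃ g : G, ∀ x ∈ Q, g⁻¹ * x * g ∈ T := by
  obtain ⟨y, hy⟩ := hQ.nonempty_fixed_point_of_prime_not_dvd_card (G ⧸ T) h
  obtain ⟨g, rfl⟩ := QuotientGroup.mk_surjective y
  refine ⟨g, fun x hx => ?_⟩
  have h1 : ((x * g : G) : G ⧸ T) = (g : G ⧸ T) := hy ⟨x, hx⟩
  have h2 := QuotientGroup.eq.1 h1.symm
  rwa [← mul_assoc] at h2

variable {D : ChevalleyDatum} {N : ℕ} {η : ℕ → ℕ → ℤ} {rc : ℕ → ℕ → ℤ}
variable (hG : Good D N η rc) (hE : Ext D rc)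

include hG hE

/-- simultaneous fusion -/
theorem fusion_all {F : Type*} [Field F] {g : GL D.Idx F} (hg : g ∈ D.group F) : ∃ n ∈ D.monomialSubgroup F, ∃ w χ,
    Mon hG (xg D F) n w χ ∧ ∀ h₁ ∈ D.diagonalSubgroup F, ∀ h₂ ∈ D.diagonalSubgroup F, g * h₁ * g⁻¹ = h₂ → n * h₁ * n⁻¹ = h₂ := by
  obtain ⟨b, hb, n, hn, w, χ, hm, u, hu, rfl⟩ := hG.canon hE hg
  refine ⟨n, hn, w, χ, hm, ?_⟩
  intro h₁ h1 h₂ h2 hc
  have hc' : b * n * u * h₁ = h₂ * (b * n * u) := by rw [← hc]; group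
  have hu2 : h₁⁻¹ * u * h₁ ∈ US (xg D F) (hG.Um w) := by
    have hh : h₁⁻¹ ∈ HA D (xg D F) := by rw [hG.HA_eq]; exact inv_mem h1
    obtain ⟨χ', hm'⟩ := hG.HA_mon (hG.rdn hE) hh
    have := hm'.mem_US (S := hG.Um w) (T := hG.Um w) (fun r hr => hr.1) (fun r hr => hr) hu
    rwa [inv_inv] at this
  have hb2 : b * (n * h₁ * n⁻¹) ∈ D.borelSubgroup F :=
    mul_mem hb (Subgroup.mem_sup_right (hG.diagonal_normal_monomial hE hn h1))
  have hb3 : h₂ * b ∈ D.borelSubgroup F := mul_mem (Subgroup.mem_sup_right h2) hb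
  have he : (b * (n * h₁ * n⁻¹)) * n * (h₁⁻¹ * u * h₁) = (h₂ * b) * n * u := by
    calc (b * (n * h₁ * n⁻¹)) * n * (h₁⁻¹ * u * h₁) = b * n * u * h₁ := by group
      _ = _ := by rw [hc']; group
  have h3 := (hG.canon_unique hE hb2 hb3 hm hu2 hu he).1
  obtain ⟨v, hv, t, ht, rfl⟩ := hG.mem_borel_iff.1 hb
  have h4 : v⁻¹ * (h₂ * v * h₂⁻¹) = t * (n * h₁ * n⁻¹) * t⁻¹ * h₂⁻¹ := by
    have h5 : v⁻¹ * (v * t * (n * h₁ * n⁻¹)) * t⁻¹ * h₂⁻¹ = v⁻¹ * (h₂ * (v * t)) * t⁻¹ * h₂⁻¹ := by rw [h3]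
    calc v⁻¹ * (h₂ * v * h₂⁻¹) = v⁻¹ * (h₂ * (v * t)) * t⁻¹ * h₂⁻¹ := by group
      _ = _ := by rw [← h5]; group
  have hn1 := hG.diagonal_normal_monomial hE hn h1
  have h6 : v⁻¹ * (h₂ * v * h₂⁻¹) ∈ D.posUnipotent F ⊓ D.diagonalSubgroup F := by
    refine Subgroup.mem_inf.2 ⟨mul_mem (inv_mem hv) (hG.diagonal_conj_pos h2 hv), ?_⟩
    rw [h4]
    exact mul_mem (mul_mem (mul_mem ht hn1) (inv_mem ht)) (inv_mem h2)
  rw [hG.pos_inf_diagonal, Subgroup.mem_bot, h4] at h6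
  have h7 : t * (n * h₁ * n⁻¹) * t⁻¹ = h₂ := by
    rwa [mul_inv_eq_one] at h6
  rw [hG.diagonal_comm ht hn1, mul_inv_cancel_right] at h7
  exact h7

theorem mon_tau_mp {F : Type*} [Field F] {n : GL D.Idx F} (hn : n ∈ D.monomialSubgroup F)
    {w : hG.W} {χ : Fin D.nroots → Fˣ} (hm : Mon hG (xg D F) n w χ) {c c' : Fin D.rank → Fˣ}
    (h1 : tau D rc F c ∈ D.diagonalSubgroup F) (h2 : tau D rc F c' ∈ D.diagonalSubgroup F)
    (h : n * tau D rc F c * n⁻¹ = tau D rc F c') (k : Fin D.rank) : ∏ j, c' j ^ Pmat hG w k j = c k := by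
  rw [tau_def, tau_def, mon_tor_iff hG hE hn hm (hG.isChr_chr _) (hG.isChr_chr _) h1 h2] at h
  have h3 := h (hG.sr k)
  have h4 : chr D.rank rc (ex c) (hG.sr k) = c k := by
    have := hG.chr_simple (ex c) k.2
    rw [ex_apply] at this
    exact this
  rw [h4, chr_ex] at h3
  exact h3

theorem sylow_core {F : Type*} [Field F] [Fintype F] {q d r a b : ℕ} (hq : Fintype.card F = q) (hd : 0 < d)
    [Fact r.Prime] (hr : IsPrimitiveRoot (q : ZMod r) d) (hrd : ¬ r ∣ d) (hrW : ¬ r ∣ Nat.card hG.W) (hb1 : 1 ≤ b)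
    (hvb : ∀ j, r ^ j ∣ q ^ d - 1 → j ≤ b)
    (hbound : ∀ (w : hG.W) (k : ℕ), Polynomial.cyclotomic d ℤ ^ k ∣ (Pmat hG w).charpoly → k ≤ a)
    (P : Subgroup ↥(D.group F)) (hP : Nat.card P = r ^ (a * b)) :
    Nonempty (P ≃* (Fin a → Multiplicative (ZMod (r ^ b)))) := by
  classical
  obtain ⟨K, iK, iFin, iAlg, hK⟩ := Cfsg.Agent.H17.exists_extension (F := F) d hd.ne'
  haveI : Module.Finite F K := Module.Finite.of_finite
  have hQ : Nat.card K = q ^ d := by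
    rw [Module.natCard_eq_pow_finrank (K := F) (V := K), hK, Nat.card_eq_fintype_card, hq]
  haveI : Finite (Matrix D.Idx D.Idx K) := inferInstanceAs (Finite (D.Idx → D.Idx → K))
  haveI : Finite (GL D.Idx K) := Finite.of_injective (fun g : GL D.Idx K => (g : Matrix D.Idx D.Idx K)) fun a b h => Units.ext h
  haveI : Finite (Matrix D.Idx D.Idx F) := inferInstanceAs (Finite (D.Idx → D.Idx → F))
  haveI : Finite (GL D.Idx F) := Finite.of_injective (fun g : GL D.Idx F => (g : Matrix D.Idx D.Idx F)) fun a b h => Units.ext h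
  let σ' : K ≃ₐ[F] K := FiniteField.frobeniusAlgEquivOfAlgebraic F K
  obtain ⟨σ, hσ⟩ : ∃ σ : K ≃+* K, ∀ x, σ x = x ^ q := ⟨σ'.toRingEquiv, fun x => by
    change (FiniteField.frobeniusAlgEquivOfAlgebraic F K) x = x ^ q
    rw [FiniteField.coe_frobeniusAlgEquivOfAlgebraic, hq]⟩
  -- the embedding
  set ι := algebraMap F K with hι
  let f : GL D.Idx F →* GL D.Idx K := Matrix.GeneralLinearGroup.map (n := D.Idx) ι
  have hfi : Function.Injective f := by
    intro a b h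
    apply Units.ext
    ext i j
    have h1 := congrArg (fun x : GL D.Idx K => (x : Matrix D.Idx D.Idx K) i j) h
    exact ι.injective h1
  have hfG : ∀ g ∈ D.group F, f g ∈ D.group K := by
    have h1 : (D.group F).map f ≤ D.group K := by
      rw [hG.group_eq_US (F := F), US, MonoidHom.map_closure, Subgroup.closure_le]
      rintro _ ⟨_, ⟨r, hr, t, rfl⟩, rfl⟩
      have h2 : f (xg D F r t) = xg D K r (ι t) := hG.map_xg ι r t
      rw [h2]
      exact hG.xg_mem_group _ _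
    exact fun g hg => h1 ⟨g, hg, rfl⟩
  have hffix : ∀ g, gmap D σ (f g) = f g := by
    intro g
    apply Units.ext
    ext i j
    change σ (ι ((g : Matrix D.Idx D.Idx F) i j)) = ι ((g : Matrix D.Idx D.Idx F) i j)
    rw [hσ, ← map_pow, ← hq, FiniteField.pow_card]
  let J : ↥P →* ↥(D.group K) := (f.comp ((D.group F).subtype.comp P.subtype)).codRestrict (D.group K) (fun x => hfG _ x.1.2)
  have hJ : ∀ x : ↥P, ((J x : ↥(D.group K)) : GL D.Idx K) = f ((x : ↥(D.group F)) : GL D.Idx F) := fun x => rfl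
  have hJi : Function.Injective J := by
    intro x y h
    have h1 := congrArg (fun z : ↥(D.group K) => (z : GL D.Idx K)) h
    exact Subtype.ext (Subtype.ext (hfi h1))
  have hPG : IsPGroup r P := IsPGroup.of_card hP
  have hJG : IsPGroup r J.range := by
    refine hPG.of_surjective J.rangeRestrict J.rangeRestrict_surjective
  have hQr : (Nat.card K : ZMod r) = 1 := by
    rw [hQ, Nat.cast_pow, hr.pow_eq_one]
  obtain ⟨g', hg'⟩ := exists_conj_group ((D.diagonalSubgroup K).subgroupOf (D.group K)) J.range (index_torus hG hE hQr hrW) hJG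
  obtain ⟨g, hgdef⟩ : ∃ g : GL D.Idx K, g = g' := ⟨_, rfl⟩
  have hgG : g ∈ D.group K := hgdef ▸ g'.2
  have hgT : ∀ x : ↥P, g⁻¹ * (J x : GL D.Idx K) * g ∈ D.diagonalSubgroup K := by
    intro x
    have h1 := hg' (J x) ⟨x, rfl⟩
    rw [Subgroup.mem_subgroupOf] at h1
    rw [hgdef]; exact h1
  have hex : ∀ x : ↥P, ∃ c : Fin D.rank → Kˣ, g⁻¹ * (J x : GL D.Idx K) * g = tau D rc K c := fun x => exists_tau hG (hgT x)
  choose ψ₀ hψ₀ using hex
  let ψ : ↥P →* (Fin D.rank → Kˣ) := MonoidHom.mk' ψ₀ (by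
    intro x y
    apply tau_injective hG
    rw [map_mul, ← hψ₀, ← hψ₀, ← hψ₀, map_mul, Subgroup.coe_mul]
    group)
  have hψ : ∀ x : ↥P, g⁻¹ * (J x : GL D.Idx K) * g = tau D rc K (ψ x) := hψ₀
  have hψi : Function.Injective ψ := by
    intro x y h
    have h1 : g⁻¹ * (J x : GL D.Idx K) * g = g⁻¹ * (J y : GL D.Idx K) * g := by rw [hψ, hψ, h]
    exact hJi (Subtype.ext (mul_left_cancel (mul_right_cancel h1)))
  -- the monomial element
  set n₀ := g⁻¹ * gmap D σ g with hn₀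
  have hn₀G : n₀ ∈ D.group K := mul_mem (inv_mem hgG) (hG.gmap_group σ hgG)
  obtain ⟨n, hn, w, χ, hm, hfus⟩ := fusion_all hG hE hn₀G
  have hker : ∀ (x : ↥P) (k : Fin D.rank), ∏ j, ψ x j ^ Pmat hG w k j = ψ x k ^ q := by
    intro x k
    have hT : tau D rc K (ψ x) ∈ D.diagonalSubgroup K := by rw [← hψ]; exact hgT x
    have hT2 : tau D rc K ((ψ x) ^ q) ∈ D.diagonalSubgroup K := by rw [map_pow]; exact pow_mem hT q
    have h1 : n₀ * tau D rc K ((ψ x) ^ q) * n₀⁻¹ = tau D rc K (ψ x) := by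
      rw [← gmap_tau hG σ hσ, ← hψ, map_mul, map_mul, map_inv, hJ, hffix, hn₀]
      group
    have h2 := hfus _ hT2 _ hT h1
    have h3 := mon_tau_mp hG hE hn hm hT2 hT h2 k
    rw [h3, Pi.pow_apply]
  -- the image
  have eS : ↥P ≃* ↥ψ.range := MonoidHom.ofInjective hψi
  have hrp : r.Prime := Fact.out
  have hcardu : Nat.card Kˣ = q ^ d - 1 := by rw [Nat.card_units, hQ]
  have hcardS : Nat.card ↥ψ.range = r ^ (a * b) := by rw [← Nat.card_congr eS.toEquiv, hP]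
  have hexpS : ∀ x : ↥ψ.range, x ^ (r ^ b) = 1 := by
    intro x
    apply Subtype.ext
    funext k
    change ((x : Fin D.rank → Kˣ) k) ^ (r ^ b) = 1
    have h1 : ((x : Fin D.rank → Kˣ) k) ^ (r ^ (a * b)) = 1 := by
      have h2 : x ^ (r ^ (a * b)) = 1 := by rw [← hcardS]; exact pow_card_eq_one'
      have h3 := congrArg Subtype.val h2
      exact congrFun h3 k
    obtain ⟨j, hj, hoj⟩ := (Nat.dvd_prime_pow hrp).1 (orderOf_dvd_of_pow_eq_one h1)
    have h2 : r ^ j ∣ q ^ d - 1 := by rw [← hoj, ← hcardu]; exact orderOf_dvd_natCard _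
    rw [← orderOf_dvd_iff_pow_eq_one, hoj]
    exact pow_dvd_pow r (hvb j h2)
  -- torsion
  have hrK : r ∣ Nat.card Kˣ := by
    have h1 := hQr
    rw [hQ] at h1
    have hqpos : 1 ≤ q ^ d := Nat.one_le_pow _ _ (by rw [← hq]; exact Fintype.card_pos)
    rw [hcardu, ← ZMod.natCast_eq_zero_iff, Nat.cast_sub hqpos, h1, Nat.cast_one, sub_self]
  obtain ⟨ζ, hζ⟩ : ∃ ζ : Kˣ, orderOf ζ = r := by
    haveI : Fintype Kˣ := Fintype.ofFinite _
    rw [Nat.card_eq_fintype_card] at hrK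
    exact exists_prime_orderOf_dvd_card r hrK
  have hexp : ∀ (c : {x : ↥ψ.range // x ^ r = 1}) (k : Fin D.rank), ∃ i : ℤ, (c.1 : Fin D.rank → Kˣ) k = ζ ^ i := by
    intro c k
    have h1 : IsPrimitiveRoot (ζ : K) r := by
      have : IsPrimitiveRoot ζ r := by rw [← hζ]; exact IsPrimitiveRoot.orderOf ζ
      exact IsPrimitiveRoot.coe_units_iff.2 this
    have h2 : (((c.1 : Fin D.rank → Kˣ) k : Kˣ) : K) ^ r = 1 := by
      have h3 := congrArg Subtype.val c.2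
      have h4 : ((c.1 : Fin D.rank → Kˣ) k) ^ r = 1 := congrFun h3 k
      rw [← Units.val_pow_eq_pow_val, h4]; rfl
    obtain ⟨i, _, hi⟩ := h1.eq_pow_of_pow_eq_one h2
    refine ⟨i, ?_⟩
    apply Units.ext
    rw [zpow_natCast, Units.val_pow_eq_pow_val, hi]
  choose A hA using hexp
  set m := Nat.card hG.W with hmdef
  have hm0 : m ≠ 0 := Nat.card_pos.ne'
  have hPm : Pmat hG w ^ m = 1 := by
    rw [← Pmat_pow, hmdef, pow_card_eq_one', Pmat_one]
  have htor : Nat.card {x : ↥ψ.range // x ^ r = 1} ≤ r ^ a := by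
    refine le_trans ?_ (card_eig_le (a := a) hPm hm0 hrW hr hd hrd (hbound w))
    refine Nat.card_le_card_of_injective (fun c => ⟨fun k => (A c k : ZMod r), ?_⟩) ?_
    · funext k
      obtain ⟨y, hy⟩ := c.1.2
      have h1 := hker y k
      rw [hy] at h1
      have h2 : ∏ j, (c.1 : Fin D.rank → Kˣ) j ^ Pmat hG w k j = ζ ^ (A c k * (q : ℤ)) := by
        rw [h1, hA c k, ← zpow_natCast, ← zpow_mul]
      rw [prod_zpow_iff hζ (hA c)] at h2
      have h3 : (red (ZMod r) (Pmat hG w) *ᵥ (fun k => (A c k : ZMod r))) k =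
          (fun i => ((Pmat hG w k i : ℤ) : ZMod r)) ⬝ᵥ (fun i => (A c i : ZMod r)) := rfl
      rw [h3, h2, Pi.smul_apply, smul_eq_mul]
      push_cast
      ring
    · intro c c' h
      have h1 := congrArg Subtype.val h
      apply Subtype.ext
      apply Subtype.ext
      funext k
      have h2 : (A c k : ZMod r) = (A c' k : ZMod r) := congrFun h1 k
      rw [hA c k, hA c' k, zpow_eq_zpow_iff_modEq, hζ]
      exact (ZMod.intCast_eq_intCast_iff _ _ _).1 h2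
  obtain ⟨e⟩ := homocyclic_of hb1 hcardS hexpS htor
  exact ⟨eS.trans e⟩

end Cfsg.Agent.H15.CTor
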