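import Cfsg.Agent.H15.CTor11

/-!
# Homocyclic Sylow subgroups of Chevalley groups: valuations
-/

set_option autoImplicit false
set_option linter.unusedSectionVars false
set_option maxHeartbeats 1000000

namespace Cfsg.Agent.H15.CTor

open Cfsg.Agent.H6 Cfsg.Lie Cfsg.Agent.H22 Cfsg.Agent.H15.Chev
open scoped Matrix

theorem cast_pow_eq_one_iff {r q e : ℕ} (hq : 1 ≤ q) : (q : ZMod r) ^ e = 1 ↔ r ∣ q ^ e - 1 := by
  have h1 : 1 ≤ q ^ e := Nat.one_le_pow _ _ hq
  rw [← ZMod.natCast_eq_zero_iff, Nat.cast_sub h1, Nat.cast_one, sub_eq_zero, Nat.cast_pow]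

theorem order_facts {r q : ℕ} [Fact r.Prime] (hrq : ¬ r ∣ q) :
    0 < orderOf (q : ZMod r) ∧ ¬ r ∣ orderOf (q : ZMod r) := by
  have h0 : (q : ZMod r) ≠ 0 := by rwa [Ne, ZMod.natCast_eq_zero_iff]
  have h1 : orderOf (q : ZMod r) ∣ r - 1 := ZMod.orderOf_dvd_card_sub_one h0
  have hr : r.Prime := Fact.out
  have h2 : 0 < r - 1 := Nat.sub_pos_of_lt hr.one_lt
  have h3 : 0 < orderOf (q : ZMod r) := Nat.pos_of_dvd_of_pos h1 h2
  refine ⟨h3, fun h => ?_⟩
  have h4 := Nat.le_of_dvd h3 h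
  have h5 := Nat.le_of_dvd h2 h1
  omega

theorem val_order {r q : ℕ} [Fact r.Prime] (hq2 : 2 ≤ q) (hrq : ¬ r ∣ q) :
    padicValNat r (q ^ orderOf (q : ZMod r) - 1) =
      padicValNat r ((Polynomial.cyclotomic (orderOf (q : ZMod r)) ℤ).eval (q : ℤ)).natAbs := by
  obtain ⟨hd, hrd⟩ := order_facts hrq
  have hr : r.Prime := Fact.out
  set d := orderOf (q : ZMod r) with hdd
  have h1 : (Polynomial.cyclotomic d ℤ).eval (q : ℤ) * ∏ i ∈ Nat.properDivisors d, (Polynomial.cyclotomic i ℤ).eval (q : ℤ) = (q : ℤ) ^ d - 1 := by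
    have h2 := (Polynomial.eq_cyclotomic_iff hd (Polynomial.cyclotomic d ℤ)).1 rfl
    have h3 := congrArg (Polynomial.eval (q : ℤ)) h2
    rw [Polynomial.eval_mul, Polynomial.eval_prod] at h3
    rw [h3]
    simp
  have hqd : 1 < q ^ d := Nat.one_lt_pow hd.ne' hq2
  have h2 : q ^ d - 1 = ((Polynomial.cyclotomic d ℤ).eval (q : ℤ)).natAbs *
      (∏ i ∈ Nat.properDivisors d, (Polynomial.cyclotomic i ℤ).eval (q : ℤ)).natAbs := by
    rw [← Int.natAbs_mul, h1]
    have h3 : ((q : ℤ) ^ d - 1) = ((q ^ d - 1 : ℕ) : ℤ) := by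
      rw [Nat.cast_sub hqd.le]; push_cast; rfl
    rw [h3, Int.natAbs_natCast]
  have h0 : q ^ d - 1 ≠ 0 := by omega
  have hA : ((Polynomial.cyclotomic d ℤ).eval (q : ℤ)).natAbs ≠ 0 := by
    intro h; rw [h, zero_mul] at h2; exact h0 h2
  have hB : (∏ i ∈ Nat.properDivisors d, (Polynomial.cyclotomic i ℤ).eval (q : ℤ)).natAbs ≠ 0 := by
    intro h; rw [h, mul_zero] at h2; exact h0 h2
  have hrp : ¬ r ∣ (∏ i ∈ Nat.properDivisors d, (Polynomial.cyclotomic i ℤ).eval (q : ℤ)).natAbs := by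
    intro h
    have h3 : (r : ℤ) ∣ ∏ i ∈ Nat.properDivisors d, (Polynomial.cyclotomic i ℤ).eval (q : ℤ) := Int.natCast_dvd.2 h
    obtain ⟨i, hi, h4⟩ := (Prime.dvd_finset_prod_iff (Nat.prime_iff_prime_int.1 hr) _).1 h3
    rw [Nat.mem_properDivisors] at hi
    have h5 : (Polynomial.cyclotomic i ℤ).eval (q : ℤ) ∣ (q : ℤ) ^ i - 1 := by
      obtain ⟨k, hk⟩ := Polynomial.cyclotomic.dvd_X_pow_sub_one i ℤ
      refine ⟨k.eval (q : ℤ), ?_⟩
      rw [← Polynomial.eval_mul, ← hk]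
      simp
    have h6 : (r : ℤ) ∣ ((q ^ i - 1 : ℕ) : ℤ) := by
      rw [Nat.cast_sub (Nat.one_le_pow _ _ (by omega))]
      push_cast
      exact h4.trans h5
    have h7 := (cast_pow_eq_one_iff (by omega : 1 ≤ q)).2 (Int.natCast_dvd_natCast.1 h6)
    have h8 := orderOf_dvd_of_pow_eq_one h7
    have hi0 : 0 < i := Nat.pos_of_dvd_of_pos hi.1 hd
    have := Nat.le_of_dvd hi0 h8
    omega
  rw [h2, padicValNat.mul hA hB, padicValNat.eq_zero_of_not_dvd hrp, add_zero]

theorem val_pow_sub_one {r q : ℕ} [Fact r.Prime] (hq2 : 2 ≤ q) (hrq : ¬ r ∣ q) {e : ℕ} (he : 0 < e) (hre : ¬ r ∣ e) :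
    padicValNat r (q ^ e - 1) = if orderOf (q : ZMod r) ∣ e then
      padicValNat r ((Polynomial.cyclotomic (orderOf (q : ZMod r)) ℤ).eval (q : ℤ)).natAbs else 0 := by
  obtain ⟨hd, hrd⟩ := order_facts hrq
  have hr : r.Prime := Fact.out
  rw [← val_order hq2 hrq]
  set d := orderOf (q : ZMod r) with hdd
  split_ifs with h
  · obtain ⟨n, rfl⟩ := h
    have hn : 0 < n := Nat.pos_of_ne_zero (by rintro rfl; simp at he)
    have hqd : 1 < q ^ d := Nat.one_lt_pow hd.ne' hq2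
    have h1 : q ^ (d * n) - 1 = (∑ i ∈ Finset.range n, (q ^ d) ^ i) * (q ^ d - 1) := by
      have := geom_sum_mul_add (q ^ d - 1) n
      rw [Nat.sub_add_cancel hqd.le] at this
      rw [pow_mul, ← this, Nat.add_sub_cancel]
    have h2 : ¬ r ∣ ∑ i ∈ Finset.range n, (q ^ d) ^ i := by
      intro h3
      rw [← ZMod.natCast_eq_zero_iff] at h3
      push_cast at h3
      have h4 : (q : ZMod r) ^ d = 1 := pow_orderOf_eq_one _
      simp only [h4, one_pow, Finset.sum_const, Finset.card_range, nsmul_eq_mul, mul_one] at h3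
      rw [ZMod.natCast_eq_zero_iff] at h3
      exact hre (h3.trans (dvd_mul_left _ _))
    have h3 : ∑ i ∈ Finset.range n, (q ^ d) ^ i ≠ 0 := fun h => h2 (h ▸ dvd_zero _)
    rw [h1, padicValNat.mul h3 (by omega), padicValNat.eq_zero_of_not_dvd h2, zero_add]
  · apply padicValNat.eq_zero_of_not_dvd
    intro h1
    exact h (orderOf_dvd_of_pow_eq_one ((cast_pow_eq_one_iff (by omega : 1 ≤ q)).2 h1))

theorem val_prod {r q : ℕ} [Fact r.Prime] (hq2 : 2 ≤ q) (hrq : ¬ r ∣ q) (degs : List ℕ) (hpos : ∀ e ∈ degs, 0 < e)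
    (hr : ¬ r ∣ degs.prod) :
    (degs.map fun e => q ^ e - 1).prod ≠ 0 ∧ padicValNat r (degs.map fun e => q ^ e - 1).prod =
      (degs.filter (fun e => orderOf (q : ZMod r) ∣ e)).length *
        padicValNat r ((Polynomial.cyclotomic (orderOf (q : ZMod r)) ℤ).eval (q : ℤ)).natAbs := by
  induction degs with
  | nil => simp
  | cons e l ih =>
    obtain ⟨h1, h2⟩ := ih (fun x hx => hpos x (List.mem_cons_of_mem _ hx)) (fun h => hr (by rw [List.prod_cons]; exact h.mul_left _))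
    have he : 0 < e := hpos e List.mem_cons_self
    have hre : ¬ r ∣ e := fun h => hr (by rw [List.prod_cons]; exact h.mul_right _)
    have h3 : q ^ e - 1 ≠ 0 := by
      have := Nat.one_lt_pow he.ne' hq2
      omega
    rw [List.map_cons, List.prod_cons]
    refine ⟨mul_ne_zero h3 h1, ?_⟩
    rw [padicValNat.mul h3 h1, h2, val_pow_sub_one hq2 hrq he hre]
    by_cases h : orderOf (q : ZMod r) ∣ e
    · rw [if_pos h, List.filter_cons_of_pos (by simpa using h), List.length_cons]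
      ring
    · rw [if_neg h, List.filter_cons_of_neg (by simpa using h), zero_add]

variable {D : ChevalleyDatum} {N : ℕ} {η : ℕ → ℕ → ℤ} {rc : ℕ → ℕ → ℤ}
variable (hG : Good D N η rc) (hE : Ext D rc)

include hG hE

theorem sylow_homocyclic {F : Type*} [Field F] [Fintype F] {q r g n : ℕ} [Fact r.Prime] (hq : Fintype.card F = q) (degs : List ℕ)
    (hpos : ∀ e ∈ degs, 0 < e) (hrq : ¬ r ∣ q) (hrdegs : ¬ r ∣ degs.prod) (hW : Nat.card hG.W = degs.prod)
    (hg : ¬ r ∣ g) (hord : g * Nat.card ↥(D.group F) = q ^ n * (degs.map fun e => q ^ e - 1).prod)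
    (hbound : ∀ d : ℕ, 0 < d → (∃ e ∈ degs, d ∣ e) → ∀ (w : hG.W) (k : ℕ),
      Polynomial.cyclotomic d ℤ ^ k ∣ (Pmat hG w).charpoly → k ≤ (degs.filter (fun e => d ∣ e)).length)
    (hrG : r ∣ Nat.card ↥(D.group F)) (P : Sylow r ↥(D.group F)) :
    Nonempty (↥(P : Subgroup ↥(D.group F)) ≃*
      (Fin (degs.filter (fun e => orderOf (q : ZMod r) ∣ e)).length →
        Multiplicative (ZMod (r ^ padicValNat r ((Polynomial.cyclotomic (orderOf (q : ZMod r)) ℤ).eval (q : ℤ)).natAbs)))) := by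
  classical
  have hq2 : 2 ≤ q := by rw [← hq]; exact Fintype.one_lt_card
  obtain ⟨hd, hrd⟩ := order_facts hrq
  have hr : r.Prime := Fact.out
  obtain ⟨h1, h2⟩ := val_prod hq2 hrq degs hpos hrdegs
  haveI : Finite (Matrix D.Idx D.Idx F) := inferInstanceAs (Finite (D.Idx → D.Idx → F))
  haveI : Finite (GL D.Idx F) := Finite.of_injective (fun g : GL D.Idx F => (g : Matrix D.Idx D.Idx F)) fun a b h => Units.ext h
  have hc0 : Nat.card ↥(D.group F) ≠ 0 := Nat.card_pos.ne'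
  have hg0 : g ≠ 0 := fun h => hg (h ▸ dvd_zero _)
  have hqn : ¬ r ∣ q ^ n := fun h => hrq (hr.dvd_of_dvd_pow h)
  have hqn0 : q ^ n ≠ 0 := fun h => hqn (h ▸ dvd_zero _)
  have hval : padicValNat r (Nat.card ↥(D.group F)) = (degs.filter (fun e => orderOf (q : ZMod r) ∣ e)).length *
        padicValNat r ((Polynomial.cyclotomic (orderOf (q : ZMod r)) ℤ).eval (q : ℤ)).natAbs := by
    have h3 := congrArg (padicValNat r) hord
    rw [padicValNat.mul hg0 hc0, padicValNat.mul hqn0 h1, padicValNat.eq_zero_of_not_dvd hg,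
      padicValNat.eq_zero_of_not_dvd hqn, zero_add, zero_add, h2] at h3
    exact h3
  have hvpos : 1 ≤ padicValNat r (Nat.card ↥(D.group F)) := one_le_padicValNat_of_dvd hc0 hrG
  have hne : ∃ e ∈ degs, orderOf (q : ZMod r) ∣ e := by
    by_contra hcon
    push Not at hcon
    have h3 : (degs.filter (fun e => orderOf (q : ZMod r) ∣ e)) = [] := by
      rw [List.filter_eq_nil_iff]
      intro e he
      simpa using hcon e he
    rw [hval, h3] at hvpos
    simp at hvpos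
  have hb1 : 1 ≤ padicValNat r ((Polynomial.cyclotomic (orderOf (q : ZMod r)) ℤ).eval (q : ℤ)).natAbs := by
    rw [hval] at hvpos
    by_contra hcon
    have h3 : padicValNat r ((Polynomial.cyclotomic (orderOf (q : ZMod r)) ℤ).eval (q : ℤ)).natAbs = 0 := by omega
    rw [h3, mul_zero] at hvpos
    omega
  have hcardP : Nat.card ↥(P : Subgroup ↥(D.group F)) = r ^ ((degs.filter (fun e => orderOf (q : ZMod r) ∣ e)).length *
        padicValNat r ((Polynomial.cyclotomic (orderOf (q : ZMod r)) ℤ).eval (q : ℤ)).natAbs) := by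
    have h3 := P.card_eq_multiplicity
    rw [Nat.factorization_def _ hr, hval] at h3
    exact h3
  refine sylow_core hG hE hq hd (IsPrimitiveRoot.orderOf _) hrd (by rw [hW]; exact hrdegs) hb1 ?_ (hbound _ hd hne) _ hcardP
  intro j hj
  rw [← val_order hq2 hrq]
  have hqd : 1 < q ^ orderOf (q : ZMod r) := Nat.one_lt_pow hd.ne' hq2
  exact (padicValNat_dvd_iff_le (by omega)).1 hj

end Cfsg.Agent.H15.CTor
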