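import Cfsg.Agent.H15.CTor9

/-!
# Multiplicities of cyclotomic factors: linear algebra
-/

set_option autoImplicit false
set_option linter.unusedSectionVars false
set_option maxHeartbeats 1000000

namespace Cfsg.Agent.H15.CTor

open Matrix Polynomial

section
variable {l : ℕ}

theorem deg_bound {P : Matrix (Fin l) (Fin l) ℤ} {d k : ℕ} (h : cyclotomic d ℤ ^ k ∣ P.charpoly) : k * Nat.totient d ≤ l := by
  have h1 := natDegree_le_of_dvd h (Matrix.charpoly_monic P).ne_zero
  rw [natDegree_pow, natDegree_cyclotomic, Matrix.charpoly_natDegree_eq_dim, Fintype.card_fin] at h1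
  exact h1

theorem fixed_mod {P : Matrix (Fin l) (Fin l) ℤ} {p : ℕ} [Fact p.Prime] {z : Fin l → ZMod p} (hz : z ≠ 0)
    (h : z ᵥ* red (ZMod p) P = z) : (p : ℤ) ∣ P.charpoly.eval 1 := by
  have h1 : (red (ZMod p) P).charpoly = P.charpoly.map (Int.castRingHom (ZMod p)) := Matrix.charpoly_map P (Int.castRingHom (ZMod p))
  have h2 : (red (ZMod p) P).charpoly.eval 1 = 0 := by
    rw [Matrix.eval_charpoly]
    apply Matrix.exists_vecMul_eq_zero_iff.1
    refine ⟨z, hz, ?_⟩
    rw [Matrix.vecMul_sub, h]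
    simp
  rw [h1] at h2
  have h3 : eval (1 : ZMod p) (P.charpoly.map (Int.castRingHom (ZMod p))) = ((P.charpoly.eval 1 : ℤ) : ZMod p) := by
    have := Polynomial.eval_intCast_map (Int.castRingHom (ZMod p)) P.charpoly 1
    rw [Int.cast_one] at this
    rw [this]; rfl
  rw [h3] at h2
  exact (ZMod.intCast_zmod_eq_zero_iff_dvd _ _).1 h2

theorem full_rank_false {P : Matrix (Fin l) (Fin l) ℤ} {p d k : ℕ} [Fact p.Prime] {z : Fin l → ZMod p} (hz : z ≠ 0)
    (h : z ᵥ* red (ZMod p) P = z) (hdvd : cyclotomic d ℤ ^ k ∣ P.charpoly) (hk : k * Nat.totient d = l)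
    (h1 : ¬ (p : ℤ) ∣ (cyclotomic d ℤ).eval 1) : False := by
  have h2 : P.charpoly = cyclotomic d ℤ ^ k := by
    refine eq_of_monic_of_dvd_of_natDegree_le ((cyclotomic.monic d ℤ).pow k) (Matrix.charpoly_monic P) hdvd ?_
    rw [natDegree_pow, natDegree_cyclotomic, Matrix.charpoly_natDegree_eq_dim, Fintype.card_fin, hk]
  have h3 := fixed_mod hz h
  rw [h2, eval_pow] at h3
  have hp : p.Prime := Fact.out
  exact h1 ((Nat.prime_iff_prime_int.1 hp).dvd_of_dvd_pow h3)

/-- semisimplicity -/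
theorem semisimple {P : Matrix (Fin l) (Fin l) ℤ} {m n : ℕ} (hPm : P ^ m = 1) (hm : m ≠ 0) (hn : n ≠ 0) {f : ℤ[X]}
    (h : P.charpoly ∣ f ^ n) : aeval P f = 0 := by
  apply red_injective ℚ
  have h0 : red ℚ (0 : Matrix (Fin l) (Fin l) ℤ) = 0 := map_zero ((Int.castRingHom ℚ).mapMatrix)
  rw [red_aeval, h0]
  set A := red ℚ P with hA
  have h1 : minpoly ℚ A ∣ X ^ m - C (1 : ℚ) := by
    apply minpoly.dvd
    rw [map_sub, map_pow, aeval_X, aeval_C, map_one, hA, ← map_pow, hPm, map_one, sub_self]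
  have h2 : Squarefree (X ^ m - C (1 : ℚ)) := (separable_X_pow_sub_C (1 : ℚ) (by exact_mod_cast hm) one_ne_zero).squarefree
  have h3 : Squarefree (minpoly ℚ A) := h2.squarefree_of_dvd h1
  have h4 : minpoly ℚ A ∣ (f.map (Int.castRingHom ℚ)) ^ n := by
    apply minpoly.dvd
    obtain ⟨g, hg⟩ := h
    rw [← Polynomial.map_pow, hg, Polynomial.map_mul, map_mul]
    have h5 : A.charpoly = P.charpoly.map (Int.castRingHom ℚ) := Matrix.charpoly_map P (Int.castRingHom ℚ)
    rw [← h5, Matrix.aeval_self_charpoly, zero_mul]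
  have h5 := (h3.dvd_pow_iff_dvd hn).1 h4
  obtain ⟨g, hg⟩ := h5
  rw [hg, map_mul, minpoly.aeval, zero_mul]

/-- idempotents of trace one -/
theorem rank_one_of_idem {E : Matrix (Fin l) (Fin l) ℚ} (hE : E * E = E) (ht : E.trace = 1) :
    ∃ v c : Fin l → ℚ, ∀ i j, E i j = v i * c j := by
  have h1 : IsIdempotentElem (Matrix.toLin' E) := by
    have h2 := Matrix.toLin'_mul E E
    rw [hE] at h2
    exact h2.symm
  have h2 := LinearMap.IsIdempotentElem.isProj_range _ h1
  have h3 := h2.trace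
  rw [Matrix.trace_toLin'_eq, ht] at h3
  have h4 : Module.finrank ℚ (LinearMap.range (Matrix.toLin' E)) = 1 := by exact_mod_cast h3.symm
  obtain ⟨v, _, hv⟩ := finrank_eq_one_iff'.1 h4
  have h5 : ∀ j, ∃ c : ℚ, ∀ i, E i j = v.1 i * c := by
    intro j
    obtain ⟨c, hc⟩ := hv ⟨Matrix.toLin' E (Pi.single j 1), ⟨_, rfl⟩⟩
    refine ⟨c, fun i => ?_⟩
    have h6 := congrFun (congrArg Subtype.val hc) i
    have h7 : c * v.1 i = (Matrix.toLin' E (Pi.single j 1)) i := h6
    rw [Matrix.toLin'_apply, Matrix.mulVec_single_one] at h7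
    rw [mul_comm, h7]; rfl
  choose c hc using h5
  exact ⟨v.1, c, fun i j => hc j i⟩

/-- minors of an integral matrix proportional to an idempotent of trace one -/
theorem minors {M C : Matrix (Fin l) (Fin l) ℤ} (hM : M * M = (2 : ℤ) • M) (ht : M.trace = 2) (i j a b : Fin l) :
    (M * C) i j * (M * C) a b = (M * C) i b * (M * C) a j := by
  set E : Matrix (Fin l) (Fin l) ℚ := (1 / 2 : ℚ) • red ℚ M with hEdef
  have hE : E * E = E := by
    have h1 : red ℚ M * red ℚ M = (2 : ℚ) • red ℚ M := by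
      have h2 := congrArg (red ℚ) hM
      have h3 : red ℚ (M * M) = red ℚ M * red ℚ M := map_mul ((Int.castRingHom ℚ).mapMatrix) M M
      rw [← h3, h2]
      ext i j
      change (((2 : ℤ) * M i j : ℤ) : ℚ) = (2 : ℚ) * ((M i j : ℤ) : ℚ)
      push_cast
      rfl
    rw [hEdef, Matrix.smul_mul, Matrix.mul_smul, h1, smul_smul, smul_smul]
    congr 1
    norm_num
  have hE2 : E.trace = 1 := by
    have h1 : (red ℚ M).trace = ((M.trace : ℤ) : ℚ) := by
      simp [Matrix.trace, red]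
    rw [hEdef, Matrix.trace_smul, h1, ht]
    norm_num
  obtain ⟨v, c, hvc⟩ := rank_one_of_idem hE hE2
  have h2 : ∀ i j, ((M i j : ℤ) : ℚ) = 2 * v i * c j := by
    intro i j
    have h3 := hvc i j
    rw [hEdef, Matrix.smul_apply, smul_eq_mul] at h3
    have h4 : red ℚ M i j = ((M i j : ℤ) : ℚ) := rfl
    rw [h4] at h3
    linarith
  have h3 : ∀ i j, (((M * C) i j : ℤ) : ℚ) = 2 * v i * ∑ k, c k * (C k j : ℚ) := by
    intro i j
    rw [Matrix.mul_apply]
    push_cast
    rw [Finset.mul_sum]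
    refine Finset.sum_congr rfl fun k _ => ?_
    rw [h2]; ring
  have h4 : (((M * C) i j * (M * C) a b : ℤ) : ℚ) = (((M * C) i b * (M * C) a j : ℤ) : ℚ) := by
    push_cast
    rw [h3, h3, h3, h3]
    ring
  exact_mod_cast h4

/-- the trace identity -/
theorem trace_quad {A K : Matrix (Fin l) (Fin l) ℤ} (hs : ∀ i j, A i j = A j i)
    (hm : ∀ i j a b, A i j * A a b = A i b * A a j) (i : Fin l) :
    A i i * (A * K).trace = ∑ a, ∑ b, A i a * K a b * A i b := by
  rw [Matrix.trace, Finset.mul_sum]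
  have h1 : ∀ x, A i i * (A * K).diag x = ∑ b, A i b * K b x * A i x := by
    intro x
    rw [Matrix.diag_apply, Matrix.mul_apply, Finset.mul_sum]
    refine Finset.sum_congr rfl fun b _ => ?_
    rw [← mul_assoc, hm i i x b, hs x i]
    ring
  rw [Finset.sum_congr rfl fun x _ => h1 x, Finset.sum_comm]
end

end Cfsg.Agent.H15.CTor
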