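import Cfsg.Agent.H15.CTor13

/-!
# Two exceptional bounds: involutions of `E₆` and elements of order four of `E₇`
-/

set_option autoImplicit false
set_option linter.unusedSectionVars false
set_option maxHeartbeats 1000000

namespace Cfsg.Agent.H15.CTor

open Matrix Polynomial

theorem not_sq_two_mod_three (x : ℤ) (h : (3 : ℤ) ∣ 2 - x ^ 2) : False := by
  have h1 : x % 3 = 0 ∨ x % 3 = 1 ∨ x % 3 = 2 := by omega
  have h2 : x = 3 * (x / 3) + x % 3 := by omega
  obtain ⟨k, hk⟩ := h
  rcases h1 with h1 | h1 | h1 <;> rw [h1] at h2 <;> rw [h2] at hk <;> ring_nf at hk <;> omega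

theorem not_one_sq_mod_four (x : ℤ) (h : (4 : ℤ) ∣ 1 + x ^ 2) : False := by
  have h2 : x = 2 * (x / 2) ∨ x = 2 * (x / 2) + 1 := by omega
  obtain ⟨k, hk⟩ := h
  rcases h2 with h2 | h2 <;> rw [h2] at hk <;> ring_nf at hk <;> omega

theorem not_two_sq_mod_four (x : ℤ) (h : (4 : ℤ) ∣ 2 + x ^ 2) : False := by
  have h2 : x = 2 * (x / 2) ∨ x = 2 * (x / 2) + 1 := by omega
  obtain ⟨k, hk⟩ := h
  rcases h2 with h2 | h2 <;> rw [h2] at hk <;> ring_nf at hk <;> omega

theorem e6_core {C K P : Matrix (Fin 6) (Fin 6) ℤ} {z : Fin 6 → ℤ} (hCK : C * K = (3 : ℤ) • 1) (hC : Cᵀ = C)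
    (hC2 : ∀ k, C k k = 2) (hK : ∀ i j, (3 : ℤ) ∣ K i j - z i * z j) (hz0 : z 0 = 1) (h2 : (P + 1) * (P - 1) = 0)
    (hinv : P * C * Pᵀ = C) (htr : P.trace = -4) (hzP : (3 : ℤ) ∣ (z ᵥ* P) 0 - z 0)
    (hb : ∀ k, -2 ≤ (P * C) k k ∧ (P * C) k k ≤ 2) : False := by
  have hPP : P * P = 1 := by
    have h : (P + 1) * (P - 1) = P * P - 1 := by noncomm_ring
    rw [h] at h2
    exact sub_eq_zero.1 h2
  obtain ⟨M, hM⟩ : ∃ M, M = P + 1 := ⟨_, rfl⟩
  have hMM : M * M = (2 : ℤ) • M := by
    have h : M * M = P * P + P + P + 1 := by rw [hM]; noncomm_ring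
    rw [h, hPP, hM, two_smul]; abel
  have htrM : M.trace = 2 := by
    rw [hM, Matrix.trace_add, htr, Matrix.trace_one]; norm_num [Fintype.card_fin]
  have hmin := minors (C := C) hMM htrM
  obtain ⟨A, hA⟩ : ∃ A, A = M * C := ⟨_, rfl⟩
  rw [← hA] at hmin
  have hA1 : A = P * C + C := by rw [hA, hM, Matrix.add_mul, Matrix.one_mul]
  have hCP : C * Pᵀ = P * C := by
    calc C * Pᵀ = P * P * C * Pᵀ := by rw [hPP, Matrix.one_mul]
      _ = P * (P * C * Pᵀ) := by simp only [Matrix.mul_assoc]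
      _ = P * C := by rw [hinv]
  have hAs : Aᵀ = A := by
    rw [hA1, Matrix.transpose_add, Matrix.transpose_mul, hC, hCP]
  have hs : ∀ i j, A i j = A j i := fun i j => congrFun (congrFun hAs.symm i) j
  have htrAK : (A * K).trace = 6 := by
    rw [hA, Matrix.mul_assoc, hCK, Matrix.mul_smul, Matrix.mul_one, Matrix.trace_smul, htrM]; rfl
  have hd : ∀ k, 0 ≤ A k k ∧ A k k ≤ 4 := by
    intro k
    rw [hA1, Matrix.add_apply, hC2]
    have := hb k
    constructor <;> linarith [this.1, this.2]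
  have hquad : ∀ i, A i i * 6 = ∑ a, ∑ b, A i a * K a b * A i b := fun i => by
    rw [← htrAK]; exact trace_quad hs hmin i
  have hmod : ∀ f : Fin 6 → ℤ, (3 : ℤ) ∣ (∑ a, ∑ b, f a * K a b * f b) - (∑ a, f a * z a) ^ 2 := by
    intro f
    have h : (∑ a, ∑ b, f a * K a b * f b) - (∑ a, f a * z a) ^ 2 = ∑ a, ∑ b, f a * (K a b - z a * z b) * f b := by
      rw [pow_two, Finset.sum_mul_sum, ← Finset.sum_sub_distrib]
      refine Finset.sum_congr rfl fun a _ => ?_
      rw [← Finset.sum_sub_distrib]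
      refine Finset.sum_congr rfl fun b _ => ?_
      ring
    rw [h]
    exact Finset.dvd_sum fun a _ => Finset.dvd_sum fun b _ => ((hK a b).mul_left _).mul_right _
  have ht : ∀ i, (3 : ℤ) ∣ ∑ a, A i a * z a := by
    intro i
    have h3 := hmod (A i)
    rw [← hquad i] at h3
    have h4 : (3 : ℤ) ∣ (∑ a, A i a * z a) ^ 2 := by
      have h5 : (3 : ℤ) ∣ A i i * 6 := ⟨A i i * 2, by ring⟩
      have h6 := dvd_sub h5 h3
      rwa [sub_sub_cancel] at h6
    exact Int.prime_three.dvd_of_dvd_pow h4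
  have hAi : ∀ i, (3 : ℤ) ∣ A i i := by
    intro i
    have e1 : (z ᵥ* (A * K)) 0 = 3 * (z ᵥ* M) 0 := by
      rw [hA, Matrix.mul_assoc, hCK, Matrix.mul_smul, Matrix.mul_one, Matrix.vecMul_smul]; rfl
    have e2 : A i i * (z ᵥ* (A * K)) 0 = (∑ a, A i a * z a) * ∑ b, A i b * K b 0 := by
      have h : (z ᵥ* (A * K)) 0 = ∑ a, ∑ b, z a * (A a b * K b 0) := by
        simp only [Matrix.vecMul, dotProduct, Matrix.mul_apply, Finset.mul_sum]
      rw [h, Finset.sum_mul_sum, Finset.mul_sum]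
      refine Finset.sum_congr rfl fun a _ => ?_
      rw [Finset.mul_sum]
      refine Finset.sum_congr rfl fun b _ => ?_
      have h5 := hmin i i a b
      rw [hs a i] at h5
      calc A i i * (z a * (A a b * K b 0)) = A i i * A a b * (z a * K b 0) := by ring
        _ = A i b * A i a * (z a * K b 0) := by rw [h5]
        _ = _ := by ring
    have e3 : (3 : ℤ) ∣ ∑ b, A i b * K b 0 := by
      have h : ∑ b, A i b * K b 0 = (∑ b, A i b * (K b 0 - z b * z 0)) + (∑ b, A i b * z b) * z 0 := by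
        rw [Finset.sum_mul, ← Finset.sum_add_distrib]
        refine Finset.sum_congr rfl fun b _ => ?_
        ring
      rw [h]
      exact dvd_add (Finset.dvd_sum fun b _ => (hK b 0).mul_left _) ((ht i).mul_right _)
    obtain ⟨t, htt⟩ := ht i
    obtain ⟨s, hss⟩ := e3
    rw [e1, htt, hss] at e2
    have e4 : A i i * (z ᵥ* M) 0 = 3 * (t * s) := by linarith
    have e5 : (z ᵥ* M) 0 = (z ᵥ* P) 0 + z 0 := by
      rw [hM, Matrix.vecMul_add, Matrix.vecMul_one]; rfl
    rcases Int.prime_three.dvd_or_dvd (⟨_, e4⟩ : (3 : ℤ) ∣ A i i * (z ᵥ* M) 0) with h | h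
    · exact h
    · exfalso
      rw [e5] at h
      rw [hz0] at h hzP
      omega
  have hsq : ∀ i b, A i b ^ 2 = A i i * A b b := by
    intro i b
    have h := hmin i b b i
    rw [← h, hs b i, pow_two]
  by_cases hzero : ∀ i, A i i = 0
  · have h3 : A = 0 := by
      ext i b
      have h := hsq i b
      rw [hzero i, zero_mul] at h
      exact pow_eq_zero_iff (two_ne_zero) |>.1 h
    rw [h3, Matrix.zero_mul, Matrix.trace_zero] at htrAK
    norm_num at htrAK
  · push Not at hzero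
    obtain ⟨i, hi⟩ := hzero
    have h3 : A i i = 3 := by
      have h4 := hd i
      have h5 := hAi i
      omega
    have h4 : ∀ b, ∃ f, A i b = 3 * f := by
      intro b
      have h5 := hsq i b
      have h6 : (3 : ℤ) ∣ A i b ^ 2 := by rw [h5, h3]; exact Dvd.intro _ rfl
      exact Int.prime_three.dvd_of_dvd_pow h6
    choose f hf using h4
    have h5 := hquad i
    have h6 : ∑ a, ∑ b, A i a * K a b * A i b = 9 * ∑ a, ∑ b, f a * K a b * f b := by
      rw [Finset.mul_sum]
      refine Finset.sum_congr rfl fun a _ => ?_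
      rw [Finset.mul_sum]
      refine Finset.sum_congr rfl fun b _ => ?_
      rw [hf a, hf b]; ring
    rw [h6, h3] at h5
    have h7 : ∑ a, ∑ b, f a * K a b * f b = 2 := by linarith
    have h8 := hmod f
    rw [h7] at h8
    exact not_sq_two_mod_three _ h8

theorem e7_core {C K P Q : Matrix (Fin 7) (Fin 7) ℤ} {z : Fin 7 → ℤ} {c : ℤ} (hCK : C * K = (2 : ℤ) • 1) (hKC : K * C = (2 : ℤ) • 1)
    (hC : Cᵀ = C) (hC2 : ∀ k, C k k = 2) (hK : ∀ f : Fin 7 → ℤ, (4 : ℤ) ∣ (∑ a, ∑ b, f a * K a b * f b) + (∑ a, f a * z a) ^ 2)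
    (hc : c * c = 1) (h2 : (P * P + 1) * (P - c • 1) = 0) (hQ : Q * P = 1)
    (hinv : P * C * Pᵀ = C) (htr : P.trace = c) (hb : ∀ k, -2 ≤ (P * P * C) k k ∧ (P * P * C) k k ≤ 2) : False := by
  obtain ⟨M, hM⟩ : ∃ M, M = P * P + 1 := ⟨_, rfl⟩
  have hMP : M * P = c • M := by
    have h : (P * P + 1) * (P - c • 1) = (P * P + 1) * P - c • (P * P + 1) := by
      rw [Matrix.mul_sub, Matrix.mul_smul, Matrix.mul_one]
    rw [h, ← hM] at h2
    exact sub_eq_zero.1 h2
  have hPM : P * M = c • M := by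
    rw [← hMP, hM]; noncomm_ring
  have hMM : M * M = (2 : ℤ) • M := by
    have h : M * M = M * P * P + M := by
      conv_lhs => rw [hM]
      rw [Matrix.mul_add, Matrix.mul_one, ← hM, Matrix.mul_assoc]
    rw [h, hMP, Matrix.smul_mul, hMP, smul_smul, hc, one_smul, two_smul]
  obtain ⟨A, hA⟩ : ∃ A, A = M * C := ⟨_, rfl⟩
  have hA1 : A = P * P * C + C := by rw [hA, hM, Matrix.add_mul, Matrix.one_mul]
  have hPA : P * A = c • A := by rw [hA, ← Matrix.mul_assoc, hPM, Matrix.smul_mul]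
  have hsum : P * C + C * Pᵀ = c • A := by
    have h3 : P * (P * C + C * Pᵀ) = P * (c • A) := by
      rw [Matrix.mul_add, ← Matrix.mul_assoc, ← Matrix.mul_assoc, hinv, ← hA1, Matrix.mul_smul, hPA, smul_smul, hc, one_smul]
    have h4 := congrArg (fun X => Q * X) h3
    simp only [← Matrix.mul_assoc] at h4
    rwa [hQ, Matrix.one_mul, Matrix.one_mul] at h4
  have hcA : (c • A)ᵀ = c • A := by
    rw [← hsum, Matrix.transpose_add, Matrix.transpose_mul, Matrix.transpose_mul, Matrix.transpose_transpose, hC, add_comm]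
  have hAs : Aᵀ = A := by
    have h3 : A = c • (c • A) := by rw [smul_smul, hc, one_smul]
    conv_lhs => rw [h3]
    rw [Matrix.transpose_smul, hcA, smul_smul, hc, one_smul]
  have hs : ∀ i j, A i j = A j i := fun i j => congrFun (congrFun hAs.symm i) j
  have htrM : M.trace = 2 := by
    have h3 : ((P * C + C * Pᵀ) * K).trace = 4 * c := by
      rw [Matrix.add_mul, Matrix.trace_add, Matrix.mul_assoc, hCK, Matrix.mul_smul, Matrix.mul_one, Matrix.trace_smul, htr,
        Matrix.mul_assoc, Matrix.trace_mul_comm, Matrix.mul_assoc, hKC, Matrix.mul_smul, Matrix.mul_one, Matrix.trace_smul,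
        Matrix.trace_transpose, htr, smul_eq_mul]
      ring
    rw [hsum, hA, Matrix.smul_mul, Matrix.mul_assoc, hCK, Matrix.mul_smul, Matrix.mul_one, Matrix.trace_smul,
      Matrix.trace_smul, smul_eq_mul, smul_eq_mul] at h3
    have h4 : c * (c * (2 * M.trace)) = c * (4 * c) := by rw [h3]
    rw [← mul_assoc, hc, one_mul] at h4
    have h5 : c * (4 * c) = 4 := by linear_combination 4 * hc
    linarith
  have hmin := minors (C := C) hMM htrM
  rw [← hA] at hmin
  have htrAK : (A * K).trace = 4 := by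
    rw [hA, Matrix.mul_assoc, hCK, Matrix.mul_smul, Matrix.mul_one, Matrix.trace_smul, htrM]; rfl
  have hd : ∀ k, 0 ≤ A k k ∧ A k k ≤ 4 := by
    intro k
    rw [hA1, Matrix.add_apply, hC2]
    have := hb k
    constructor <;> linarith [this.1, this.2]
  have heven : ∀ k, (2 : ℤ) ∣ A k k := by
    intro k
    have h3 : (P * C) k k + (C * Pᵀ) k k = c * A k k := congrFun (congrFun hsum k) k
    have h4 : (C * Pᵀ) k k = (P * C) k k := by
      have h5 : (P * C)ᵀ = C * Pᵀ := by rw [Matrix.transpose_mul, hC]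
      rw [← h5]; rfl
    rw [h4] at h3
    have h5 : A k k = 2 * (c * (P * C) k k) := by linear_combination (-A k k) * hc - c * h3
    exact ⟨_, h5⟩
  have hquad : ∀ i, A i i * 4 = ∑ a, ∑ b, A i a * K a b * A i b := fun i => by
    rw [← htrAK]; exact trace_quad hs hmin i
  have hsq : ∀ i b, A i b ^ 2 = A i i * A b b := by
    intro i b
    have h := hmin i b b i
    rw [← h, hs b i, pow_two]
  -- the entries are even
  have hev2 : ∀ i b, ∃ g, A i b = 2 * g := by
    intro i b
    have h3 : (2 : ℤ) ∣ A i b ^ 2 := by rw [hsq]; exact (heven i).mul_right _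
    exact Int.prime_two.dvd_of_dvd_pow h3
  have hscale : ∀ (i : Fin 7) (s : ℤ) (g : Fin 7 → ℤ), (∀ b, A i b = s * g b) →
      ∑ a, ∑ b, A i a * K a b * A i b = s ^ 2 * ∑ a, ∑ b, g a * K a b * g b := by
    intro i s g hg
    rw [Finset.mul_sum]
    refine Finset.sum_congr rfl fun a _ => ?_
    rw [Finset.mul_sum]
    refine Finset.sum_congr rfl fun b _ => ?_
    rw [hg a, hg b]; ring
  have h04 : ∀ i, A i i = 0 ∨ A i i = 4 := by
    intro i
    choose g hg using hev2 i
    have h3 := hquad i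
    rw [hscale i 2 g hg] at h3
    have h4 : ∑ a, ∑ b, g a * K a b * g b = A i i := by linarith
    have h5 := hK g
    rw [h4] at h5
    have h6 := hd i
    have h7 := heven i
    have h8 : A i i = 0 ∨ A i i = 2 ∨ A i i = 4 := by omega
    rcases h8 with h8 | h8 | h8
    · exact Or.inl h8
    · rw [h8] at h5
      exact (not_two_sq_mod_four _ h5).elim
    · exact Or.inr h8
  by_cases hzero : ∀ i, A i i = 0
  · have h3 : A = 0 := by
      ext i b
      have h := hsq i b
      rw [hzero i, zero_mul] at h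
      exact pow_eq_zero_iff (two_ne_zero) |>.1 h
    rw [h3, Matrix.zero_mul, Matrix.trace_zero] at htrAK
    norm_num at htrAK
  · push Not at hzero
    obtain ⟨i, hi⟩ := hzero
    have h3 : A i i = 4 := (h04 i).resolve_left hi
    have h4 : ∀ b, ∃ f, A i b = 4 * f := by
      intro b
      have h5 := hsq i b
      rw [h3] at h5
      rcases h04 b with h6 | h6
      · rw [h6, mul_zero] at h5
        exact ⟨0, by rw [mul_zero]; exact pow_eq_zero_iff (two_ne_zero) |>.1 h5⟩
      · rw [h6] at h5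
        have h7 : (A i b - 4) * (A i b + 4) = 0 := by linear_combination h5
        rcases mul_eq_zero.1 h7 with h8 | h8
        · exact ⟨1, by linarith⟩
        · exact ⟨-1, by linarith⟩
    choose f hf using h4
    have h5 := hquad i
    rw [hscale i 4 f hf, h3] at h5
    have h7 : ∑ a, ∑ b, f a * K a b * f b = 1 := by linarith
    have h8 := hK f
    rw [h7] at h8
    exact not_one_sq_mod_four _ h8

end Cfsg.Agent.H15.CTor
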