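import Cfsg.Agent.H15.CTor12
import Cfsg.Agent.H15.CTor14

/-!
# Weyl group matrices: vectors fixed modulo a prime, invariant forms
-/

set_option autoImplicit false
set_option linter.unusedSectionVars false
set_option maxHeartbeats 1000000

namespace Cfsg.Agent.H15.CTor

open Cfsg.Agent.H6 Cfsg.Lie Cfsg.Agent.H22 Cfsg.Agent.H15.Chev
open Matrix Polynomial

/-- the Cartan matrix, `C k j = ⟨α_k, α_j^∨⟩` -/
def Cmat (D : ChevalleyDatum) : Matrix (Fin D.rank) (Fin D.rank) ℤ := Matrix.of fun k j => D.cartan j (D.simple k)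

variable {D : ChevalleyDatum} {N : ℕ} {η : ℕ → ℕ → ℤ} {rc : ℕ → ℕ → ℤ}
variable (hG : Good D N η rc)

include hG

theorem Pmat_s (i k j : Fin D.rank) : Pmat hG (hG.s i) k j = (if j = k then 1 else 0) - if j = i then Cmat D k i else 0 := by
  change rc (D.reflectRoot i (D.simple k)) j = _
  rw [hG.rc_w i i.2 j j.2 _ (hG.simple_lt k k.2), hG.rc_simple k k.2 j j.2]
  simp only [Fin.ext_iff]
  rfl

/-- vectors fixed by the whole Weyl group -/
theorem fix_z {R : Type*} [CommRing R] {z : Fin D.rank → R} (hz : ∀ i, ∑ k, z k * ((Cmat D k i : ℤ) : R) = 0) (w : hG.W) :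
    z ᵥ* red R (Pmat hG w) = z := by
  induction w using hG.W_induction with
  | one =>
    rw [Pmat_one]
    have h : red R (1 : Matrix (Fin D.rank) (Fin D.rank) ℤ) = 1 := map_one ((Int.castRingHom R).mapMatrix)
    rw [h, Matrix.vecMul_one]
  | mul i w ih =>
    rw [Pmat_mul]
    have h : red R (Pmat hG w * Pmat hG (hG.s i)) = red R (Pmat hG w) * red R (Pmat hG (hG.s i)) :=
      map_mul ((Int.castRingHom R).mapMatrix) _ _
    rw [h, ← Matrix.vecMul_vecMul, ih]
    funext j
    have h1 : (z ᵥ* red R (Pmat hG (hG.s i))) j = ∑ k, z k * ((Pmat hG (hG.s i) k j : ℤ) : R) := rfl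
    rw [h1]
    have h2 : ∀ k, z k * ((Pmat hG (hG.s i) k j : ℤ) : R) =
        (if j = k then z k else 0) - (if j = i then z k * ((Cmat D k i : ℤ) : R) else 0) := by
      intro k
      rw [Pmat_s]
      push_cast
      split_ifs <;> ring
    rw [Finset.sum_congr rfl fun k _ => h2 k, Finset.sum_sub_distrib, Finset.sum_ite_eq, if_pos (Finset.mem_univ _)]
    split_ifs
    · rw [hz i, sub_zero]
    · rw [Finset.sum_const_zero, sub_zero]

/-- the invariant form in the simply laced case -/
theorem Pmat_inv (hC : (Cmat D)ᵀ = Cmat D) (hC2 : ∀ k, Cmat D k k = 2) (w : hG.W) :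
    Pmat hG w * Cmat D * (Pmat hG w)ᵀ = Cmat D := by
  have hs : ∀ i, Pmat hG (hG.s i) * Cmat D * (Pmat hG (hG.s i))ᵀ = Cmat D := by
    intro i
    ext k l
    rw [Matrix.mul_apply]
    have hsym : ∀ a b, Cmat D a b = Cmat D b a := fun a b => congrFun (congrFun hC.symm a) b
    have h1 : ∀ j, (Pmat hG (hG.s i) * Cmat D) k j = Cmat D k j - Cmat D k i * Cmat D i j := by
      intro j
      rw [Matrix.mul_apply]
      have h2 : ∀ a, Pmat hG (hG.s i) k a * Cmat D a j =
          (if a = k then Cmat D a j else 0) - (if a = i then Cmat D k i * Cmat D a j else 0) := by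
        intro a
        rw [Pmat_s]
        split_ifs <;> ring
      rw [Finset.sum_congr rfl fun a _ => h2 a, Finset.sum_sub_distrib, Finset.sum_ite_eq', if_pos (Finset.mem_univ _),
        Finset.sum_ite_eq', if_pos (Finset.mem_univ _)]
    have h3 : ∀ j, (Pmat hG (hG.s i) * Cmat D) k j * (Pmat hG (hG.s i))ᵀ j l =
        (if j = l then (Cmat D k j - Cmat D k i * Cmat D i j) else 0) -
          (if j = i then (Cmat D k j - Cmat D k i * Cmat D i j) * Cmat D l i else 0) := by
      intro j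
      rw [h1 j, Matrix.transpose_apply, Pmat_s]
      split_ifs <;> ring
    rw [Finset.sum_congr rfl fun j _ => h3 j, Finset.sum_sub_distrib, Finset.sum_ite_eq', if_pos (Finset.mem_univ _),
      Finset.sum_ite_eq', if_pos (Finset.mem_univ _), hC2 i, hsym l i]
    ring
  induction w using hG.W_induction with
  | one => rw [Pmat_one, Matrix.one_mul, Matrix.transpose_one, Matrix.mul_one]
  | mul i w ih =>
    rw [Pmat_mul, Matrix.transpose_mul]
    calc Pmat hG w * Pmat hG (hG.s i) * Cmat D * ((Pmat hG (hG.s i))ᵀ * (Pmat hG w)ᵀ)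
        = Pmat hG w * (Pmat hG (hG.s i) * Cmat D * (Pmat hG (hG.s i))ᵀ) * (Pmat hG w)ᵀ := by simp only [Matrix.mul_assoc]
      _ = Cmat D := by rw [hs i, ih]

theorem PC_diag (w : hG.W) (k : Fin D.rank) : (Pmat hG w * Cmat D) k k = D.cartan k (w.1 (hG.sr k)) := by
  rw [hG.cartan_rc' k.2 (w.1 (hG.sr k)).2, Finset.sum_range, Matrix.mul_apply]
  rfl

end Cfsg.Agent.H15.CTor
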