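import Cfsg.Agent.H15.CTor14

/-!
# Integer matrices with almost homogeneous characteristic polynomial
-/

set_option autoImplicit false
set_option linter.unusedSectionVars false
set_option maxHeartbeats 1000000

namespace Cfsg.Agent.H15.CTor

open Matrix Polynomial

theorem cyc_two : cyclotomic 2 ℤ = X + 1 := by
  rw [cyclotomic_two]

theorem cyc_four : cyclotomic 4 ℤ = X ^ 2 + 1 := by
  have h : cyclotomic (2 ^ (1 + 1)) ℤ = ∑ i ∈ Finset.range 2, (X ^ 2 ^ 1) ^ i :=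
    cyclotomic_prime_pow_eq_geom_sum Nat.prime_two
  norm_num [Finset.sum_range_succ] at h
  rw [h]
  ring

theorem det_sq_one {l m : ℕ} {P : Matrix (Fin l) (Fin l) ℤ} (hPm : P ^ m = 1) (hm : m ≠ 0) : P.det = 1 ∨ P.det = -1 := by
  have h1 : P.det ^ m = 1 := by rw [← Matrix.det_pow, hPm, Matrix.det_one]
  have h2 : IsUnit P.det := by
    obtain ⟨k, rfl⟩ := Nat.exists_eq_succ_of_ne_zero hm
    rw [pow_succ] at h1
    exact IsUnit.of_mul_eq_one_right _ h1
  exact Int.isUnit_iff.1 h2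

theorem e6_d2 {P : Matrix (Fin 6) (Fin 6) ℤ} {m : ℕ} (hPm : P ^ m = 1) (hm : m ≠ 0) (h : cyclotomic 2 ℤ ^ 5 ∣ P.charpoly)
    (h3 : (3 : ℤ) ∣ P.charpoly.eval 1) : (P + 1) * (P - 1) = 0 ∧ P.trace = -4 := by
  rw [cyc_two] at h
  obtain ⟨g, hg⟩ := h
  have hm1 : (X + 1 : ℤ[X]).Monic := by rw [← C_1]; exact monic_X_add_C 1
  have hgm : g.Monic := by
    have h1 := Matrix.charpoly_monic P
    rw [hg] at h1
    exact (hm1.pow 5).of_mul_monic_left h1
  have hdeg : g.natDegree = 1 := by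
    have h1 := Matrix.charpoly_natDegree_eq_dim P
    rw [hg, (hm1.pow 5).natDegree_mul hgm, natDegree_pow, ← C_1, natDegree_X_add_C, Fintype.card_fin] at h1
    omega
  have hgX := hgm.eq_X_add_C hdeg
  obtain ⟨c, hc⟩ : ∃ c, c = g.coeff 0 := ⟨_, rfl⟩
  rw [← hc] at hgX
  rw [hgX] at hg
  have hdet := Matrix.det_eq_sign_charpoly_coeff P
  rw [coeff_zero_eq_eval_zero, hg, Fintype.card_fin] at hdet
  simp only [eval_mul, eval_pow, eval_add, eval_X, eval_one, eval_C] at hdet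
  norm_num at hdet
  rw [hg] at h3
  simp only [eval_mul, eval_pow, eval_add, eval_X, eval_one, eval_C] at h3
  norm_num at h3
  have hc1 : c = -1 := by
    rcases det_sq_one hPm hm with h1 | h1 <;> rw [hdet] at h1 <;> omega
  subst hc1
  constructor
  · have h1 : P.charpoly ∣ ((X + 1) * (X - 1)) ^ 5 := by
      rw [hg, mul_pow]
      refine mul_dvd_mul dvd_rfl ?_
      have : (X + C (-1) : ℤ[X]) = X - 1 := by rw [C_neg, C_1]; ring
      rw [this]
      exact dvd_pow_self _ (by norm_num)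
    have h2 := semisimple hPm hm (by norm_num) h1
    rw [map_mul, map_add, map_sub, aeval_X, map_one] at h2
    exact h2
  · rw [Matrix.trace_eq_neg_charpoly_coeff, hg, Fintype.card_fin]
    have h1 : ((X + 1) ^ 5 * (X + C (-1)) : ℤ[X]) =
        X ^ 6 + C 4 * X ^ 5 + C 5 * X ^ 4 + C (-5) * X ^ 2 + C (-4) * X + C (-1) := by
      have e : (C (-1) : ℤ[X]) = -1 := by rw [C_neg, C_1]
      have e4 : (C 4 : ℤ[X]) = 4 := rfl
      have e5 : (C 5 : ℤ[X]) = 5 := rfl
      have e4' : (C (-4) : ℤ[X]) = -4 := by rw [C_neg]; rfl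
      have e5' : (C (-5) : ℤ[X]) = -5 := by rw [C_neg]; rfl
      rw [e, e4, e5, e4', e5']
      ring
    rw [h1]
    simp only [coeff_add, coeff_C_mul, coeff_X_pow, coeff_X, coeff_C]
    norm_num

theorem e7_d4 {P : Matrix (Fin 7) (Fin 7) ℤ} {m : ℕ} (hPm : P ^ m = 1) (hm : m ≠ 0) (h : cyclotomic 4 ℤ ^ 3 ∣ P.charpoly) :
    ∃ c : ℤ, c * c = 1 ∧ (P * P + 1) * (P - c • 1) = 0 ∧ P.trace = c := by
  have hm1 : (X ^ 2 + 1 : ℤ[X]).Monic := by rw [← cyc_four]; exact cyclotomic.monic 4 ℤ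
  have hd1 : (X ^ 2 + 1 : ℤ[X]).natDegree = 2 := by
    rw [← cyc_four, natDegree_cyclotomic]; decide
  rw [cyc_four] at h
  obtain ⟨g, hg⟩ := h
  have hgm : g.Monic := by
    have h1 := Matrix.charpoly_monic P
    rw [hg] at h1
    exact (hm1.pow 3).of_mul_monic_left h1
  have hdeg : g.natDegree = 1 := by
    have h1 := Matrix.charpoly_natDegree_eq_dim P
    rw [hg, (hm1.pow 3).natDegree_mul hgm, natDegree_pow, hd1, Fintype.card_fin] at h1
    omega
  have hgX := hgm.eq_X_add_C hdeg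
  obtain ⟨c, hc⟩ : ∃ c, c = g.coeff 0 := ⟨_, rfl⟩
  rw [← hc] at hgX
  rw [hgX] at hg
  have hdet := Matrix.det_eq_sign_charpoly_coeff P
  rw [coeff_zero_eq_eval_zero, hg, Fintype.card_fin] at hdet
  simp only [eval_mul, eval_pow, eval_add, eval_X, eval_one, eval_C] at hdet
  norm_num at hdet
  have hc1 : c = 1 ∨ c = -1 := by
    rcases det_sq_one hPm hm with h1 | h1 <;> rw [hdet] at h1 <;> omega
  refine ⟨-c, by rcases hc1 with rfl | rfl <;> norm_num, ?_, ?_⟩
  · have h1 : P.charpoly ∣ ((X ^ 2 + 1) * (X + C c)) ^ 3 := by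
      rw [hg, mul_pow]
      exact mul_dvd_mul dvd_rfl (dvd_pow_self _ (by norm_num))
    have h2 := semisimple hPm hm (by norm_num) h1
    rw [map_mul, map_add, map_add, map_pow, aeval_X, aeval_C, map_one, pow_two] at h2
    rw [neg_smul, sub_neg_eq_add, ← Algebra.algebraMap_eq_smul_one]
    exact h2
  · rw [Matrix.trace_eq_neg_charpoly_coeff, hg, Fintype.card_fin]
    have h1 : ((X ^ 2 + 1) ^ 3 * (X + C c) : ℤ[X]) =
        X ^ 7 + C c * X ^ 6 + (C 3 * X ^ 5 + C (3 * c) * X ^ 4 + C 3 * X ^ 3 + C (3 * c) * X ^ 2 + C 1 * X + C c) := by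
      have e3 : (C 3 : ℤ[X]) = 3 := rfl
      rw [C_mul, e3, C_1]
      ring
    rw [h1]
    have h2 : (C 3 * X ^ 5 + C (3 * c) * X ^ 4 + C 3 * X ^ 3 + C (3 * c) * X ^ 2 + C 1 * X + C c : ℤ[X]).coeff 6 = 0 := by
      apply coeff_eq_zero_of_natDegree_lt
      refine lt_of_le_of_lt (b := 5) ?_ (by norm_num)
      compute_degree
    change -(coeff _ 6) = -c
    rw [coeff_add, h2, coeff_add, coeff_C_mul, coeff_X_pow, coeff_X_pow, if_neg (by norm_num), if_pos rfl]
    ring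

end Cfsg.Agent.H15.CTor
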