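import Cfsg.Agent.H15.CTor15
import Cfsg.Agent.H15.CTor16
import Cfsg.Agent.H6.ChevSmith
import Cfsg.Agent.H22.WeylEquiv

/-!
# Multiplicities of cyclotomic factors in characteristic polynomials of Weyl group elements
-/

set_option autoImplicit false
set_option linter.unusedSectionVars false
set_option maxHeartbeats 1000000

namespace Cfsg.Agent.H15.CTor

open Cfsg.Agent.H6 Cfsg.Lie Cfsg.Agent.H22 Cfsg.Agent.H15.Chev
open Matrix Polynomial

section
variable {D : ChevalleyDatum} {N : ℕ} {η : ℕ → ℕ → ℤ} {rc : ℕ → ℕ → ℤ}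
variable (hG : Good D N η rc)

theorem bound_of_deg {n : ℕ} (hn : D.rank = n) (L S : List ℕ) (hL : ∀ e ∈ L, 0 < e ∧ e < 31)
    (htab : ∀ d < 31, 0 < d → (∃ e ∈ L, d ∣ e) → d ∉ S → n / Nat.totient d ≤ (L.filter (fun e => d ∣ e)).length)
    {d : ℕ} (hd : 0 < d) (hdS : d ∉ S) (hdL : ∃ e ∈ L, d ∣ e) (w : hG.W) (k : ℕ)
    (hk : cyclotomic d ℤ ^ k ∣ (Pmat hG w).charpoly) : k ≤ (L.filter (fun e => d ∣ e)).length := by
  have h1 := deg_bound hk
  rw [hn] at h1
  obtain ⟨e, he, hde⟩ := hdL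
  have h2 := Nat.le_of_dvd (hL e he).1 hde
  exact le_trans ((Nat.le_div_iff_mul_le (Nat.totient_pos.2 hd)).2 h1)
    (htab d (lt_of_le_of_lt h2 (hL e he).2) hd ⟨e, he, hde⟩ hdS)
end

/-! ### the types without exceptions -/

theorem bound_G2 (d : ℕ) (hd : 0 < d) (hdL : ∃ e ∈ [2, 6], d ∣ e) (w : TG2.good.W) (k : ℕ)
    (hk : cyclotomic d ℤ ^ k ∣ (Pmat TG2.good w).charpoly) : k ≤ ([2, 6].filter (fun e => d ∣ e)).length :=
  bound_of_deg TG2.good (n := 2) rfl [2, 6] [] (by decide) (by decide +kernel) hd List.not_mem_nil hdL w k hk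

theorem bound_B2 (d : ℕ) (hd : 0 < d) (hdL : ∃ e ∈ [2, 4], d ∣ e) (w : TB2.good.W) (k : ℕ)
    (hk : cyclotomic d ℤ ^ k ∣ (Pmat TB2.good w).charpoly) : k ≤ ([2, 4].filter (fun e => d ∣ e)).length :=
  bound_of_deg TB2.good (n := 2) rfl [2, 4] [] (by decide) (by decide +kernel) hd List.not_mem_nil hdL w k hk

theorem bound_F4 (d : ℕ) (hd : 0 < d) (hdL : ∃ e ∈ [2, 6, 8, 12], d ∣ e) (w : TF4.good.W) (k : ℕ)
    (hk : cyclotomic d ℤ ^ k ∣ (Pmat TF4.good w).charpoly) : k ≤ ([2, 6, 8, 12].filter (fun e => d ∣ e)).length :=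
  bound_of_deg TF4.good (n := 4) rfl [2, 6, 8, 12] [] (by decide) (by decide +kernel) hd List.not_mem_nil hdL w k hk

theorem bound_E8 (d : ℕ) (hd : 0 < d) (hdL : ∃ e ∈ [2, 8, 12, 14, 18, 20, 24, 30], d ∣ e) (w : TE8.good.W) (k : ℕ)
    (hk : cyclotomic d ℤ ^ k ∣ (Pmat TE8.good w).charpoly) : k ≤ ([2, 8, 12, 14, 18, 20, 24, 30].filter (fun e => d ∣ e)).length :=
  bound_of_deg TE8.good (n := 8) rfl [2, 8, 12, 14, 18, 20, 24, 30] [] (by decide) (by decide +kernel) hd List.not_mem_nil hdL w k hk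

/-! ### `D₄` -/

def zD4 (k : Fin chevD4.rank) : ZMod 2 := if k.1 = 0 ∨ k.1 = 2 then 1 else 0

theorem zD4_ne : zD4 ≠ 0 := by
  intro h
  have h1 := congrFun h ⟨0, by decide⟩
  revert h1
  decide

theorem zD4_rad : ∀ i, ∑ k, zD4 k * ((Cmat chevD4 k i : ℤ) : ZMod 2) = 0 := by decide +kernel

theorem cyc_six_one : (cyclotomic 6 ℤ).eval 1 = 1 := by rw [cyclotomic_six]; simp
theorem cyc_three_one : (cyclotomic 3 ℤ).eval 1 = 3 := by rw [cyclotomic_three]; norm_num
theorem cyc_four_one : (cyclotomic 4 ℤ).eval 1 = 2 := by rw [cyc_four]; norm_num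

theorem bound_D4 (d : ℕ) (hd : 0 < d) (hdL : ∃ e ∈ [2, 4, 4, 6], d ∣ e) (w : TD4.good.W) (k : ℕ)
    (hk : cyclotomic d ℤ ^ k ∣ (Pmat TD4.good w).charpoly) : k ≤ ([2, 4, 4, 6].filter (fun e => d ∣ e)).length := by
  by_cases hS : d ∉ [3, 6]
  · exact bound_of_deg TD4.good (n := 4) rfl [2, 4, 4, 6] [3, 6] (by decide) (by decide +kernel) hd hS hdL w k hk
  · rw [not_not] at hS
    have h1 := deg_bound hk
    have h2 : chevD4.rank = 4 := rfl
    have hfix := fix_z TD4.good zD4_rad w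
    by_contra hcon
    have hk2 : k = 2 ∧ (d = 3 ∨ d = 6) := by
      simp only [List.mem_cons, List.not_mem_nil, or_false] at hS
      rcases hS with rfl | rfl
      · have e1 : Nat.totient 3 = 2 := by decide
        have e2 : ([2, 4, 4, 6].filter (fun e => 3 ∣ e)).length = 1 := by decide
        rw [e1, h2] at h1
        rw [e2] at hcon
        omega
      · have e1 : Nat.totient 6 = 2 := by decide
        have e2 : ([2, 4, 4, 6].filter (fun e => 6 ∣ e)).length = 1 := by decide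
        rw [e1, h2] at h1
        rw [e2] at hcon
        omega
    obtain ⟨rfl, rfl | rfl⟩ := hk2
    · exact full_rank_false (p := 2) zD4_ne hfix hk (by rw [h2]; decide) (by rw [cyc_three_one]; decide)
    · exact full_rank_false (p := 2) zD4_ne hfix hk (by rw [h2]; decide) (by rw [cyc_six_one]; decide)

end Cfsg.Agent.H15.CTor
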