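import Cfsg.Agent.H15.CTor17

/-!
# Multiplicities of cyclotomic factors in characteristic polynomials of Weyl group elements: `E₆`, `E₇`
-/

set_option autoImplicit false
set_option linter.unusedSectionVars false
set_option maxHeartbeats 1000000

namespace Cfsg.Agent.H15.CTor

open Cfsg.Agent.H6 Cfsg.Lie Cfsg.Agent.H22 Cfsg.Agent.H15.Chev
open Matrix Polynomial

/-! ### `E₆` -/

def cE6 : Matrix (Fin 6) (Fin 6) ℤ := TE6.smA

def kE6 : Matrix (Fin 6) (Fin 6) ℤ := !![4, 3, 5, 6, 4, 2; 3, 6, 6, 9, 6, 3; 5, 6, 10, 12, 8, 4; 6, 9, 12, 18, 12, 6; 4, 6, 8, 12, 10, 5; 2, 3, 4, 6, 5, 4]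

theorem Cmat_E6 : Cmat chevE6 = cE6 := TE6.smA_eq
theorem cE6_k : cE6 * kE6 = (3 : ℤ) • 1 := by decide +kernel
theorem cE6_t : cE6ᵀ = cE6 := by decide +kernel
theorem cE6_2 : ∀ k, cE6 k k = 2 := by decide +kernel

def zE6 : Fin 6 → ℤ := ![1, 0, -1, 0, 1, -1]

theorem kE6_z : ∀ i j, (3 : ℤ) ∣ kE6 i j - zE6 i * zE6 j := by decide +kernel
theorem zE6_rad : ∀ i, ∑ k, ((zE6 k : ℤ) : ZMod 3) * ((cE6 k i : ℤ) : ZMod 3) = 0 := by decide +kernel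
theorem cart_E6 : ∀ k < 6, ∀ s < 72, -2 ≤ chevE6.cartan k s ∧ chevE6.cartan k s ≤ 2 := by decide +kernel

/-- the matrices with the literal index type -/
def PE6m (w : TE6.good.W) : Matrix (Fin 6) (Fin 6) ℤ := Pmat TE6.good w

theorem PE6_inv (w : TE6.good.W) : PE6m w * cE6 * (PE6m w)ᵀ = cE6 := by
  have h1 : (Cmat chevE6)ᵀ = Cmat chevE6 := by rw [Cmat_E6]; exact cE6_t
  have h2 : ∀ k, Cmat chevE6 k k = 2 := by rw [Cmat_E6]; exact cE6_2
  have h3 := Pmat_inv TE6.good h1 h2 w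
  rw [Cmat_E6] at h3
  exact h3

theorem PE6_fix (w : TE6.good.W) : (fun k => ((zE6 k : ℤ) : ZMod 3)) ᵥ* red (ZMod 3) (PE6m w) = fun k => ((zE6 k : ℤ) : ZMod 3) := by
  have h1 : ∀ i : Fin chevE6.rank, ∑ k : Fin chevE6.rank, ((zE6 k : ℤ) : ZMod 3) * ((Cmat chevE6 k i : ℤ) : ZMod 3) = 0 := by
    rw [Cmat_E6]; exact zE6_rad
  exact fix_z TE6.good h1 w

theorem PE6_diag (w : TE6.good.W) (k : Fin 6) : -2 ≤ (PE6m w * cE6) k k ∧ (PE6m w * cE6) k k ≤ 2 := by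
  have h1 := PC_diag TE6.good w k
  rw [Cmat_E6] at h1
  have h2 : (PE6m w * cE6) k k = chevE6.cartan k (w.1 (TE6.good.sr k)) := h1
  rw [h2]
  exact cart_E6 k k.2 _ (w.1 (TE6.good.sr k)).2

theorem PE6_pow (w : TE6.good.W) : PE6m w ^ Nat.card TE6.good.W = 1 := by
  have h1 : Pmat TE6.good w ^ Nat.card TE6.good.W = 1 := by rw [← Pmat_pow, pow_card_eq_one', Pmat_one]
  exact h1

theorem bound_E6 (d : ℕ) (hd : 0 < d) (hdL : ∃ e ∈ [2, 5, 6, 8, 9, 12], d ∣ e) (w : TE6.good.W) (k : ℕ)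
    (hk : cyclotomic d ℤ ^ k ∣ (Pmat TE6.good w).charpoly) : k ≤ ([2, 5, 6, 8, 9, 12].filter (fun e => d ∣ e)).length := by
  by_cases hS : d ∉ [2, 4, 6]
  · exact bound_of_deg TE6.good (n := 6) rfl [2, 5, 6, 8, 9, 12] [2, 4, 6] (by decide) (by decide +kernel) hd hS hdL w k hk
  · rw [not_not] at hS
    have hk' : cyclotomic d ℤ ^ k ∣ (PE6m w).charpoly := hk
    have h1 := deg_bound hk'
    have hz : (fun k => ((zE6 k : ℤ) : ZMod 3)) ≠ 0 := by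
      intro h
      have := congrFun h 0
      revert this
      decide
    have hfix := PE6_fix w
    by_contra hcon
    simp only [List.mem_cons, List.not_mem_nil, or_false] at hS
    rcases hS with rfl | rfl | rfl
    · have e2 : ([2, 5, 6, 8, 9, 12].filter (fun e => 2 ∣ e)).length = 4 := by decide
      rw [e2] at hcon
      have hk5 : cyclotomic 2 ℤ ^ 5 ∣ (PE6m w).charpoly := (pow_dvd_pow _ (by omega)).trans hk'
      have h3 : (3 : ℤ) ∣ (PE6m w).charpoly.eval 1 := fixed_mod (p := 3) hz hfix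
      obtain ⟨h4, h5⟩ := e6_d2 (PE6_pow w) Nat.card_pos.ne' hk5 h3
      refine e6_core (z := zE6) cE6_k cE6_t cE6_2 kE6_z rfl h4 (PE6_inv w) h5 ?_ (PE6_diag w)
      have h6 := congrFun hfix 0
      have h7 : ((fun k => ((zE6 k : ℤ) : ZMod 3)) ᵥ* red (ZMod 3) (PE6m w)) 0 = (((zE6 ᵥ* PE6m w) 0 : ℤ) : ZMod 3) := by
        simp only [Matrix.vecMul, dotProduct]
        push_cast
        rfl
      rw [h7] at h6
      have h8 : ((((zE6 ᵥ* PE6m w) 0 - zE6 0 : ℤ)) : ZMod 3) = 0 := by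
        rw [Int.cast_sub, h6, sub_self]
      exact (ZMod.intCast_zmod_eq_zero_iff_dvd _ 3).1 h8
    · have e1 : Nat.totient 4 = 2 := by decide
      have e2 : ([2, 5, 6, 8, 9, 12].filter (fun e => 4 ∣ e)).length = 2 := by decide
      rw [e1] at h1
      rw [e2] at hcon
      have hk3 : k = 3 := by omega
      subst hk3
      exact full_rank_false (p := 3) hz hfix hk' (by decide) (by rw [cyc_four_one]; decide)
    · have e1 : Nat.totient 6 = 2 := by decide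
      have e2 : ([2, 5, 6, 8, 9, 12].filter (fun e => 6 ∣ e)).length = 2 := by decide
      rw [e1] at h1
      rw [e2] at hcon
      have hk3 : k = 3 := by omega
      subst hk3
      exact full_rank_false (p := 3) hz hfix hk' (by decide) (by rw [cyc_six_one]; decide)

/-! ### `E₇` -/

def cE7 : Matrix (Fin 7) (Fin 7) ℤ := TE7.smA

def kE7 : Matrix (Fin 7) (Fin 7) ℤ := !![4, 4, 6, 8, 6, 4, 2; 4, 7, 8, 12, 9, 6, 3; 6, 8, 12, 16, 12, 8, 4; 8, 12, 16, 24, 18, 12, 6; 6, 9, 12, 18, 15, 10, 5; 4, 6, 8, 12, 10, 8, 4; 2, 3, 4, 6, 5, 4, 3]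

theorem Cmat_E7 : Cmat chevE7 = cE7 := TE7.smA_eq
theorem cE7_k : cE7 * kE7 = (2 : ℤ) • 1 := by decide +kernel
theorem kE7_c : kE7 * cE7 = (2 : ℤ) • 1 := by decide +kernel
theorem cE7_t : cE7ᵀ = cE7 := by decide +kernel
theorem cE7_2 : ∀ k, cE7 k k = 2 := by decide +kernel

def zE7 : Fin 7 → ℤ := ![0, 1, 0, 0, 1, 0, 1]

theorem kE7_z (f : Fin 7 → ℤ) : (4 : ℤ) ∣ (∑ a, ∑ b, f a * kE7 a b * f b) + (∑ a, f a * zE7 a) ^ 2 := by
  refine ⟨f 0 ^ 2 + 2 * f 1 ^ 2 + 3 * f 2 ^ 2 + 6 * f 3 ^ 2 + 4 * f 4 ^ 2 + 2 * f 5 ^ 2 + f 6 ^ 2 + 2 * f 0 * f 1 + 3 * f 0 * f 2 +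
    4 * f 0 * f 3 + 3 * f 0 * f 4 + 2 * f 0 * f 5 + f 0 * f 6 + 4 * f 1 * f 2 + 6 * f 1 * f 3 + 5 * f 1 * f 4 + 3 * f 1 * f 5 +
    2 * f 1 * f 6 + 8 * f 2 * f 3 + 6 * f 2 * f 4 + 4 * f 2 * f 5 + 2 * f 2 * f 6 + 9 * f 3 * f 4 + 6 * f 3 * f 5 + 3 * f 3 * f 6 +
    5 * f 4 * f 5 + 3 * f 4 * f 6 + 2 * f 5 * f 6, ?_⟩
  simp [Fin.sum_univ_succ, kE7, zE7]
  ring

theorem cart_E7 : ∀ k < 7, ∀ s < 126, -2 ≤ chevE7.cartan k s ∧ chevE7.cartan k s ≤ 2 := by decide +kernel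

/-- the matrices with the literal index type -/
def PE7m (w : TE7.good.W) : Matrix (Fin 7) (Fin 7) ℤ := Pmat TE7.good w

theorem PE7_inv (w : TE7.good.W) : PE7m w * cE7 * (PE7m w)ᵀ = cE7 := by
  have h1 : (Cmat chevE7)ᵀ = Cmat chevE7 := by rw [Cmat_E7]; exact cE7_t
  have h2 : ∀ k, Cmat chevE7 k k = 2 := by rw [Cmat_E7]; exact cE7_2
  have h3 := Pmat_inv TE7.good h1 h2 w
  rw [Cmat_E7] at h3
  exact h3

theorem PE7_diag (w : TE7.good.W) (k : Fin 7) : -2 ≤ (PE7m w * PE7m w * cE7) k k ∧ (PE7m w * PE7m w * cE7) k k ≤ 2 := by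
  have h1 := PC_diag TE7.good (w * w) k
  rw [Cmat_E7, Pmat_mul] at h1
  have h2 : (PE7m w * PE7m w * cE7) k k = chevE7.cartan k ((w * w).1 (TE7.good.sr k)) := h1
  rw [h2]
  exact cart_E7 k k.2 _ ((w * w).1 (TE7.good.sr k)).2

theorem PE7_pow (w : TE7.good.W) : PE7m w ^ Nat.card TE7.good.W = 1 := by
  have h1 : Pmat TE7.good w ^ Nat.card TE7.good.W = 1 := by rw [← Pmat_pow, pow_card_eq_one', Pmat_one]
  exact h1

theorem PE7_inv' (w : TE7.good.W) : PE7m w⁻¹ * PE7m w = 1 := by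
  have h1 : Pmat TE7.good w⁻¹ * Pmat TE7.good w = 1 := by rw [← Pmat_mul, mul_inv_cancel, Pmat_one]
  exact h1

theorem bound_E7 (d : ℕ) (hd : 0 < d) (hdL : ∃ e ∈ [2, 6, 8, 10, 12, 14, 18], d ∣ e) (w : TE7.good.W) (k : ℕ)
    (hk : cyclotomic d ℤ ^ k ∣ (Pmat TE7.good w).charpoly) : k ≤ ([2, 6, 8, 10, 12, 14, 18].filter (fun e => d ∣ e)).length := by
  by_cases hS : d ∉ [4]
  · exact bound_of_deg TE7.good (n := 7) rfl [2, 6, 8, 10, 12, 14, 18] [4] (by decide) (by decide +kernel) hd hS hdL w k hk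
  · rw [not_not] at hS
    have hk' : cyclotomic d ℤ ^ k ∣ (PE7m w).charpoly := hk
    have h1 := deg_bound hk'
    by_contra hcon
    simp only [List.mem_cons, List.not_mem_nil, or_false] at hS
    subst hS
    have e1 : Nat.totient 4 = 2 := by decide
    have e2 : ([2, 6, 8, 10, 12, 14, 18].filter (fun e => 4 ∣ e)).length = 2 := by decide
    rw [e1] at h1
    rw [e2] at hcon
    have hk3 : k = 3 := by omega
    subst hk3
    obtain ⟨c, hc, h4, h5⟩ := e7_d4 (PE7_pow w) Nat.card_pos.ne' hk'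
    exact e7_core (z := zE7) cE7_k kE7_c cE7_t cE7_2 kE7_z hc h4 (PE7_inv' w) (PE7_inv w) h5 (PE7_diag w)

end Cfsg.Agent.H15.CTor
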