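import Cfsg.Agent.H15.ChevAut4

/-!
# Automorphisms of finite Chevalley groups: field automorphisms
-/

set_option autoImplicit false
set_option linter.unusedSectionVars false

namespace Cfsg.Agent.H15.Chev

open Cfsg.Agent.H6 Cfsg.Lie Cfsg.Agent.H22 Cfsg.Agent.H16.BNS
open scoped Matrix

variable {D : ChevalleyDatum} {N : ℕ} {η : ℕ → ℕ → ℤ} {rc : ℕ → ℕ → ℤ} {F : Type*} [Field F]
variable (hG : Good D N η rc) (hE : Ext D rc)

/-- an automorphism permuting the simple root subgroups -/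
structure PF (hG : Good D N η rc) (θ : ↥(D.group F) ≃* ↥(D.group F)) (π : Equiv.Perm (Fin D.rank))
    (f g : Fin D.rank → F → F) : Prop where
  pos : ∀ (i : Fin D.rank) (t : F), θ (XX hG (D.simple i) t) = XX hG (D.simple (π i)) (f i t)
  neg : ∀ (i : Fin D.rank) (t : F), θ (XX hG (D.neg (D.simple i)) t) = XX hG (D.neg (D.simple (π i))) (g i t)
  add : ∀ i s t, f i (s + t) = f i s + f i t
  bij : ∀ i, Function.Bijective (f i)
  ginj : ∀ i t, g i t = 0 → t = 0

theorem PF.zero {θ : ↥(D.group F) ≃* ↥(D.group F)} {π : Equiv.Perm (Fin D.rank)}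
    {f g : Fin D.rank → F → F} (h : PF hG θ π f g) (i : Fin D.rank) : f i 0 = 0 := by
  have := h.add i 0 0
  rw [add_zero] at this
  exact left_eq_add.1 this

theorem PF.ne_zero {θ : ↥(D.group F) ≃* ↥(D.group F)} {π : Equiv.Perm (Fin D.rank)}
    {f g : Fin D.rank → F → F} (h : PF hG θ π f g) (i : Fin D.rank) {t : F} (ht : t ≠ 0) : f i t ≠ 0 := by
  intro h0
  exact ht ((h.bij i).1 (h0.trans (PF.zero hG h i).symm))

include hG hE

theorem NN_conj_gen {i r : ℕ} (hi : i < D.rank) (c : Fˣ) (hr : r < D.nroots) (t : F) :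
    NN hG (D.simple i) (c : F) * XX hG r t * (NN hG (D.simple i) (c : F))⁻¹ =
      XX hG (D.reflectRoot i r) (((η i r : ℤ) : F) * (((c ^ (-(D.cartan i r)) : Fˣ)) : F) * t) :=
  Subtype.ext (hG.ngr_conj_xg hi c hr t)

/-- only the identity of `X_p` normalises `X_{-p}` -/
theorem norm_neg (i : Fin D.rank) (c : F)
    (h : ∀ s : F, ∃ s' : F, XX hG (D.simple i) c * XX hG (D.neg (D.simple i)) s * (XX hG (D.simple i) c)⁻¹ =
      XX hG (D.neg (D.simple i)) s') : c = 0 := by
  by_contra hc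
  have hnl := hG.neg_lt' (hG.simple_lt i i.2)
  have h1 := NN_conj_gen (F := F) hG hE i.2 (Units.mk0 c hc) hnl 1
  rw [hG.w_neg i i.2 _ (hG.simple_lt i i.2), hG.w_simple, hG.neg_neg' (hG.simple_lt i i.2)] at h1
  obtain ⟨s1, hs1⟩ := h 1
  obtain ⟨s2, hs2⟩ := h s1
  have h2 : NN hG (D.simple i) ((Units.mk0 c hc : Fˣ) : F) * XX hG (D.neg (D.simple i)) 1 *
      (NN hG (D.simple i) ((Units.mk0 c hc : Fˣ) : F))⁻¹ = XX hG (D.neg (D.simple i)) s2 := by
    rw [Units.val_mk0, ← hs2]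
    unfold NN
    have e : ∀ A B X : ↥(D.group F), A * B * A * X * (A * B * A)⁻¹ = A * (B * (A * X * A⁻¹) * B⁻¹) * A⁻¹ := by
      intro A B X; group
    rw [e, hs1]
    have e2 : XX hG (D.neg (D.simple i)) (-c⁻¹) * XX hG (D.neg (D.simple i)) s1 * (XX hG (D.neg (D.simple i)) (-c⁻¹))⁻¹ =
        XX hG (D.neg (D.simple i)) s1 := by
      rw [← XX_neg, ← XX_add, ← XX_add]
      congr 1; ring
    rw [e2]
  rw [h1] at h2
  have hne : (((η (i : ℕ) (D.neg (D.simple i)) : ℤ) : F) * (((Units.mk0 c hc) ^ (-(D.cartan i (D.neg (D.simple i)))) : Fˣ) : F) * 1) ≠ 0 := by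
    rw [mul_one]
    refine mul_ne_zero ?_ (Units.ne_zero _)
    intro h0
    have := hG.etaF_sq (F := F) i.2 hnl
    rw [h0, mul_zero] at this
    exact zero_ne_one this
  exact simple_ne_neg hG hE i i (XX_inj hG (hG.simple_lt i i.2) hnl hE hne h2)

theorem PF.neg_eq {θ : ↥(D.group F) ≃* ↥(D.group F)} {π : Equiv.Perm (Fin D.rank)}
    {f g : Fin D.rank → F → F} (h : PF hG θ π f g) (i : Fin D.rank) {t : F} (ht : t ≠ 0) :
    g i (-t⁻¹) = -(f i t)⁻¹ := by
  set j := π i with hj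
  set a := f i t with ha
  set b := g i (-t⁻¹) with hb
  have ha0 : a ≠ 0 := PF.ne_zero hG h i ht
  have hb0 : b ≠ 0 := by
    intro h0
    have := h.ginj i _ h0
    exact ht (by simpa using this)
  set n : ↥(D.group F) := θ (NN hG (D.simple i) t) with hn
  have hn1 : n = XX hG (D.simple j) a * XX hG (D.neg (D.simple j)) b * XX hG (D.simple j) a := by
    rw [hn]
    unfold NN
    rw [map_mul, map_mul, h.pos, h.neg]
  have hstar : ∀ s : F, ∃ s' : F, n * XX hG (D.simple j) s * n⁻¹ = XX hG (D.neg (D.simple j)) s' := by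
    intro s
    obtain ⟨s0, rfl⟩ := (h.bij i).2 s
    have h1 := NN_conj_gen (F := F) hG hE i.2 (Units.mk0 t ht) (hG.simple_lt i i.2) s0
    rw [hG.w_simple, Units.val_mk0] at h1
    have h2 := congrArg θ h1
    rw [map_mul, map_mul, map_inv, h.pos, h.neg] at h2
    exact ⟨_, h2⟩
  set c : F := a + b⁻¹ with hc
  have hbi : -b⁻¹ ≠ 0 := neg_ne_zero.2 (inv_ne_zero hb0)
  have hn2 : n = XX hG (D.simple j) c * NN hG (D.simple j) (-b⁻¹) * XX hG (D.simple j) c := by
    rw [hn1]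
    unfold NN
    have e : -(-b⁻¹)⁻¹ = b := by rw [inv_neg, inv_inv, neg_neg]
    rw [e]
    have e2 : XX hG (D.simple j) a = XX hG (D.simple j) c * XX hG (D.simple j) (-b⁻¹) := by
      rw [← XX_add]; congr 1; rw [hc]; ring
    have e3 : XX hG (D.simple j) a = XX hG (D.simple j) (-b⁻¹) * XX hG (D.simple j) c := by
      rw [← XX_add]; congr 1; rw [hc]; ring
    calc XX hG (D.simple j) a * XX hG (D.neg (D.simple j)) b * XX hG (D.simple j) a
        = (XX hG (D.simple j) c * XX hG (D.simple j) (-b⁻¹)) * XX hG (D.neg (D.simple j)) b *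
          (XX hG (D.simple j) (-b⁻¹) * XX hG (D.simple j) c) := by rw [← e2, ← e3]
      _ = _ := by group
  have hc0 : c = 0 := by
    apply norm_neg hG hE j
    intro s
    -- preimage under the conjugation by `n_j`
    have h1 := fun s0 => NN_conj_gen (F := F) hG hE j.2 (Units.mk0 (-b⁻¹) hbi) (hG.simple_lt j j.2) s0
    rw [hG.w_simple, Units.val_mk0] at h1
    set k : F := ((η (j : ℕ) (D.simple j) : ℤ) : F) * (((Units.mk0 (-b⁻¹) hbi) ^ (-(D.cartan j (D.simple j))) : Fˣ) : F) with hk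
    have hk0 : k ≠ 0 := by
      refine mul_ne_zero ?_ (Units.ne_zero _)
      intro h0
      have := hG.etaF_sq (F := F) j.2 (hG.simple_lt j j.2)
      rw [h0, mul_zero] at this
      exact zero_ne_one this
    obtain ⟨s', hs'⟩ := hstar (k⁻¹ * s)
    refine ⟨s', ?_⟩
    rw [← hs', hn2]
    have h2 := h1 (k⁻¹ * s)
    rw [← mul_assoc, mul_inv_cancel₀ hk0, one_mul] at h2
    rw [← h2]
    have e : ∀ A M X : ↥(D.group F), Commute A X → A * (M * X * M⁻¹) * A⁻¹ = A * M * A * X * (A * M * A)⁻¹ := by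
      intro A M X hAX
      have : A * X * A⁻¹ = X := by rw [hAX.eq, mul_inv_cancel_right]
      calc A * (M * X * M⁻¹) * A⁻¹ = A * (M * (A * X * A⁻¹) * M⁻¹) * A⁻¹ := by rw [this]
        _ = _ := by group
    apply e
    change _ = _
    rw [← XX_add, ← XX_add, add_comm]
  rw [hc] at hc0
  have h3 : b⁻¹ = -a := by linear_combination hc0
  have h4 : b = (-a)⁻¹ := by rw [← h3, inv_inv]
  rw [h4, inv_neg]

theorem PF.NN {θ : ↥(D.group F) ≃* ↥(D.group F)} {π : Equiv.Perm (Fin D.rank)}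
    {f g : Fin D.rank → F → F} (h : PF hG θ π f g) (i : Fin D.rank) {t : F} (ht : t ≠ 0) :
    θ (Chev.NN hG (D.simple i) t) = Chev.NN hG (D.simple (π i)) (f i t) := by
  unfold Chev.NN
  rw [map_mul, map_mul, h.pos, h.neg, h.neg_eq hG hE i ht]

/-- `h_i(c)` acts on root elements -/
theorem HH_conj {i r : ℕ} (hi : i < D.rank) (c : Fˣ) (hr : r < D.nroots) (t : F) :
    (Chev.NN hG (D.simple i) (c : F) * (Chev.NN hG (D.simple i) 1)⁻¹) * XX hG r t *
      (Chev.NN hG (D.simple i) (c : F) * (Chev.NN hG (D.simple i) 1)⁻¹)⁻¹ =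
      XX hG r (((c ^ D.cartan i r : Fˣ) : F) * t) := by
  have h1 := hG.hgr_simple (F := F) hi c
  apply Subtype.ext
  change (ngr D F (D.simple i) (c : F) * (ngr D F (D.simple i) 1)⁻¹) * xg D F r t *
      (ngr D F (D.simple i) (c : F) * (ngr D F (D.simple i) 1)⁻¹)⁻¹ = _
  have h2 : ngr D F (D.simple i) (c : F) * (ngr D F (D.simple i) 1)⁻¹ = hgr D F (D.simple i) (c : F) := by
    unfold hgr
    rw [hG.ngr_neg_one]
  rw [h2, hG.hgr_eq_tor _ (hG.simple_lt i hi) c, hG.tor_conj_xg (hG.isChr_pairing (D.simple i) c) hr, hG.pairing_simple hi hr]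
  rfl

/-- the key relation -/
theorem PF.rel {θ : ↥(D.group F) ≃* ↥(D.group F)} {π : Equiv.Perm (Fin D.rank)}
    {f g : Fin D.rank → F → F} (h : PF hG θ π f g) (h1 : ∀ i, f i 1 = 1) (i j : Fin D.rank) (c c' : Fˣ) (hc : f i c = c') (s : F) :
    f j (((c ^ D.cartan i (D.simple j) : Fˣ) : F) * s) =
      ((c' ^ D.cartan (π i) (D.simple (π j)) : Fˣ) : F) * f j s := by
  have h2 := congrArg θ (HH_conj (F := F) hG hE i.2 c (hG.simple_lt j j.2) s)
  rw [map_mul, map_mul, map_inv, map_mul, map_inv, h.NN hG hE i c.ne_zero, h.NN hG hE i one_ne_zero, h1, hc, h.pos, h.pos,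
    HH_conj (F := F) hG hE (π i).2 c' (hG.simple_lt _ (π j).2)] at h2
  exact (XX_inj' hG (hG.simple_lt _ (π j).2) hE h2).symm

omit hE hG in
/-- every element of a finite field is a difference of two squares -/
theorem exists_sq_sub_sq [Finite F] (x : F) : ∃ a b : F, x = a ^ 2 - b ^ 2 := by
  have := Fintype.ofFinite F
  by_cases h2 : (2 : F) = 0
  · have hch : ringChar F = 2 := by
      have : CharP F 2 := by
        have h3 : ((2 : ℕ) : F) = 0 := by exact_mod_cast h2
        exact CharTwo.of_one_ne_zero_of_two_eq_zero one_ne_zero h2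
      exact ringChar.eq F 2 ▸ rfl
    obtain ⟨a, ha⟩ := FiniteField.isSquare_of_char_two hch x
    exact ⟨a, 0, by rw [ha]; ring⟩
  · refine ⟨(x + 1) / 2, (x - 1) / 2, ?_⟩
    field_simp
    ring

theorem PF.mul [Finite F] {θ : ↥(D.group F) ≃* ↥(D.group F)} {π : Equiv.Perm (Fin D.rank)}
    {f g : Fin D.rank → F → F} (h : PF hG θ π f g) (h1 : ∀ i, f i 1 = 1) (i : Fin D.rank) (x s : F) :
    f i (x * s) = f i x * f i s := by
  have hsq : ∀ c s : F, f i (c ^ 2 * s) = f i c ^ 2 * f i s := by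
    intro c s
    by_cases hc : c = 0
    · subst hc
      rw [PF.zero hG h i]
      simp [PF.zero hG h i]
    · have h2 := h.rel hG hE h1 i i (Units.mk0 c hc) (Units.mk0 (f i c) (PF.ne_zero hG h i hc)) rfl s
      rw [hG.cartan_diag i i.2, hG.cartan_diag _ (π i).2] at h2
      have e : ∀ u : Fˣ, ((u ^ (2 : ℤ) : Fˣ) : F) = (u : F) ^ 2 := by
        intro u
        rw [show (2 : ℤ) = ((2 : ℕ) : ℤ) from rfl, zpow_natCast, Units.val_pow_eq_pow_val]
      rw [e, e, Units.val_mk0, Units.val_mk0] at h2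
      exact h2
  have hsq1 : ∀ c : F, f i (c ^ 2) = f i c ^ 2 := by
    intro c
    have := hsq c 1
    rwa [mul_one, h1, mul_one] at this
  have hsub : ∀ a b : F, f i (a - b) = f i a - f i b := by
    intro a b
    have := h.add i (a - b) b
    rw [sub_add_cancel] at this
    rw [this]; ring
  obtain ⟨a, b, rfl⟩ := exists_sq_sub_sq x
  have e : (a ^ 2 - b ^ 2) * s = a ^ 2 * s - b ^ 2 * s := by ring
  rw [e, hsub, hsub, hsq, hsq, hsq1, hsq1]
  ring

/-- the field automorphisms attached to the nodes -/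
theorem PF.exists_ringEquiv [Finite F] {θ : ↥(D.group F) ≃* ↥(D.group F)} {π : Equiv.Perm (Fin D.rank)}
    {f g : Fin D.rank → F → F} (h : PF hG θ π f g) (h1 : ∀ i, f i 1 = 1) (i : Fin D.rank) :
    ∃ σ : F ≃+* F, ∀ t, σ t = f i t := by
  let φ : F →+* F :=
    { toFun := f i
      map_one' := h1 i
      map_mul' := h.mul hG hE h1 i
      map_zero' := PF.zero hG h i
      map_add' := h.add i }
  exact ⟨RingEquiv.ofBijective φ (h.bij i), fun t => rfl⟩

theorem PF.g_eq {θ : ↥(D.group F) ≃* ↥(D.group F)} {π : Equiv.Perm (Fin D.rank)}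
    {f g : Fin D.rank → F → F} (h : PF hG θ π f g) (i : Fin D.rank) (t : F) : g i t = (f i (t⁻¹))⁻¹ := by
  by_cases ht : t = 0
  · subst ht
    rw [inv_zero, PF.zero hG h i, inv_zero]
    apply XX_inj' hG (hG.neg_lt' (hG.simple_lt _ (π i).2)) hE
    rw [← h.neg, XX_zero, XX_zero, map_one]
  · have h1 : t = -(-t⁻¹)⁻¹ := by rw [inv_neg, inv_inv, neg_neg]
    have h2 : (-t⁻¹) ≠ 0 := neg_ne_zero.2 (inv_ne_zero ht)
    conv_lhs => rw [h1]
    rw [h.neg_eq hG hE i h2]
    have h3 : f i (-t⁻¹) = - f i t⁻¹ := by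
      have := h.add i (-t⁻¹) t⁻¹
      rw [neg_add_cancel, PF.zero hG h i] at this
      linear_combination -this
    rw [h3, inv_neg, neg_neg]

/-- commuting of simple root subgroups -/
theorem cartan_zero_of_comm {i j : Fin D.rank} (hij : i ≠ j)
    (h : ∀ t u : F, XX hG (D.simple i) t * XX hG (D.simple j) u = XX hG (D.simple j) u * XX hG (D.simple i) t) :
    D.cartan i (D.simple j) = 0 := by
  have h1 : ∀ u : F, Chev.NN hG (D.simple i) 1 * XX hG (D.simple j) u * (Chev.NN hG (D.simple i) 1)⁻¹ = XX hG (D.simple j) u := by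
    intro u
    have c1 : Commute (XX hG (D.simple i) (1 : F)) (XX hG (D.simple j) u) := h 1 u
    have c2 : Commute (XX hG (D.neg (D.simple i)) (-1⁻¹ : F)) (XX hG (D.simple j) u) := (comm_pos_neg hG hE hij.symm u _).symm
    have c3 : Commute (Chev.NN hG (D.simple i) (1 : F)) (XX hG (D.simple j) u) := (c1.mul_left c2).mul_left c1
    rw [c3.eq, mul_inv_cancel_right]
  have h2 := h1 1
  rw [NN_conj hG i.2 (hG.simple_lt j j.2)] at h2
  have hne : ((η (i : ℕ) (D.simple j) : ℤ) : F) * 1 ≠ 0 := by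
    rw [mul_one]
    intro h0
    have := hG.etaF_sq (F := F) i.2 (hG.simple_lt j j.2)
    rw [h0, mul_zero] at this
    exact zero_ne_one this
  have h3 := XX_inj hG (hG.w_lt i i.2 _ (hG.simple_lt j j.2)) (hG.simple_lt j j.2) hE hne h2
  have h4 := hG.rc_w i i.2 i i.2 _ (hG.simple_lt j j.2)
  rw [h3, if_pos rfl] at h4
  omega

omit hE in
theorem commTerms_nil' {i j : Fin D.rank} (hij : i ≠ j) (h : D.cartan i (D.simple j) = 0) :
    D.commTerms (D.simple i) (D.simple j) = [] := by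
  rw [List.eq_nil_iff_forall_not_mem]
  intro c hc
  obtain ⟨h1, h2, h3, h4⟩ := hG.commTerms_spec (hG.simple_lt i i.2) (hG.simple_lt j j.2) c hc
  -- reflect `c` in `p_i`
  have hci : D.cartan i c.1 = 2 * (c.2.2.1 : ℤ) := by
    rw [hG.cartan_rc' i.2 h1]
    have e : ∀ k ∈ Finset.range D.rank, rc c.1 k * D.cartan i (D.simple k) =
        (c.2.2.1 : ℤ) * (rc (D.simple i) k * D.cartan i (D.simple k)) +
        (c.2.2.2 : ℤ) * (rc (D.simple j) k * D.cartan i (D.simple k)) := by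
      intro k hk
      rw [h4 k (Finset.mem_range.1 hk)]; ring
    rw [Finset.sum_congr rfl e, Finset.sum_add_distrib, ← Finset.mul_sum, ← Finset.mul_sum,
      ← hG.cartan_rc' i.2 (hG.simple_lt i i.2), ← hG.cartan_rc' i.2 (hG.simple_lt j j.2), h, hG.cartan_diag i i.2]
    ring
  have h5 := hG.w_lt i i.2 _ h1
  have hi := hG.rc_w i i.2 i i.2 _ h1
  have hj := hG.rc_w i i.2 j j.2 _ h1
  rw [if_pos rfl, h4 i i.2, hci, hG.rc_simple i i.2 _ i.2, hG.rc_simple j j.2 _ i.2, if_pos rfl,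
    if_neg (fun h => hij (Fin.ext h))] at hi
  rw [if_neg (fun h => hij (Fin.ext h).symm), h4 j j.2, hG.rc_simple i i.2 _ j.2, hG.rc_simple j j.2 _ j.2, if_pos rfl,
    if_neg (fun h => hij (Fin.ext h).symm)] at hj
  by_cases hN : N ≤ D.reflectRoot i c.1
  · have := hG.rc_pos _ h5 hN i i.2
    omega
  · have := hG.rc_neg_root h5 (by omega) j j.2
    omega

theorem comm_of_cartan_zero {i j : Fin D.rank} (hij : i ≠ j) (h : D.cartan i (D.simple j) = 0) (t u : F) :
    XX hG (D.simple i) t * XX hG (D.simple j) u = XX hG (D.simple j) u * XX hG (D.simple i) t := by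
  have hne1 : D.simple j ≠ D.simple i := fun h => hij (simple_inj hG hE h).symm
  have hne2 : D.simple j ≠ D.neg (D.simple i) := simple_ne_neg hG hE j i
  have h1 := (hG.rd (F := F) hE).comm _ (hG.simple_lt i i.2) _ (hG.simple_lt j j.2) hne1 hne2 t u
  have h2 : xw (xg D F) (D.commWord F (D.simple i) (D.simple j) t u) = 1 := by
    unfold ChevalleyDatum.commWord
    rw [commTerms_nil' hG hij h]
    rfl
  rw [h2, mul_one] at h1
  exact Subtype.ext h1.symm

theorem PF.cartan_zero {θ : ↥(D.group F) ≃* ↥(D.group F)} {π : Equiv.Perm (Fin D.rank)}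
    {f g : Fin D.rank → F → F} (h : PF hG θ π f g) {i j : Fin D.rank} (hij : i ≠ j) :
    D.cartan (π i) (D.simple (π j)) = 0 ↔ D.cartan i (D.simple j) = 0 := by
  have hij' : π i ≠ π j := fun h => hij (π.injective h)
  constructor
  · intro h0
    apply cartan_zero_of_comm (F := F) hG hE hij
    intro t u
    apply θ.injective
    rw [map_mul, map_mul, h.pos, h.pos]
    exact comm_of_cartan_zero hG hE hij' h0 _ _
  · intro h0
    apply cartan_zero_of_comm (F := F) hG hE hij'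
    intro t u
    obtain ⟨t', rfl⟩ := (h.bij i).2 t
    obtain ⟨u', rfl⟩ := (h.bij j).2 u
    rw [← h.pos, ← h.pos, ← map_mul, comm_of_cartan_zero hG hE hij h0, map_mul]

/-- the form of standard automorphisms -/
theorem Std.form [Finite F] {θ : ↥(D.group F) ≃* ↥(D.group F)} (hθ : Std θ) :
    ∃ (π : Equiv.Perm (Fin D.rank)) (c : ℕ → Fˣ) (σ : Fin D.rank → F ≃+* F),
      (∀ i j : Fin D.rank, i ≠ j → (D.cartan (π i) (D.simple (π j)) = 0 ↔ D.cartan i (D.simple j) = 0)) ∧
      (∀ (i j : Fin D.rank) (u : Fˣ), σ j ((u ^ D.cartan i (D.simple j) : Fˣ) : F) =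
        ((Units.map (σ i).toRingHom.toMonoidHom u ^ D.cartan (π i) (D.simple (π j)) : Fˣ) : F)) ∧
      (∀ (i : Fin D.rank) (t : F), θ (XX hG (D.simple i) t) = XX hG (D.simple (π i)) ((c (π i) : F) * σ i t)) ∧
      (∀ (i : Fin D.rank) (t : F), θ (XX hG (D.neg (D.simple i)) t) =
        XX hG (D.neg (D.simple (π i))) (((c (π i))⁻¹ : Fˣ) * σ i t)) := by
  obtain ⟨π, f, g, h1, h2, h3, h4, h5⟩ := hθ.exists_perm hG hE
  have hPF : PF hG θ π f g := ⟨h1, h2, h3, h4, h5⟩
  set c : ℕ → Fˣ := fun k => if h : k < D.rank then Units.mk0 (f (π.symm ⟨k, h⟩) 1) (PF.ne_zero hG hPF _ one_ne_zero) else 1 with hc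
  have hcπ : ∀ i : Fin D.rank, ((c (π i) : Fˣ) : F) = f i 1 := by
    intro i
    rw [hc]
    simp only [Fin.is_lt, dif_pos]
    rw [Units.val_mk0]
    congr 1
    exact π.symm_apply_apply i
  set χ := chr D.rank rc c with hχ
  have hχc : IsChr D χ := hG.isChr_chr c
  set θ' : ↥(D.group F) ≃* ↥(D.group F) := θ.trans (dAut hG hχc).symm with hθ'
  have hd : ∀ (r : ℕ) (hr : r < D.nroots) (t : F), (dAut hG hχc).symm (XX hG r t) = XX hG r (((χ r)⁻¹ : Fˣ) * t) := by
    intro r hr t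
    rw [MulEquiv.symm_apply_eq, dAut_XX hG hχc hr, ← mul_assoc, Units.mul_inv, one_mul]
  have hχs : ∀ i : Fin D.rank, χ (D.simple i) = c i := fun i => hG.chr_simple (F := F) c i.2
  have hPF' : PF hG θ' π (fun i t => ((c (π i))⁻¹ : Fˣ) * f i t) (fun i t => (c (π i) : F) * g i t) := by
    constructor
    · intro i t
      change (dAut hG hχc).symm (θ (XX hG (D.simple i) t)) = _
      rw [hPF.pos, hd _ (hG.simple_lt _ (π i).2), hχs]
    · intro i t
      change (dAut hG hχc).symm (θ (XX hG (D.neg (D.simple i)) t)) = _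
      rw [hPF.neg, hd _ (hG.neg_lt' (hG.simple_lt _ (π i).2)), hχc.neg _ (hG.simple_lt _ (π i).2), inv_inv, hχs]
    · intro i s t
      change _ * f i (s + t) = _ * f i s + _ * f i t
      rw [hPF.add]; ring
    · intro i
      constructor
      · intro s t hst
        simp only at hst
        exact (hPF.bij i).1 (mul_left_cancel₀ (Units.ne_zero _) hst)
      · intro t
        obtain ⟨s, hs⟩ := (hPF.bij i).2 ((c (π i) : F) * t)
        refine ⟨s, ?_⟩
        change _ * f i s = _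
        rw [hs, ← mul_assoc, Units.inv_mul, one_mul]
    · intro i t ht
      rcases mul_eq_zero.1 ht with h | h
      · exact absurd h (Units.ne_zero _)
      · exact hPF.ginj i t h
  have hone : ∀ i, (fun i t => ((c (π i))⁻¹ : Fˣ) * f i t) i 1 = (1 : F) := by
    intro i
    change ((c (π i))⁻¹ : Fˣ) * f i 1 = 1
    rw [← hcπ, Units.inv_mul]
  have hσ := fun i => hPF'.exists_ringEquiv hG hE hone i
  choose σ hσ using hσ
  refine ⟨π, c, σ, ?_, ?_, ?_, ?_⟩
  · intro i j hij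
    exact hPF.cartan_zero hG hE hij
  · intro i j u
    have h6 := hPF'.rel hG hE hone i j u (Units.map (σ i).toRingHom.toMonoidHom u) (by
      rw [← hσ]; rfl) 1
    rw [mul_one] at h6
    rw [hσ, h6, ← hσ j 1, map_one, mul_one]
  · intro i t
    rw [hPF.pos, hσ, ← mul_assoc, Units.mul_inv, one_mul]
  · intro i t
    have h6 : (c (π i) : F) * g i t = (((c (π i))⁻¹ : Fˣ) * f i t⁻¹)⁻¹ := hPF'.g_eq hG hE i t
    rw [hPF.neg]
    congr 1
    have h7 : ((c (π i))⁻¹ : Fˣ) * f i t⁻¹ = (σ i) t⁻¹ := (hσ i t⁻¹).symm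
    rw [h7, map_inv₀, inv_inv] at h6
    rw [← h6, ← mul_assoc, Units.inv_mul, one_mul]

end Cfsg.Agent.H15.Chev
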