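import Cfsg.Agent.H15.ChevAut5
import Cfsg.Agent.H6.ChevSimpleTab

/-!
# Automorphisms of finite Chevalley groups: the types
-/

set_option autoImplicit false
set_option linter.unusedSectionVars false
set_option maxRecDepth 100000

namespace Cfsg.Agent.H15.Chev

open Cfsg.Agent.H6 Cfsg.Lie Cfsg.Agent.H22 Cfsg.Agent.H16.BNS
open scoped Matrix

/-- the relation between the permutation and the field automorphisms -/
structure RelD (D : ChevalleyDatum) (F : Type*) [Field F] (π : Equiv.Perm (Fin D.rank)) (σ : Fin D.rank → F ≃+* F) : Prop where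
  zero : ∀ i j : Fin D.rank, i ≠ j → (D.cartan (π i) (D.simple (π j)) = 0 ↔ D.cartan i (D.simple j) = 0)
  rel : ∀ (i j : Fin D.rank) (u : Fˣ), σ j ((u ^ D.cartan i (D.simple j) : Fˣ) : F) =
        ((Units.map (σ i).toRingHom.toMonoidHom u ^ D.cartan (π i) (D.simple (π j)) : Fˣ) : F)

/-- the conclusion -/
def TypeOK (D : ChevalleyDatum) (F : Type*) [Field F] : Prop :=
  ∀ (π : Equiv.Perm (Fin D.rank)) (σ : Fin D.rank → F ≃+* F), RelD D F π σ →
    D.IsDiagramSymmetry π ∧ ∃ τ : F ≃+* F, ∀ i t, σ i t = τ t ^ D.graphExp (ringChar F) i (π i)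

variable {D : ChevalleyDatum} {F : Type*} [Field F]

theorem RelD.pow {π : Equiv.Perm (Fin D.rank)} {σ : Fin D.rank → F ≃+* F} (h : RelD D F π σ) {i j : Fin D.rank} {m : ℕ}
    (hm : m ≠ 0) (h1 : D.cartan i (D.simple j) = -1) (h2 : D.cartan (π i) (D.simple (π j)) = -(m : ℤ)) (t : F) :
    σ j t = (σ i t) ^ m := by
  by_cases ht : t = 0
  · subst ht
    rw [map_zero, map_zero, zero_pow hm]
  · have h3 := h.rel i j (Units.mk0 t ht)
    rw [h1, h2, zpow_neg_one, zpow_neg, zpow_natCast, Units.val_inv_eq_inv_val, Units.val_inv_eq_inv_val, Units.val_mk0,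
      map_inv₀, Units.val_pow_eq_pow_val] at h3
    exact inv_injective h3

theorem graphExp_self (c i : ℕ) : D.graphExp c i i = 1 := by
  unfold ChevalleyDatum.graphExp
  cases D.isLong (D.simple i) <;> simp

theorem graphExp_of_not_long (c i j : ℕ) (h : D.isLong (D.simple j) = false) : D.graphExp c i j = 1 := by
  unfold ChevalleyDatum.graphExp
  rw [h]; simp

theorem graphExp_of_long (c i j : ℕ) (h : D.isLong (D.simple j) = true) (h' : D.isLong (D.simple i) = false) :
    D.graphExp c i j = c := by
  unfold ChevalleyDatum.graphExp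
  rw [h, h']; simp

/-- if the square map is additive then the characteristic is two -/
theorem char_of_sq (σ σ' : F ≃+* F) (h : ∀ t, σ t = σ' t ^ 2) : ringChar F = 2 := by
  have h1 := h (1 + 1)
  rw [map_add, map_one, map_add, map_one] at h1
  have h2 : (2 : F) = 0 := by linear_combination -h1
  have : CharP F 2 := CharTwo.of_one_ne_zero_of_two_eq_zero one_ne_zero h2
  exact ringChar.eq F 2 ▸ rfl

/-- if the cube map is additive then it is the Frobenius map -/
theorem pow_of_cube [Finite F] (σ σ' : F ≃+* F) (h : ∀ t, σ t = σ' t ^ 3) (x : F) : x ^ 3 = x ^ ringChar F := by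
  have hadd : ∀ a b : F, (a + b) ^ 3 = a ^ 3 + b ^ 3 := by
    intro a b
    obtain ⟨s, rfl⟩ := σ'.surjective a
    obtain ⟨t, rfl⟩ := σ'.surjective b
    rw [← map_add, ← h, ← h, ← h, map_add]
  by_cases h3 : (3 : F) = 0
  · have h4 : ((3 : ℕ) : F) = 0 := by exact_mod_cast h3
    have h5 := (CharP.cast_eq_zero_iff F (ringChar F) 3).1 h4
    rcases (Nat.dvd_prime Nat.prime_three).1 h5 with h6 | h6
    · exact absurd h6 CharP.ringChar_ne_one
    · rw [h6]
  · have h4 : ∀ s : F, s * (s + 1) = 0 := by
      intro s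
      have := hadd s 1
      have h5 : 3 * (s * (s + 1)) = 0 := by linear_combination this
      rcases mul_eq_zero.1 h5 with h6 | h6
      · exact absurd h6 h3
      · exact h6
    have h2 : (2 : F) = 0 := by
      have := h4 1
      linear_combination this
    have hx := h4 x
    have hr : ringChar F ≠ 0 := CharP.ringChar_ne_zero_of_finite F
    rcases mul_eq_zero.1 hx with h5 | h5
    · rw [h5, zero_pow hr, zero_pow (by norm_num)]
    · have h6 : x = 1 := by linear_combination h5 - h2
      rw [h6, one_pow, one_pow]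

/-- simply laced types -/
theorem typeOK_of_simplyLaced (hsl : ∀ i j : Fin D.rank, i ≠ j → D.cartan i (D.simple j) = 0 ∨ D.cartan i (D.simple j) = -1)
    (hsym : ∀ i j : Fin D.rank, D.cartan i (D.simple j) = D.cartan j (D.simple i))
    (hlong : ∀ i : Fin D.rank, D.isLong (D.simple i) = false) (par : Fin D.rank → Fin D.rank) (root : Fin D.rank) (k : ℕ)
    (hpar : ∀ i, i = par i ∨ D.cartan i (D.simple (par i)) = -1) (hk : ∀ i, par^[k] i = root) : TypeOK D F := by
  intro π σ h
  have hb : ∀ i j : Fin D.rank, i ≠ j → D.bonds i j = if D.cartan i (D.simple j) = 0 then 0 else 1 := by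
    intro i j hij
    unfold ChevalleyDatum.bonds
    rw [hsym j i]
    rcases hsl i j hij with h1 | h1 <;> rw [h1] <;> simp
  have hne : ∀ i j : Fin D.rank, D.cartan i (D.simple j) = -1 → i ≠ j → D.cartan (π i) (D.simple (π j)) = -1 := by
    intro i j h1 hij
    rcases hsl (π i) (π j) (fun h => hij (π.injective h)) with h2 | h2
    · rw [h.zero i j hij, h1] at h2
      exact absurd h2 (by norm_num)
    · exact h2
  refine ⟨?_, σ root, ?_⟩
  · intro i j hij
    rw [hb _ _ hij, hb _ _ (fun h => hij (π.injective h))]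
    congr 1
    exact propext (h.zero i j hij)
  · have hstep : ∀ i, ∀ t, σ i t = σ (par i) t := by
      intro i t
      rcases hpar i with h1 | h1
      · rw [← h1]
      · by_cases hi : i = par i
        · rw [← hi]
        · have h2 := h.pow (m := 1) one_ne_zero h1 (by rw [hne _ _ h1 hi]; rfl) t
          rw [pow_one] at h2
          exact h2.symm
    have hit : ∀ n i t, σ i t = σ (par^[n] i) t := by
      intro n
      induction n with
      | zero => intro i t; rfl
      | succ n ih =>
        intro i t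
        rw [hstep i t, ih (par i) t, Function.iterate_succ_apply]
    intro i t
    rw [graphExp_of_not_long _ _ _ (hlong (π i)), pow_one, ← hk i]
    exact hit k i t

theorem typeOK_D4 : TypeOK chevD4 F :=
  typeOK_of_simplyLaced (D := chevD4) (by decide +kernel) (by decide +kernel) (by decide +kernel) TD4.par ⟨0, by decide⟩ 2
    (by decide +kernel : ∀ i : Fin 4, i = TD4.par i ∨ chevD4.cartan i (chevD4.simple (TD4.par i)) = -1)
    (by decide +kernel : ∀ i : Fin 4, TD4.par^[2] i = 0)

theorem typeOK_E6 : TypeOK chevE6 F :=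
  typeOK_of_simplyLaced (D := chevE6) (by decide +kernel) (by decide +kernel) (by decide +kernel) TE6.par ⟨0, by decide⟩ 4
    (by decide +kernel : ∀ i : Fin 6, i = TE6.par i ∨ chevE6.cartan i (chevE6.simple (TE6.par i)) = -1)
    (by decide +kernel : ∀ i : Fin 6, TE6.par^[4] i = 0)

theorem typeOK_E7 : TypeOK chevE7 F :=
  typeOK_of_simplyLaced (D := chevE7) (by decide +kernel) (by decide +kernel) (by decide +kernel) TE7.par ⟨0, by decide⟩ 5
    (by decide +kernel : ∀ i : Fin 7, i = TE7.par i ∨ chevE7.cartan i (chevE7.simple (TE7.par i)) = -1)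
    (by decide +kernel : ∀ i : Fin 7, TE7.par^[5] i = 0)

theorem typeOK_E8 : TypeOK chevE8 F :=
  typeOK_of_simplyLaced (D := chevE8) (by decide +kernel) (by decide +kernel) (by decide +kernel) TE8.par ⟨0, by decide⟩ 6
    (by decide +kernel : ∀ i : Fin 8, i = TE8.par i ∨ chevE8.cartan i (chevE8.simple (TE8.par i)) = -1)
    (by decide +kernel : ∀ i : Fin 8, TE8.par^[6] i = 0)

end Cfsg.Agent.H15.Chev
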