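import Cfsg.Agent.H15.ChevAut6

/-!
# Automorphisms of finite Chevalley groups: the theorem of Steinberg
-/

set_option autoImplicit false
set_option linter.unusedSectionVars false
set_option maxRecDepth 100000

namespace Cfsg.Agent.H15.Chev

open Cfsg.Agent.H6 Cfsg.Lie Cfsg.Agent.H22 Cfsg.Agent.H16.BNS
open scoped Matrix

variable {D : ChevalleyDatum} {F : Type*} [Field F]

theorem typeOK_rank2 {i0 i1 : Fin D.rank} (hall : ∀ i, i = i0 ∨ i = i1) (m : ℕ) (hm0 : m ≠ 0)
    (h10 : D.cartan i1 (D.simple i0) = -1) (h01 : D.cartan i0 (D.simple i1) = -(m : ℤ))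
    (hl0 : D.isLong (D.simple i0) = false) (hl1 : D.isLong (D.simple i1) = true)
    (hpow : ∀ σ σ' : F ≃+* F, (∀ t, σ t = σ' t ^ m) → ∀ x : F, x ^ m = x ^ ringChar F) : TypeOK D F := by
  intro π σ h
  have hne : i0 ≠ i1 := by
    intro h
    rw [h, hl1] at hl0
    exact absurd hl0 (by simp)
  rcases hall (π i0) with h0 | h0
  · have h1 : π i1 = i1 := by
      rcases hall (π i1) with h1 | h1
      · exact absurd (π.injective (h0.trans h1.symm)) hne
      · exact h1
    have hid : ∀ i, π i = i := by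
      intro i
      rcases hall i with rfl | rfl
      · exact h0
      · exact h1
    refine ⟨?_, σ i0, ?_⟩
    · intro i j _
      rw [hid i, hid j]
    · intro i t
      rw [hid i, graphExp_self, pow_one]
      rcases hall i with rfl | rfl
      · rfl
      · have h2 := h.pow (m := 1) one_ne_zero h10 (by rw [hid, hid, h10]; rfl) t
        rw [pow_one] at h2
        exact h2.symm
  · have h1 : π i1 = i0 := by
      rcases hall (π i1) with h1 | h1
      · exact h1
      · exact absurd (π.injective (h0.trans h1.symm)) hne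
    have hcomm : ∀ i j : ℕ, D.bonds i j = D.bonds j i := fun i j => mul_comm _ _
    have h2 := h.pow hm0 h10 (by rw [h0, h1, h01])
    have h3 := hpow _ _ h2
    refine ⟨?_, σ i1, ?_⟩
    · intro i j hij
      rcases hall i with rfl | rfl <;> rcases hall j with rfl | rfl
      · exact absurd rfl hij
      · rw [h0, h1, hcomm]
      · rw [h0, h1, hcomm]
      · exact absurd rfl hij
    · intro i t
      rcases hall i with rfl | rfl
      · rw [h0, graphExp_of_long _ _ _ hl1 hl0, h2 t]
        exact h3 _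
      · rw [h1, graphExp_of_not_long _ _ _ hl0, pow_one]

theorem typeOK_B2 : TypeOK chevB2 F :=
  typeOK_rank2 (D := chevB2) (i0 := ⟨0, by decide⟩) (i1 := ⟨1, by decide⟩) (by decide) 2 (by decide) (by decide +kernel)
    (by decide +kernel) (by decide +kernel) (by decide +kernel) (fun σ σ' h x => by rw [char_of_sq σ σ' h])

theorem typeOK_G2 [Finite F] : TypeOK chevG2 F :=
  typeOK_rank2 (D := chevG2) (i0 := ⟨0, by decide⟩) (i1 := ⟨1, by decide⟩) (by decide) 3 (by decide) (by decide +kernel)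
    (by decide +kernel) (by decide +kernel) (by decide +kernel) (fun σ σ' h x => pow_of_cube σ σ' h x)

theorem perm4 : ∀ π : Equiv.Perm (Fin 4), (∀ i j : Fin 4, i ≠ j →
    (((i : ℕ) + 1 = j ∨ (j : ℕ) + 1 = i) ↔ ((π i : ℕ) + 1 = π j ∨ (π j : ℕ) + 1 = π i))) →
    (∀ i, π i = i) ∨ (π 0 = 3 ∧ π 1 = 2 ∧ π 2 = 1 ∧ π 3 = 0) := by
  decide +kernel

theorem typeOK_F4 : TypeOK chevF4 F := by
  intro π σ h
  have hz : ∀ i j : Fin 4, i ≠ j → (chevF4.cartan i (chevF4.simple j) = 0 ↔ ¬ ((i : ℕ) + 1 = j ∨ (j : ℕ) + 1 = i)) := by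
    decide +kernel
  have h4 := perm4 π (by
    intro i j hij
    have e1 := hz i j hij
    have e2 := hz (π i) (π j) (fun h => hij (π.injective h))
    have e3 := h.zero i j hij
    rw [← not_iff_not]
    exact (e1.symm.trans e3.symm).trans e2)
  let j0 : Fin chevF4.rank := (0 : Fin 4)
  let j1 : Fin chevF4.rank := (1 : Fin 4)
  let j2 : Fin chevF4.rank := (2 : Fin 4)
  let j3 : Fin chevF4.rank := (3 : Fin 4)
  have hall : ∀ i : Fin chevF4.rank, i = j0 ∨ i = j1 ∨ i = j2 ∨ i = j3 :=
    (by decide : ∀ i : Fin 4, i = 0 ∨ i = 1 ∨ i = 2 ∨ i = 3)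
  have c10 : chevF4.cartan j1 (chevF4.simple j0) = -1 := by decide +kernel
  have c21 : chevF4.cartan j2 (chevF4.simple j1) = -1 := by decide +kernel
  have c32 : chevF4.cartan j3 (chevF4.simple j2) = -1 := by decide +kernel
  have c23 : chevF4.cartan j2 (chevF4.simple j3) = -((1 : ℕ) : ℤ) := by decide +kernel
  have c12 : chevF4.cartan j1 (chevF4.simple j2) = -((2 : ℕ) : ℤ) := by decide +kernel
  have c01 : chevF4.cartan j0 (chevF4.simple j1) = -((1 : ℕ) : ℤ) := by decide +kernel
  have l0 : chevF4.isLong (chevF4.simple j0) = false := by decide +kernel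
  have l1 : chevF4.isLong (chevF4.simple j1) = false := by decide +kernel
  have l2 : chevF4.isLong (chevF4.simple j2) = true := by decide +kernel
  have l3 : chevF4.isLong (chevF4.simple j3) = true := by decide +kernel
  rcases h4 with hid | ⟨h0, h1, h2, h3⟩
  · have hid' : ∀ i : Fin chevF4.rank, π i = i := hid
    have e0 : ∀ t, σ j0 t = σ j1 t := fun t => by
      have := h.pow (m := 1) one_ne_zero c10 (by rw [hid', hid', c10]; rfl) t
      rwa [pow_one] at this
    have e1 : ∀ t, σ j1 t = σ j2 t := fun t => by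
      have := h.pow (m := 1) one_ne_zero c21 (by rw [hid', hid', c21]; rfl) t
      rwa [pow_one] at this
    have e2 : ∀ t, σ j2 t = σ j3 t := fun t => by
      have := h.pow (m := 1) one_ne_zero c32 (by rw [hid', hid', c32]; rfl) t
      rwa [pow_one] at this
    refine ⟨?_, σ j0, ?_⟩
    · intro i j _
      rw [hid' i, hid' j]
    · intro i t
      rw [hid' i, graphExp_self, pow_one]
      rcases hall i with rfl | rfl | rfl | rfl
      · rfl
      · exact (e0 t).symm
      · rw [e0, e1]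
      · rw [e0, e1, e2]
  · have h0' : π j0 = j3 := h0
    have h1' : π j1 = j2 := h1
    have h2' : π j2 = j1 := h2
    have h3' : π j3 = j0 := h3
    have e0 : ∀ t, σ j0 t = σ j1 t := fun t => by
      have := h.pow (m := 1) one_ne_zero c10 (by rw [h1', h0', c23]) t
      rwa [pow_one] at this
    have e1 : ∀ t, σ j1 t = σ j2 t ^ 2 := fun t => h.pow (m := 2) two_ne_zero c21 (by rw [h2', h1', c12]) t
    have e2 : ∀ t, σ j2 t = σ j3 t := fun t => by
      have := h.pow (m := 1) one_ne_zero c32 (by rw [h3', h2', c01]) t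
      rwa [pow_one] at this
    have hch : ringChar F = 2 := char_of_sq _ _ e1
    have hcomm : ∀ i j : ℕ, chevF4.bonds i j = chevF4.bonds j i := fun i j => mul_comm _ _
    have b03 : chevF4.bonds j0 j1 = chevF4.bonds j2 j3 := by decide +kernel
    have b02 : chevF4.bonds j0 j2 = chevF4.bonds j1 j3 := by decide +kernel
    refine ⟨?_, σ j2, ?_⟩
    · intro i j hij
      rcases hall i with rfl | rfl | rfl | rfl <;> rcases hall j with rfl | rfl | rfl | rfl <;>
        first
        | exact absurd rfl hij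
        | (simp only [h0', h1', h2', h3']
           first
           | rfl
           | exact hcomm _ _
           | (rw [b03]; done)
           | (rw [← b03]; done)
           | (rw [b02]; done)
           | (rw [← b02]; done)
           | (rw [hcomm, b03]; done)
           | (rw [hcomm, ← b03]; done)
           | (rw [hcomm, b02]; done)
           | (rw [hcomm, ← b02]; done)
           | (rw [hcomm, b03, hcomm]; done)
           | (rw [hcomm, ← b03, hcomm]; done)
           | (rw [hcomm, b02, hcomm]; done)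
           | (rw [hcomm, ← b02, hcomm]; done))
    · intro i t
      rcases hall i with rfl | rfl | rfl | rfl
      · rw [h0', graphExp_of_long _ _ _ l3 l0, hch, e0, e1]
      · rw [h1', graphExp_of_long _ _ _ l2 l1, hch, e1]
      · rw [h2', graphExp_of_not_long _ _ _ l1, pow_one]
      · rw [h3', graphExp_of_not_long _ _ _ l0, pow_one, e2]

theorem typeOK [Finite F] (hD : D ∈ [chevG2, chevB2, chevD4, chevF4, chevE6, chevE7, chevE8]) : TypeOK D F := by
  simp only [List.mem_cons, List.mem_nil_iff, or_false] at hD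
  rcases hD with rfl | rfl | rfl | rfl | rfl | rfl | rfl
  · exact typeOK_G2
  · exact typeOK_B2
  · exact typeOK_D4
  · exact typeOK_F4
  · exact typeOK_E6
  · exact typeOK_E7
  · exact typeOK_E8

variable {N : ℕ} {η : ℕ → ℕ → ℤ} {rc : ℕ → ℕ → ℤ}
variable (hG : Good D N η rc) (hE : Ext D rc)
include hG hE

/-- the precise form of standard automorphisms -/
theorem Std.form' [Finite F] (hT : TypeOK D F) {θ : ↥(D.group F) ≃* ↥(D.group F)} (hθ : Std θ) :
    ∃ (π : Equiv.Perm (Fin D.rank)) (c : ℕ → Fˣ) (τ : F ≃+* F), D.IsDiagramSymmetry π ∧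
      (∀ (i : Fin D.rank) (t : F), θ (XX hG (D.simple i) t) =
        XX hG (D.simple (π i)) ((c (π i) : F) * τ t ^ D.graphExp (ringChar F) i (π i))) ∧
      (∀ (i : Fin D.rank) (t : F), θ (XX hG (D.neg (D.simple i)) t) =
        XX hG (D.neg (D.simple (π i))) (((c (π i))⁻¹ : Fˣ) * τ t ^ D.graphExp (ringChar F) i (π i))) := by
  obtain ⟨π, c, σ, h1, h2, h3, h4⟩ := hθ.form hG hE
  obtain ⟨h5, τ, hτ⟩ := hT π σ ⟨h1, h2⟩
  refine ⟨π, c, τ, h5, ?_, ?_⟩
  · intro i t
    rw [h3, hτ]
  · intro i t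
    rw [h4, hτ]

/-- decomposition of standard automorphisms -/
theorem Std.decomp [Finite F] (hT : TypeOK D F) {θ : ↥(D.group F) ≃* ↥(D.group F)} (hθ : Std θ) :
    ∃ d g f : ↥(D.group F) ≃* ↥(D.group F), D.IsDiagonalAut d ∧ D.IsGraphAut g ∧ D.IsFieldAut f ∧
      ∀ y : ↥(D.group F), θ y = d (g (f y)) := by
  obtain ⟨π, c, τ, h1, h2, h3⟩ := hθ.form' hG hE hT
  set χ := chr D.rank rc c with hχ
  have hχc : IsChr D χ := hG.isChr_chr c
  have hχs : ∀ i : Fin D.rank, χ (D.simple i) = c i := fun i => hG.chr_simple (F := F) c i.2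
  have hd : ∀ (r : ℕ) (hr : r < D.nroots) (t : F), (dAut hG hχc).symm (XX hG r t) = XX hG r (((χ r)⁻¹ : Fˣ) * t) := by
    intro r hr t
    rw [MulEquiv.symm_apply_eq, dAut_XX hG hχc hr, ← mul_assoc, Units.mul_inv, one_mul]
  obtain ⟨f, hf⟩ := exists_field hG τ
  have hf' : ∀ (r : ℕ) (t : F), r < D.nroots → f.symm (XX hG r t) = XX hG r (τ.symm t) := by
    intro r t hr
    rw [MulEquiv.symm_apply_eq, hf r _ hr, RingEquiv.apply_symm_apply]
  refine ⟨dAut hG hχc, (f.symm.trans θ).trans (dAut hG hχc).symm, f, (isDiagonalAut_iff hG).2 ⟨χ, hχc, rfl⟩,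
    (isGraphAut_iff hG).2 ⟨π, h1, fun i t => ⟨?_, ?_⟩⟩, (isFieldAut_iff hG).2 ⟨τ, hf⟩, fun y => ?_⟩
  · change (dAut hG hχc).symm (θ (f.symm (XX hG (D.simple i) t))) = _
    rw [hf' _ _ (hG.simple_lt i i.2), h2, hd _ (hG.simple_lt _ (π i).2), RingEquiv.apply_symm_apply, hχs, ← mul_assoc,
      Units.inv_mul, one_mul]
  · change (dAut hG hχc).symm (θ (f.symm (XX hG (D.neg (D.simple i)) t))) = _
    rw [hf' _ _ (hG.neg_lt' (hG.simple_lt i i.2)), h3, hd _ (hG.neg_lt' (hG.simple_lt _ (π i).2)), RingEquiv.apply_symm_apply,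
      hχc.neg _ (hG.simple_lt _ (π i).2), inv_inv, hχs, ← mul_assoc, Units.mul_inv, one_mul]
  · change θ y = dAut hG hχc ((dAut hG hχc).symm (θ (f.symm (f y))))
    rw [MulEquiv.apply_symm_apply, MulEquiv.symm_apply_apply]

theorem steinberg [Finite F] (hT : TypeOK D F) (θ : ↥(D.group F) ≃* ↥(D.group F)) :
    ∃ (x : ↥(D.group F)) (d g f : ↥(D.group F) ≃* ↥(D.group F)), D.IsDiagonalAut d ∧ D.IsGraphAut g ∧ D.IsFieldAut f ∧
      ∀ y : ↥(D.group F), θ y = x * d (g (f y)) * x⁻¹ := by
  obtain ⟨x, hx⟩ := exists_std hG hE θ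
  obtain ⟨d, g, f, h1, h2, h3, h4⟩ := hx.decomp hG hE hT
  refine ⟨x⁻¹, d, g, f, h1, h2, h3, fun y => ?_⟩
  rw [← h4 y]
  change θ y = x⁻¹ * (x * θ y * x⁻¹) * x⁻¹⁻¹
  group

end Cfsg.Agent.H15.Chev
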