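import Cfsg.Agent.H15.ChevBT2

/-!
# Borel–Tits for finite Chevalley groups, part 3
-/

set_option autoImplicit false
set_option linter.unusedSectionVars false

namespace Cfsg.Agent.H15.Chev

open Cfsg.Agent.H6 Cfsg.Lie Cfsg.Agent.H22
open scoped Matrix

variable {D : ChevalleyDatum} {N : ℕ} {η : ℕ → ℕ → ℤ} {rc : ℕ → ℕ → ℤ} {F : Type*} [Field F]
variable (hG : Good D N η rc) (hE : Ext D rc)

/-- the support of `V^g` -/
def supp (D : ChevalleyDatum) (N : ℕ) (V : Subgroup (GL D.Idx F)) (g : GL D.Idx F) : Set (Fin D.nroots) :=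
  {r | N ≤ (r : ℕ) ∧ ∃ v ∈ V, ∃ τ : ℕ → F, g⁻¹ * v * g = op (xg D F) τ N N ∧ τ r ≠ 0}

/-- the compact set -/
def KK (hG : Good D N η rc) : Set (Fin D.nroots → ℝ) := {y | Dom hG y ∧ nsq y ≤ 1}

include hG

theorem nsq_nonneg (y : Fin D.nroots → ℝ) : 0 ≤ nsq y := Finset.sum_nonneg fun r _ => sq_nonneg _

theorem sq_le_nsq (y : Fin D.nroots → ℝ) (r : Fin D.nroots) : y r ^ 2 ≤ nsq y :=
  Finset.single_le_sum (f := fun r => y r ^ 2) (fun r _ => sq_nonneg _) (Finset.mem_univ r)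

theorem isCompact_KK : IsCompact (KK hG) := by
  have hcl : IsClosed (KK hG) := by
    have e : KK hG = ((⋂ r, {y : Fin D.nroots → ℝ | y r = ∑ j : Fin D.rank, (rc r j : ℝ) * y (hG.sr j)}) ∩
        (⋂ j, {y : Fin D.nroots → ℝ | 0 ≤ y (hG.sr j)})) ∩ {y | nsq y ≤ 1} := by
      ext y
      simp only [KK, Dom, Lin, Set.mem_inter_iff, Set.mem_iInter, Set.mem_ofPred_eq]
    rw [e]
    refine IsClosed.inter (IsClosed.inter ?_ ?_) ?_
    · exact isClosed_iInter fun r => isClosed_eq (by fun_prop) (by fun_prop)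
    · exact isClosed_iInter fun j => isClosed_le (by fun_prop) (by fun_prop)
    · refine isClosed_le ?_ (by fun_prop)
      unfold nsq
      fun_prop
  refine IsCompact.of_isClosed_subset (isCompact_univ_pi fun _ : Fin D.nroots => isCompact_Icc (a := (-1 : ℝ)) (b := 1)) hcl ?_
  intro y hy r _
  have h1 := sq_le_nsq hG y r
  have h2 := hy.2
  have h3 : y r ^ 2 ≤ 1 := h1.trans h2
  exact abs_le.1 (by rwa [← sq_le_one_iff_abs_le_one])

include hE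

theorem supp_le_of_fit {V : Subgroup (GL D.Idx F)} {g : GL D.Idx F} {y : Fin D.nroots → ℝ} (hy : Dom hG y) {c : ℝ}
    (hc : 0 < c) (h : Fit V g y c) : ∀ r ∈ supp D N V g, c ≤ y r := by
  rintro r ⟨hr, v, hv, τ, h1, h2⟩
  have hNn := hG.nroots_eq
  obtain ⟨τ', h3, h4⟩ := hG.exists_op' (hG.rd hE) (Dom.pClo hG hy hc) (h v hv)
  have h5 := hG.op_inj hE τ τ' N N (by omega) le_rfl (h1.symm.trans h4) r hr r.2
  rw [h5] at h2
  by_contra hcon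
  exact h2 (h3 r fun ⟨_, h6⟩ => hcon h6)

theorem fit_of_supp_le {V : Subgroup (GL D.Idx F)} {g : GL D.Idx F} (hgV : ∀ v ∈ V, g⁻¹ * v * g ∈ D.posUnipotent F)
    {y : Fin D.nroots → ℝ} {c : ℝ} (h : ∀ r ∈ supp D N V g, c ≤ y r) : Fit V g y c := by
  intro v hv
  obtain ⟨τ, h1⟩ := (hG.mem_pos_iff hE).1 (hgV v hv)
  have hNn := hG.nroots_eq
  rw [h1]
  apply op_mem_US hG τ N N (by omega)
  intro r hr1 hr2 hr3
  exact ⟨hr2, h ⟨r, hr2⟩ ⟨hr1, v, hv, τ, h1, hr3⟩⟩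

theorem supp_nonempty {V : Subgroup (GL D.Idx F)} (hV : V ≠ ⊥) {g : GL D.Idx F}
    (hgV : ∀ v ∈ V, g⁻¹ * v * g ∈ D.posUnipotent F) : (supp D N V g).Nonempty := by
  obtain ⟨⟨v, hv⟩, hv0⟩ := Subgroup.ne_bot_iff_exists_ne_one.1 hV
  have hv1 : v ≠ 1 := fun h => hv0 (Subtype.ext h)
  obtain ⟨τ, h1⟩ := (hG.mem_pos_iff hE).1 (hgV v hv)
  have hNn := hG.nroots_eq
  by_contra hcon
  rw [Set.not_nonempty_iff_eq_empty] at hcon
  have h2 : ∀ r, N ≤ r → r < N + N → τ r = (fun _ => (0 : F)) r := by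
    intro r hr1 hr2
    by_contra h3
    have : (⟨r, by omega⟩ : Fin D.nroots) ∈ supp D N V g := ⟨hr1, v, hv, τ, h1, h3⟩
    rw [hcon] at this
    exact this
  have h2' : op (xg D F) τ N N = op (xg D F) (fun _ => (0 : F)) N N := op_congr _ h2
  rw [h2'] at h1
  have h3 : op (xg D F) (fun _ => (0 : F)) N N = 1 := by
    unfold op
    apply List.prod_eq_one
    intro x hx
    rw [List.mem_map] at hx
    obtain ⟨r, _, rfl⟩ := hx
    exact hG.xg_zero r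
  rw [h3] at h1
  apply hv1
  have : v = g * (g⁻¹ * v * g) * g⁻¹ := by group
  rw [this, h1]
  group

omit hE in
/-- the height function -/
theorem exists_height : ∃ y : Fin D.nroots → ℝ, Dom hG y ∧ nsq y ≤ 1 ∧ ∃ ε > 0, ∀ r : Fin D.nroots, N ≤ (r : ℕ) →
    (∃ i < D.rank, rc r i ≠ 0) → ε ≤ y r := by
  let ht : Fin D.nroots → ℝ := fun r => ∑ j : Fin D.rank, (rc r j : ℝ)
  have hsr : ∀ j, ht (hG.sr j) = 1 := by
    intro j
    have : ∀ k : Fin D.rank, ((rc (hG.sr j) k : ℤ) : ℝ) = if k = j then 1 else 0 := by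
      intro k
      have h1 : rc (hG.sr j) k = if (k : ℕ) = j then 1 else 0 := hG.rc_simple j j.2 k k.2
      rw [h1]
      by_cases h : k = j
      · rw [if_pos h, if_pos (by rw [h])]; simp
      · rw [if_neg h, if_neg (fun h' => h (Fin.ext h'))]; simp
    change ∑ k : Fin D.rank, ((rc (hG.sr j) k : ℤ) : ℝ) = 1
    rw [Finset.sum_congr rfl fun k _ => this k, Finset.sum_ite_eq' Finset.univ, if_pos (Finset.mem_univ _)]
  have hlin : Lin hG ht := by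
    intro r
    simp_rw [hsr, mul_one]
    rfl
  have hn := nsq_nonneg hG ht
  refine ⟨fun r => (1 / (1 + nsq ht)) * ht r, ⟨Lin.smul hG hlin _, fun j => ?_⟩, ?_, 1 / (1 + nsq ht), by positivity, ?_⟩
  · change 0 ≤ (1 / (1 + nsq ht)) * ht (hG.sr j)
    rw [hsr]; positivity
  · have : nsq (fun r => (1 / (1 + nsq ht)) * ht r) = (1 / (1 + nsq ht)) ^ 2 * nsq ht := by
      unfold nsq
      rw [Finset.mul_sum]
      exact Finset.sum_congr rfl fun r _ => by ring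
    rw [this, div_pow, one_pow, div_mul_eq_mul_div, one_mul, div_le_one (by positivity)]
    nlinarith
  · rintro r hr ⟨i, hi, h0⟩
    have h1 : (1 : ℝ) ≤ ht r := by
      have h2 : ((rc r i : ℤ) : ℝ) ≤ ht r := by
        change ((rc r i : ℤ) : ℝ) ≤ ∑ j : Fin D.rank, (rc r j : ℝ)
        exact Finset.single_le_sum (f := fun j : Fin D.rank => ((rc r j : ℤ) : ℝ))
          (fun j _ => by exact_mod_cast hG.rc_pos r r.2 hr j j.2) (Finset.mem_univ (⟨i, hi⟩ : Fin D.rank))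
      have h3 : 1 ≤ rc r i := by
        have := hG.rc_pos r r.2 hr i hi
        omega
      have h4 : (1 : ℝ) ≤ ((rc r i : ℤ) : ℝ) := by exact_mod_cast h3
      linarith
    change 1 / (1 + nsq ht) ≤ (1 / (1 + nsq ht)) * ht r
    have : (0 : ℝ) < 1 / (1 + nsq ht) := by positivity
    nlinarith

/-- the optimal position -/
theorem exists_opt [Finite F] {V : Subgroup (GL D.Idx F)} (hV : V ≠ ⊥)
    (h0 : ∃ g ∈ D.group F, ∀ v ∈ V, g⁻¹ * v * g ∈ D.posUnipotent F) :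
    ∃ g₀ ∈ D.group F, (∀ v ∈ V, g₀⁻¹ * v * g₀ ∈ D.posUnipotent F) ∧ ∃ (y₀ : Fin D.nroots → ℝ) (c₀ : ℝ),
      Dom hG y₀ ∧ nsq y₀ ≤ 1 ∧ 0 < c₀ ∧ Fit V g₀ y₀ c₀ ∧
      ∀ g ∈ D.group F, ∀ (y : Fin D.nroots → ℝ) (c : ℝ), Dom hG y → 0 < c → Fit V g y c → c ^ 2 ≤ c₀ ^ 2 * nsq y := by
  haveI : Finite (Matrix D.Idx D.Idx F) := inferInstanceAs (Finite (D.Idx → D.Idx → F))
  haveI : Finite (GL D.Idx F) := Finite.of_injective (fun g : GL D.Idx F => (g : Matrix D.Idx D.Idx F)) fun a b h => Units.ext h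
  let GG : Set (GL D.Idx F) := {g | g ∈ D.group F ∧ ∀ v ∈ V, g⁻¹ * v * g ∈ D.posUnipotent F}
  let A : Set ((Fin D.nroots → ℝ) × ℝ) := ⋃ g ∈ GG, {p | (p.1 ∈ KK hG ∧ p.2 ∈ Set.Icc (0 : ℝ) 1) ∧
    ∀ r ∈ supp D N V g, p.2 ≤ p.1 r}
  have hA : IsCompact A := by
    refine Set.Finite.isCompact_biUnion (Set.toFinite GG) fun g _ => ?_
    have e : {p : (Fin D.nroots → ℝ) × ℝ | (p.1 ∈ KK hG ∧ p.2 ∈ Set.Icc (0 : ℝ) 1) ∧ ∀ r ∈ supp D N V g, p.2 ≤ p.1 r} =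
        (KK hG ×ˢ Set.Icc (0 : ℝ) 1) ∩ ⋂ r ∈ supp D N V g, {p : (Fin D.nroots → ℝ) × ℝ | p.2 ≤ p.1 r} := by
      ext p
      simp only [Set.mem_inter_iff, Set.mem_iInter, Set.mem_prod, Set.mem_ofPred_eq]
    rw [e]
    refine ((isCompact_KK hG).prod isCompact_Icc).inter_right ?_
    exact isClosed_biInter fun r _ => isClosed_le (by fun_prop) (by fun_prop)
  obtain ⟨g₁, hg₁, hg₁V⟩ := h0
  obtain ⟨y₁, h1, h2, ε, hε, h3⟩ := exists_height hG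
  have hroot : ∀ r : Fin D.nroots, ∃ i < D.rank, rc r i ≠ 0 := by
    intro r
    obtain ⟨i, hi, h⟩ := hG.cor_ne _ r.2
    exact ⟨i, hi, fun h' => h ((hE.cor_zero _ r.2 i hi).2 h')⟩
  have hε1 : min ε 1 ∈ Set.Icc (0 : ℝ) 1 := ⟨by positivity, min_le_right _ _⟩
  have hA1 : (y₁, min ε 1) ∈ A := by
    refine Set.mem_biUnion (show g₁ ∈ GG from ⟨hg₁, hg₁V⟩) ⟨⟨⟨h1, h2⟩, hε1⟩, fun r hr => ?_⟩
    exact (min_le_left _ _).trans (h3 r hr.1 (hroot r))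
  obtain ⟨⟨y₀, c₀⟩, hp, hmax⟩ := hA.exists_isMaxOn ⟨_, hA1⟩ continuous_snd.continuousOn
  obtain ⟨g₀, hg₀, ⟨hy₀, hc₀⟩, hs⟩ := Set.mem_iUnion₂.1 hp
  have hc₀p : 0 < c₀ := by
    have h4 : min ε 1 ≤ c₀ := hmax hA1
    have : 0 < min ε 1 := by positivity
    linarith
  refine ⟨g₀, hg₀.1, hg₀.2, y₀, c₀, hy₀.1, hy₀.2, hc₀p, fit_of_supp_le hG hE hg₀.2 hs, ?_⟩
  intro g hg y c hy hc hfit
  have hgV : ∀ v ∈ V, g⁻¹ * v * g ∈ D.posUnipotent F := by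
    intro v hv
    rw [hG.posUnipotent_eq_US]
    exact US_mono (fun r hr => Dom.Lv_pos hG hy hc hr) (hfit v hv)
  have hs' := supp_le_of_fit hG hE hy hc hfit
  obtain ⟨r₀, hr₀⟩ := supp_nonempty hG hE hV hgV
  have h4 : c ^ 2 ≤ nsq y := by
    have h5 := hs' r₀ hr₀
    have h6 := sq_le_nsq hG y r₀
    nlinarith
  have h5 : 0 < nsq y := lt_of_lt_of_le (by positivity) h4
  set R := Real.sqrt (nsq y) with hR
  have hR0 : 0 < R := Real.sqrt_pos.2 h5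
  have hR2 : R ^ 2 = nsq y := Real.sq_sqrt h5.le
  have hmem : ((fun r => R⁻¹ * y r), R⁻¹ * c) ∈ A := by
    refine Set.mem_biUnion (show g ∈ GG from ⟨hg, hgV⟩) ⟨⟨⟨⟨Lin.smul hG hy.1 _, fun j => ?_⟩, ?_⟩, ?_, ?_⟩, fun r hr => ?_⟩
    · exact mul_nonneg (by positivity) (hy.2 j)
    · have : nsq (fun r => R⁻¹ * y r) = (R ^ 2)⁻¹ * nsq y := by
        unfold nsq
        rw [Finset.mul_sum]
        refine Finset.sum_congr rfl fun r _ => by rw [mul_pow, inv_pow]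
      change nsq (fun r => R⁻¹ * y r) ≤ 1
      rw [this, hR2, inv_mul_cancel₀ h5.ne']
    · positivity
    · change R⁻¹ * c ≤ 1
      rw [inv_mul_le_iff₀ hR0, mul_one]
      exact le_of_sq_le_sq (by rw [hR2]; exact h4) hR0.le
    · change R⁻¹ * c ≤ R⁻¹ * y r
      exact mul_le_mul_of_nonneg_left (hs' r hr) (by positivity)
  have h6 : R⁻¹ * c ≤ c₀ := hmax hmem
  rw [inv_mul_le_iff₀ hR0] at h6
  have h7 : c ^ 2 ≤ (R * c₀) ^ 2 := pow_le_pow_left₀ hc.le h6 2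
  rw [mul_pow, hR2] at h7
  linarith

/-- **Borel–Tits** -/
theorem borel_tits [Finite F] {V : Subgroup (GL D.Idx F)} (hV : V ≠ ⊥)
    (h0 : ∃ g ∈ D.group F, ∀ v ∈ V, g⁻¹ * v * g ∈ D.posUnipotent F) :
    ∃ g₀ ∈ D.group F, ∃ J : Set ℕ, (∃ i, i < D.rank ∧ i ∉ J) ∧
      (∀ x ∈ D.group F, (∀ v ∈ V, x⁻¹ * v * x ∈ V) → g₀⁻¹ * x * g₀ ∈ D.parabolicSubgroup F J) ∧
      ∀ v ∈ V, g₀⁻¹ * v * g₀ ∈ D.unipotentRadical F J := by
  obtain ⟨g₀, hg₀, hg₀V, y₀, c₀, hy₀, hn₀, hc₀, hfit, hmax⟩ := exists_opt hG hE hV h0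
  obtain ⟨r₀, hr₀⟩ := supp_nonempty hG hE hV hg₀V
  have hr₀c := supp_le_of_fit hG hE hy₀ hc₀ hfit r₀ hr₀
  refine ⟨g₀, hg₀, {j | ∃ h : j < D.rank, y₀ (hG.sr ⟨j, h⟩) = 0}, ?_, ?_, ?_⟩
  · by_contra hcon
    push Not at hcon
    have h1 : y₀ r₀ = 0 := by
      rw [hy₀.1 r₀]
      refine Finset.sum_eq_zero fun j _ => ?_
      obtain ⟨h, h2⟩ := hcon j j.2
      have h2' : y₀ (hG.sr j) = 0 := h2
      rw [h2', mul_zero]
    linarith
  · intro x hx hxV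
    have hfit' : Fit V (x * g₀) y₀ c₀ := by
      intro v hv
      have e : (x * g₀)⁻¹ * v * (x * g₀) = g₀⁻¹ * (x⁻¹ * v * x) * g₀ := by group
      rw [e]
      exact hfit _ (hxV v hv)
    obtain ⟨b, hb, n, hn, w, χ, hm, u, hu, he, g₃, hg₃, w₂, hdom, hfit₃⟩ :=
      combine hG hE hy₀ hy₀ hc₀ hc₀ hg₀ (mul_mem hx hg₀) hfit hfit'
    have h1 := hmax g₃ hg₃ _ _ hdom (by linarith) hfit₃
    have h2 : nsq (fun r => y₀ (w₂.1 r) + y₀ ((w⁻¹).1 (w₂.1 r))) = nsq (fun r => y₀ r + y₀ ((w⁻¹).1 r)) :=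
      nsq_comp hG (fun r => y₀ r + y₀ ((w⁻¹).1 r)) w₂
    rw [h2] at h1
    have h3 : nsq (fun r => y₀ ((w⁻¹).1 r)) = nsq y₀ := nsq_comp hG y₀ w⁻¹
    have h4 : 4 ≤ nsq (fun r => y₀ r + y₀ ((w⁻¹).1 r)) := by
      have : 0 < c₀ ^ 2 := by positivity
      nlinarith
    have h5 : nsq (fun r => y₀ r - y₀ ((w⁻¹).1 r)) =
        2 * nsq y₀ + 2 * nsq (fun r => y₀ ((w⁻¹).1 r)) - nsq (fun r => y₀ r + y₀ ((w⁻¹).1 r)) := by
      unfold nsq
      rw [Finset.mul_sum, Finset.mul_sum, ← Finset.sum_add_distrib, ← Finset.sum_sub_distrib]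
      exact Finset.sum_congr rfl fun r _ => by ring
    have h6 : nsq (fun r => y₀ r - y₀ ((w⁻¹).1 r)) ≤ 0 := by
      rw [h5, h3]; linarith
    have h7 : ∀ r, y₀ ((w⁻¹).1 r) = y₀ r := by
      intro r
      have h8 := sq_le_nsq hG (fun r => y₀ r - y₀ ((w⁻¹).1 r)) r
      have h9 : (y₀ r - y₀ ((w⁻¹).1 r)) ^ 2 = 0 := le_antisymm (h8.trans h6) (sq_nonneg _)
      have h10 : y₀ r - y₀ ((w⁻¹).1 r) = 0 := by simpa using h9
      linarith
    have h8 : ∀ r, y₀ (w.1 r) = y₀ r := by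
      intro r
      rw [← h7 (w.1 r)]
      exact congrArg y₀ (Equiv.symm_apply_apply w.1 r)
    have h9 := dom_stab hG hy₀ _ w rfl h8
    obtain ⟨m, hmC, χ', hm'⟩ := exists_mono_of_closure (F := F) hG hE h9
    have hmN := ng_closure_le_mono (F := F) hG hE _ hmC
    have hBP : D.borelSubgroup F ≤ D.parabolicSubgroup F {j | ∃ h : j < D.rank, y₀ (hG.sr ⟨j, h⟩) = 0} := le_sup_left
    have hmP : m ∈ D.parabolicSubgroup F {j | ∃ h : j < D.rank, y₀ (hG.sr ⟨j, h⟩) = 0} := by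
      rw [parabolic_gen hG]
      refine Subgroup.mem_sup_right ?_
      refine (Subgroup.closure_mono ?_) hmC
      rintro _ ⟨i, hi, rfl⟩
      exact ⟨i, ⟨i.2, hi⟩, i.2, rfl⟩
    have hd : m⁻¹ * n ∈ D.diagonalSubgroup F := by
      have h3 := hm'.inv.mul hm
      rw [inv_mul_cancel] at h3
      exact hG.mem_diagonal_of_mon hE (mul_mem (inv_mem hmN) hn) h3
    have e : g₀⁻¹ * x * g₀ = b * (m * (m⁻¹ * n)) * u := by
      rw [mul_inv_cancel_left, ← he]; group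
    rw [e]
    exact mul_mem (mul_mem (hBP hb) (mul_mem hmP (hBP (Subgroup.mem_sup_right hd)))) (hBP hu)
  · intro v hv
    rw [radical_eq hG hE]
    refine US_mono ?_ (hfit v hv)
    intro r hr
    refine ⟨Dom.Lv_pos hG hy₀ hc₀ hr, fun hphi => ?_⟩
    obtain ⟨h1, h2⟩ := hr
    have h3 : y₀ ⟨r, h1⟩ = 0 := by
      rw [hy₀.1]
      refine Finset.sum_eq_zero fun j _ => ?_
      by_cases hj : y₀ (hG.sr j) = 0
      · rw [hj, mul_zero]
      · have h4 : rc r j = 0 := hphi.2 j j.2 fun ⟨h, h'⟩ => hj h'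
        change ((rc r j : ℤ) : ℝ) * _ = 0
        rw [h4]; simp
    linarith

end Cfsg.Agent.H15.Chev
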