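import Cfsg.Agent.H15.ChevGF
import Cfsg.Agent.H15.ChevPair
import Cfsg.Agent.H6.ChevExtTab
import Cfsg.Agent.H10.CharP

/-!
# The generalised Fitting subgroup of a parabolic subgroup
-/

set_option autoImplicit false
set_option linter.unusedSectionVars false

namespace Cfsg.Agent.H15.Chev

open Cfsg.Agent.H6 Cfsg.Lie Cfsg.Agent.H22
open scoped Matrix

theorem conn {D : ChevalleyDatum} (hD : D ∈ [chevG2, chevB2, chevD4, chevF4, chevE6, chevE7, chevE8]) : Conn D := by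
  simp only [List.mem_cons, List.mem_nil_iff, or_false] at hD
  rcases hD with rfl | rfl | rfl | rfl | rfl | rfl | rfl
  · exact conn_of (D := chevG2) (![0, 0] : Fin 2 → Fin 2) (0 : Fin 2) 1
      (by decide +kernel : ∀ i : Fin 2, (![0, 0] : Fin 2 → Fin 2)^[1] i = 0)
      (by decide +kernel : ∀ i : Fin 2, i = (![0, 0] : Fin 2 → Fin 2) i ∨
        (chevG2.cartan i (chevG2.simple ((![0, 0] : Fin 2 → Fin 2) i)) ≠ 0 ∧ chevG2.cartan ((![0, 0] : Fin 2 → Fin 2) i) (chevG2.simple i) ≠ 0))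
  · exact conn_of (D := chevB2) (![0, 0] : Fin 2 → Fin 2) (0 : Fin 2) 1
      (by decide +kernel : ∀ i : Fin 2, (![0, 0] : Fin 2 → Fin 2)^[1] i = 0)
      (by decide +kernel : ∀ i : Fin 2, i = (![0, 0] : Fin 2 → Fin 2) i ∨
        (chevB2.cartan i (chevB2.simple ((![0, 0] : Fin 2 → Fin 2) i)) ≠ 0 ∧ chevB2.cartan ((![0, 0] : Fin 2 → Fin 2) i) (chevB2.simple i) ≠ 0))
  · exact conn_of (D := chevD4) (![0, 0, 1, 1] : Fin 4 → Fin 4) (0 : Fin 4) 2
      (by decide +kernel : ∀ i : Fin 4, (![0, 0, 1, 1] : Fin 4 → Fin 4)^[2] i = 0)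
      (by decide +kernel : ∀ i : Fin 4, i = (![0, 0, 1, 1] : Fin 4 → Fin 4) i ∨
        (chevD4.cartan i (chevD4.simple ((![0, 0, 1, 1] : Fin 4 → Fin 4) i)) ≠ 0 ∧ chevD4.cartan ((![0, 0, 1, 1] : Fin 4 → Fin 4) i) (chevD4.simple i) ≠ 0))
  · exact conn_of (D := chevF4) (![0, 0, 1, 2] : Fin 4 → Fin 4) (0 : Fin 4) 3
      (by decide +kernel : ∀ i : Fin 4, (![0, 0, 1, 2] : Fin 4 → Fin 4)^[3] i = 0)
      (by decide +kernel : ∀ i : Fin 4, i = (![0, 0, 1, 2] : Fin 4 → Fin 4) i ∨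
        (chevF4.cartan i (chevF4.simple ((![0, 0, 1, 2] : Fin 4 → Fin 4) i)) ≠ 0 ∧ chevF4.cartan ((![0, 0, 1, 2] : Fin 4 → Fin 4) i) (chevF4.simple i) ≠ 0))
  · exact conn_of (D := chevE6) (![0, 3, 0, 2, 3, 4] : Fin 6 → Fin 6) (0 : Fin 6) 4
      (by decide +kernel : ∀ i : Fin 6, (![0, 3, 0, 2, 3, 4] : Fin 6 → Fin 6)^[4] i = 0)
      (by decide +kernel : ∀ i : Fin 6, i = (![0, 3, 0, 2, 3, 4] : Fin 6 → Fin 6) i ∨
        (chevE6.cartan i (chevE6.simple ((![0, 3, 0, 2, 3, 4] : Fin 6 → Fin 6) i)) ≠ 0 ∧ chevE6.cartan ((![0, 3, 0, 2, 3, 4] : Fin 6 → Fin 6) i) (chevE6.simple i) ≠ 0))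
  · exact conn_of (D := chevE7) (![0, 3, 0, 2, 3, 4, 5] : Fin 7 → Fin 7) (0 : Fin 7) 5
      (by decide +kernel : ∀ i : Fin 7, (![0, 3, 0, 2, 3, 4, 5] : Fin 7 → Fin 7)^[5] i = 0)
      (by decide +kernel : ∀ i : Fin 7, i = (![0, 3, 0, 2, 3, 4, 5] : Fin 7 → Fin 7) i ∨
        (chevE7.cartan i (chevE7.simple ((![0, 3, 0, 2, 3, 4, 5] : Fin 7 → Fin 7) i)) ≠ 0 ∧ chevE7.cartan ((![0, 3, 0, 2, 3, 4, 5] : Fin 7 → Fin 7) i) (chevE7.simple i) ≠ 0))
  · exact conn_of (D := chevE8) (![0, 3, 0, 2, 3, 4, 5, 6] : Fin 8 → Fin 8) (0 : Fin 8) 6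
      (by decide +kernel : ∀ i : Fin 8, (![0, 3, 0, 2, 3, 4, 5, 6] : Fin 8 → Fin 8)^[6] i = 0)
      (by decide +kernel : ∀ i : Fin 8, i = (![0, 3, 0, 2, 3, 4, 5, 6] : Fin 8 → Fin 8) i ∨
        (chevE8.cartan i (chevE8.simple ((![0, 3, 0, 2, 3, 4, 5, 6] : Fin 8 → Fin 8) i)) ≠ 0 ∧ chevE8.cartan ((![0, 3, 0, 2, 3, 4, 5, 6] : Fin 8 → Fin 8) i) (chevE8.simple i) ≠ 0))

variable {D : ChevalleyDatum} {N : ℕ} {η : ℕ → ℕ → ℤ} {rc : ℕ → ℕ → ℤ} {F : Type*} [Field F]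

theorem genFitting_parabolic [Fintype F] (p : ℕ) [hp : Fact p.Prime] [CharP F p] (hG : Good D N η rc) (hE : Ext D rc)
    (hC : Conn D) {J : Set ℕ} (hJ : ∃ i, i < D.rank ∧ i ∉ J) :
    IsPGroup p ↥(Cfsg.generalizedFittingSubgroup ↥(D.parabolicSubgroup F J)) := by
  haveI : Finite (Matrix D.Idx D.Idx F) := inferInstanceAs (Finite (D.Idx → D.Idx → F))
  haveI : Finite (GL D.Idx F) := Finite.of_injective (fun g : GL D.Idx F => (g : Matrix D.Idx D.Idx F)) fun a b h => Units.ext h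
  have hU := isPGroup_pos (F := F) hG hE p
  set P := D.parabolicSubgroup F J with hP
  set Q : Subgroup ↥P := (D.unipotentRadical F J).subgroupOf P with hQ
  have hRP : D.unipotentRadical F J ≤ P := by
    rw [hP, ← radical_sup_levi hG hE J]; exact le_sup_left
  have hRU : D.unipotentRadical F J ≤ D.posUnipotent F := by
    rw [radical_eq hG hE, hG.posUnipotent_eq_US]
    exact US_mono fun r hr => hr.1
  have hQn : Q.Normal := by
    constructor
    intro n hn g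
    rw [hQ, Subgroup.mem_subgroupOf] at hn ⊢
    exact (Subgroup.mem_normalizer_iff.1 (parabolic_le_normalizer hG hE J g.2) n).1 hn
  have hQp : IsPGroup p Q := (hU.to_le hRU).comap_of_injective _ (Subgroup.subtype_injective P)
  have h1 : Q ≤ Cfsg.pCore p ↥P := Cfsg.Agent.H10.le_pCore hQn hQp
  have h2 : Subgroup.centralizer (Cfsg.pCore p ↥P : Set ↥P) ≤ Cfsg.pCore p ↥P := by
    apply Cfsg.Agent.H10.le_pCore
    · have hn : (Cfsg.pCore p ↥P).Normal := by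
        have := Cfsg.Agent.H10.pCore_characteristic p ↥P
        infer_instance
      infer_instance
    · have h3 : Subgroup.centralizer (Cfsg.pCore p ↥P : Set ↥P) ≤ (D.posUnipotent F).subgroupOf P := by
        intro z hz
        rw [Subgroup.mem_subgroupOf]
        apply cent_rad hG hE hC hJ z.2
        intro g hg
        have hg' : (⟨g, hRP hg⟩ : ↥P) ∈ Cfsg.pCore p ↥P := h1 (by rw [hQ, Subgroup.mem_subgroupOf]; exact hg)
        have h4 := (Subgroup.mem_centralizer_iff.1 hz) _ hg'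
        have h5 : g * (z : GL D.Idx F) = z * g := congrArg Subtype.val h4
        rw [← h5, mul_inv_cancel_right]
      exact (hU.comap_of_injective _ (Subgroup.subtype_injective P)).to_le h3
  rw [Cfsg.Agent.H10.genFitting_eq_pCore_iff.2 h2]
  exact Cfsg.Agent.H10.pCore_isPGroup p ↥P

end Cfsg.Agent.H15.Chev
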