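import Cfsg.Agent.H15.ChevAut7
import Cfsg.Agent.H6.TwAut
import Cfsg.Prelude.Def_KGroupFacts

/-!
# Outer automorphism groups of finite Chevalley groups
-/

set_option autoImplicit false
set_option linter.unusedSectionVars false

namespace Cfsg.Agent.H15.Chev

open Cfsg.Agent.H6 Cfsg.Lie Cfsg.Agent.H22 Cfsg.Agent.H16.BNS
open scoped Matrix

variable {D : ChevalleyDatum} {F : Type*} [Field F]

/-- the subgroup of standard automorphisms -/
def A0 (D : ChevalleyDatum) (F : Type*) [Field F] : Subgroup (MulAut ↥(D.group F)) where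
  carrier := {θ | Std (θ : ↥(D.group F) ≃* ↥(D.group F))}
  mul_mem' := by
    intro a b ha hb
    exact Std.trans (θ := b) (φ := a) hb ha
  one_mem' := ⟨fun g => Iff.rfl, fun g => Iff.rfl⟩
  inv_mem' := by
    intro a ha
    exact Std.symm (θ := a) ha

theorem mem_A0 {θ : MulAut ↥(D.group F)} : θ ∈ A0 D F ↔ Std (θ : ↥(D.group F) ≃* ↥(D.group F)) := Iff.rfl

variable {N : ℕ} {η : ℕ → ℕ → ℤ} {rc : ℕ → ℕ → ℤ}
variable (hG : Good D N η rc) (hE : Ext D rc)
include hG hE

theorem exists_mem_A0 [Finite F] (θ : MulAut ↥(D.group F)) : ∃ x : ↥(D.group F), MulAut.conj x * θ ∈ A0 D F :=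
  exists_std hG hE θ

theorem conj_mem_A0_iff {x : ↥(D.group F)} : MulAut.conj x ∈ A0 D F ↔ (x : GL D.Idx F) ∈ D.diagonalSubgroup F := by
  constructor
  · intro h
    apply mem_diag_of_norm hG hE x.2
    · intro u hu
      exact (h.pos ⟨u, hG.pos_le hu⟩).2 hu
    · intro u hu
      exact (h.neg ⟨u, hG.neg_le hu⟩).2 hu
  · intro h
    constructor
    · intro g
      change (x : GL D.Idx F) * (g : GL D.Idx F) * (x : GL D.Idx F)⁻¹ ∈ _ ↔ _
      constructor
      · intro hg
        have := hG.diagonal_conj_pos (inv_mem h) hg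
        have e : (x : GL D.Idx F)⁻¹ * ((x : GL D.Idx F) * (g : GL D.Idx F) * (x : GL D.Idx F)⁻¹) * (x : GL D.Idx F)⁻¹⁻¹ = g := by
          group
        rwa [e] at this
      · exact hG.diagonal_conj_pos h
    · intro g
      change (x : GL D.Idx F) * (g : GL D.Idx F) * (x : GL D.Idx F)⁻¹ ∈ _ ↔ _
      constructor
      · intro hg
        have := hG.diagonal_conj_neg (inv_mem h) hg
        have e : (x : GL D.Idx F)⁻¹ * ((x : GL D.Idx F) * (g : GL D.Idx F) * (x : GL D.Idx F)⁻¹) * (x : GL D.Idx F)⁻¹⁻¹ = g := by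
          group
        rwa [e] at this
      · exact hG.diagonal_conj_neg h

theorem conj_injective : Function.Injective (MulAut.conj : ↥(D.group F) →* MulAut ↥(D.group F)) := by
  refine (injective_iff_map_eq_one _).2 fun x hx => ?_
  apply Subtype.ext
  apply hG.central_eq_one hE x.2
  intro r hr t
  have := DFunLike.congr_fun hx (XX hG r t)
  exact congrArg Subtype.val this

/-- the map from standard automorphisms to `Out` -/
noncomputable def toOut (D : ChevalleyDatum) (F : Type*) [Field F] : ↥(A0 D F) →* Cfsg.Out ↥(D.group F) :=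
  (QuotientGroup.mk' (Cfsg.Inn ↥(D.group F))).comp (A0 D F).subtype

theorem toOut_surj [Finite F] : Function.Surjective (toOut D F) := by
  intro y
  obtain ⟨θ, rfl⟩ := QuotientGroup.mk'_surjective _ y
  obtain ⟨x, hx⟩ := exists_mem_A0 hG hE θ
  refine ⟨⟨_, hx⟩, ?_⟩
  change QuotientGroup.mk' _ (MulAut.conj x * θ) = QuotientGroup.mk' _ θ
  rw [map_mul]
  have h1 : QuotientGroup.mk' (Cfsg.Inn ↥(D.group F)) (MulAut.conj x) = 1 :=
    (QuotientGroup.eq_one_iff _).2 ⟨x, rfl⟩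
  rw [h1, one_mul]

theorem mem_ker_toOut {θ : ↥(A0 D F)} : θ ∈ (toOut D F).ker ↔ ∃ x : ↥(D.group F), (x : GL D.Idx F) ∈ D.diagonalSubgroup F ∧
    (θ : MulAut ↥(D.group F)) = MulAut.conj x := by
  rw [MonoidHom.mem_ker]
  change QuotientGroup.mk' _ (θ : MulAut ↥(D.group F)) = 1 ↔ _
  rw [show (QuotientGroup.mk' (Cfsg.Inn ↥(D.group F)) (θ : MulAut ↥(D.group F)) = 1) ↔
    (θ : MulAut ↥(D.group F)) ∈ Cfsg.Inn ↥(D.group F) from QuotientGroup.eq_one_iff _]
  constructor
  · rintro ⟨x, hx⟩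
    refine ⟨x, ?_, hx.symm⟩
    rw [← conj_mem_A0_iff hG hE, hx]
    exact θ.2
  · rintro ⟨x, -, hx⟩
    exact ⟨x, hx.symm⟩

theorem card_ker_toOut : Nat.card (toOut D F).ker = Nat.card (D.diagonalSubgroup F) := by
  refine Nat.card_congr (Equiv.ofBijective (fun θ : (toOut D F).ker =>
    (⟨(Classical.choose ((mem_ker_toOut hG hE).1 θ.2) : ↥(D.group F)),
      (Classical.choose_spec ((mem_ker_toOut hG hE).1 θ.2)).1⟩ : D.diagonalSubgroup F)) ⟨?_, ?_⟩)
  · intro θ θ' h
    have h1 := (Classical.choose_spec ((mem_ker_toOut hG hE).1 θ.2)).2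
    have h2 := (Classical.choose_spec ((mem_ker_toOut hG hE).1 θ'.2)).2
    have h3 : Classical.choose ((mem_ker_toOut hG hE).1 θ.2) = Classical.choose ((mem_ker_toOut hG hE).1 θ'.2) :=
      Subtype.ext (congrArg (fun z : D.diagonalSubgroup F => (z : GL D.Idx F)) h)
    rw [h3] at h1
    exact Subtype.ext (Subtype.ext (h1.trans h2.symm))
  · rintro ⟨h, hh⟩
    set x : ↥(D.group F) := ⟨h, hG.diagonal_le hh⟩ with hx
    have hk : (⟨MulAut.conj x, (conj_mem_A0_iff hG hE).2 hh⟩ : ↥(A0 D F)) ∈ (toOut D F).ker :=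
      (mem_ker_toOut hG hE).2 ⟨x, hh, rfl⟩
    refine ⟨⟨_, hk⟩, ?_⟩
    have h1 := (Classical.choose_spec ((mem_ker_toOut hG hE).1 hk)).2
    have h2 : x = Classical.choose ((mem_ker_toOut hG hE).1 hk) := conj_injective hG hE h1
    apply Subtype.ext
    change ((Classical.choose ((mem_ker_toOut hG hE).1 hk) : ↥(D.group F)) : GL D.Idx F) = h
    rw [← h2]

theorem card_A0 [Finite F] : Nat.card (A0 D F) = Nat.card (Cfsg.Out ↥(D.group F)) * Nat.card (D.diagonalSubgroup F) := by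
  rw [← card_ker_toOut hG hE, Subgroup.card_eq_card_quotient_mul_card_subgroup (toOut D F).ker]
  congr 1
  exact Nat.card_congr (QuotientGroup.quotientKerEquivOfSurjective _ (toOut_surj hG hE)).toEquiv

/-! ### the permutation of the nodes -/

omit hE in
theorem exists_node_perm [Finite F] (hE : Ext D rc) (θ : ↥(A0 D F)) : ∃ π : Equiv.Perm (Fin D.rank), ∀ (i : Fin D.rank) (t : F),
    ∃ t' : F, (θ : MulAut ↥(D.group F)) (XX hG (D.simple i) t) = XX hG (D.simple (π i)) t' := by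
  obtain ⟨π, f, g, h1, h2, h3, h4, h5⟩ := (mem_A0.1 θ.2).exists_perm hG hE
  exact ⟨π, fun i t => ⟨f i t, h1 i t⟩⟩

theorem node_perm_unique {θ : ↥(A0 D F)} {π π' : Equiv.Perm (Fin D.rank)}
    (h : ∀ (i : Fin D.rank) (t : F), ∃ t' : F, (θ : MulAut ↥(D.group F)) (XX hG (D.simple i) t) = XX hG (D.simple (π i)) t')
    (h' : ∀ (i : Fin D.rank) (t : F), ∃ t' : F, (θ : MulAut ↥(D.group F)) (XX hG (D.simple i) t) = XX hG (D.simple (π' i)) t') :
    π = π' := by
  ext1 i
  obtain ⟨t, ht⟩ := h i 1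
  obtain ⟨t', ht'⟩ := h' i 1
  have hne : t ≠ 0 := by
    rintro rfl
    rw [XX_zero] at ht
    have h1 := (MulEquiv.map_eq_one_iff (θ : MulAut ↥(D.group F))).1 ht
    exact hG.xg_ne_one hE (hG.simple_lt i i.2) one_ne_zero (congrArg Subtype.val h1)
  rw [ht] at ht'
  exact simple_inj hG hE (XX_inj hG (hG.simple_lt _ (π i).2) (hG.simple_lt _ (π' i).2) hE hne ht')

/-- the homomorphism to the permutations of the nodes -/
noncomputable def nodeHom [Finite F] : ↥(A0 D F) →* Equiv.Perm (Fin D.rank) where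
  toFun θ := Classical.choose (exists_node_perm hG hE θ)
  map_one' := by
    apply node_perm_unique hG hE (Classical.choose_spec (exists_node_perm hG hE (1 : ↥(A0 D F))))
    intro i t
    exact ⟨t, rfl⟩
  map_mul' θ φ := by
    apply node_perm_unique hG hE (Classical.choose_spec (exists_node_perm hG hE (θ * φ)))
    intro i t
    obtain ⟨t', ht'⟩ := Classical.choose_spec (exists_node_perm hG hE φ) i t
    obtain ⟨t'', ht''⟩ := Classical.choose_spec (exists_node_perm hG hE θ) (Classical.choose (exists_node_perm hG hE φ) i) t'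
    refine ⟨t'', ?_⟩
    change (θ : MulAut ↥(D.group F)) ((φ : MulAut ↥(D.group F)) (XX hG (D.simple i) t)) = _
    rw [ht', ht'']
    rfl

theorem nodeHom_spec [Finite F] (θ : ↥(A0 D F)) (i : Fin D.rank) (t : F) :
    ∃ t' : F, (θ : MulAut ↥(D.group F)) (XX hG (D.simple i) t) = XX hG (D.simple (nodeHom hG hE θ i)) t' :=
  Classical.choose_spec (exists_node_perm hG hE θ) i t

theorem nodeHom_eq [Finite F] {θ : ↥(A0 D F)} {π : Equiv.Perm (Fin D.rank)}
    (h : ∀ (i : Fin D.rank) (t : F), ∃ t' : F, (θ : MulAut ↥(D.group F)) (XX hG (D.simple i) t) = XX hG (D.simple (π i)) t') :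
    nodeHom hG hE θ = π :=
  node_perm_unique hG hE (nodeHom_spec hG hE θ) h

/-- a field or diagonal automorphism is standard -/
theorem std_of_roots {θ : ↥(D.group F) ≃* ↥(D.group F)}
    (h : ∀ r < D.nroots, ∀ t : F, ∃ t' : F, θ (XX hG r t) = XX hG r t')
    (h' : ∀ r < D.nroots, ∀ t : F, ∃ t' : F, θ.symm (XX hG r t) = XX hG r t') : Std θ := by
  have key : ∀ (θ : ↥(D.group F) ≃* ↥(D.group F)), (∀ r < D.nroots, ∀ t : F, ∃ t' : F, θ (XX hG r t) = XX hG r t') →
      ∀ (S : Set ℕ), (∀ r ∈ S, r < D.nroots) → ∀ (g : ↥(D.group F)), (g : GL D.Idx F) ∈ US (xg D F) S →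
        ((θ g : ↥(D.group F)) : GL D.Idx F) ∈ US (xg D F) S := by
    intro θ h S hS g hg
    have hle : US (xg D F) S ≤ (((US (xg D F) S).subgroupOf (D.group F)).comap θ.toMonoidHom).map (D.group F).subtype := by
      rw [US_le]
      intro r hr t
      refine ⟨XX hG r t, ?_, rfl⟩
      change ((θ (XX hG r t) : ↥(D.group F)) : GL D.Idx F) ∈ US (xg D F) S
      obtain ⟨t', ht'⟩ := h r (hS r hr) t
      rw [ht']
      exact mem_US hr t'
    obtain ⟨g', hg', he⟩ := hle hg
    have : g' = g := Subtype.ext he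
    rw [← this]
    exact hg'
  constructor
  · intro g
    rw [hG.posUnipotent_eq_US]
    constructor
    · intro hg
      have := key θ.symm h' _ (fun r hr => hr.2) _ hg
      rwa [MulEquiv.symm_apply_apply] at this
    · exact key θ h _ (fun r hr => hr.2) g
  · intro g
    rw [hG.negUnipotent_eq_US]
    constructor
    · intro hg
      have := key θ.symm h' _ (fun r hr => hG.lt_nroots_of_lt_N hr) _ hg
      rwa [MulEquiv.symm_apply_apply] at this
    · exact key θ h _ (fun r hr => hG.lt_nroots_of_lt_N hr) g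

theorem std_dAut {χ : ℕ → Fˣ} (hχ : IsChr D χ) : Std (dAut hG hχ) := by
  apply std_of_roots hG hE
  · intro r hr t
    exact ⟨_, dAut_XX hG hχ hr t⟩
  · intro r hr t
    refine ⟨((χ r)⁻¹ : Fˣ) * t, ?_⟩
    rw [MulEquiv.symm_apply_eq, dAut_XX hG hχ hr, ← mul_assoc, Units.mul_inv, one_mul]

theorem std_field {φ : ↥(D.group F) ≃* ↥(D.group F)} {σ : F ≃+* F}
    (h : ∀ (r : ℕ) (t : F), r < D.nroots → φ (XX hG r t) = XX hG r (σ t)) : Std φ := by
  apply std_of_roots hG hE
  · intro r hr t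
    exact ⟨_, h r t hr⟩
  · intro r hr t
    refine ⟨σ.symm t, ?_⟩
    rw [MulEquiv.symm_apply_eq, h r _ hr, RingEquiv.apply_symm_apply]

/-- the kernel of `nodeHom`: products of diagonal and field automorphisms -/
theorem mem_ker_nodeHom [Finite F] (hT : TypeOK D F) {θ : ↥(A0 D F)} : θ ∈ (nodeHom hG hE (F := F)).ker ↔
    ∃ (c : Fin D.rank → Fˣ) (τ : F ≃+* F), (∀ (i : Fin D.rank) (t : F), (θ : MulAut ↥(D.group F)) (XX hG (D.simple i) t) =
      XX hG (D.simple i) ((c i : F) * τ t)) ∧ (∀ (i : Fin D.rank) (t : F),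
      (θ : MulAut ↥(D.group F)) (XX hG (D.neg (D.simple i)) t) = XX hG (D.neg (D.simple i)) (((c i)⁻¹ : Fˣ) * τ t)) := by
  rw [MonoidHom.mem_ker]
  constructor
  · intro h
    obtain ⟨π, c, τ, h1, h2, h3⟩ := (mem_A0.1 θ.2).form' hG hE hT
    have h4 : nodeHom hG hE θ = π := nodeHom_eq hG hE fun i t => ⟨_, h2 i t⟩
    rw [h] at h4
    subst h4
    refine ⟨fun i => c i, τ, fun i t => ?_, fun i t => ?_⟩
    · have := h2 i t
      rw [Equiv.Perm.one_apply, graphExp_self, pow_one] at this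
      exact this
    · have := h3 i t
      rw [Equiv.Perm.one_apply, graphExp_self, pow_one] at this
      exact this
  · rintro ⟨c, τ, h1, -⟩
    exact nodeHom_eq hG hE fun i t => ⟨_, h1 i t⟩

theorem card_ker_nodeHom [Finite F] (hT : TypeOK D F) (hr : 0 < D.rank) :
    Nat.card (nodeHom hG hE (F := F)).ker = Nat.card Fˣ ^ D.rank * Nat.card (F ≃+* F) := by
  have h1 : Nat.card Fˣ ^ D.rank * Nat.card (F ≃+* F) = Nat.card ((Fin D.rank → Fˣ) × (F ≃+* F)) := by
    rw [Nat.card_prod, Nat.card_fun, Nat.card_eq_fintype_card (α := Fin D.rank), Fintype.card_fin]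
  rw [h1]
  have hex := fun θ : (nodeHom hG hE (F := F)).ker => (mem_ker_nodeHom hG hE hT).1 θ.2
  choose c τ h2 h3 using hex
  refine Nat.card_congr (Equiv.ofBijective (fun θ => (c θ, τ θ)) ⟨?_, ?_⟩)
  · intro θ θ' h
    have hc : c θ = c θ' := congrArg Prod.fst h
    have hτ : τ θ = τ θ' := congrArg Prod.snd h
    apply Subtype.ext
    apply Subtype.ext
    apply aut_ext hG hE
    · intro i hi t
      rw [h2 θ ⟨i, hi⟩ t, h2 θ' ⟨i, hi⟩ t, hc, hτ]
    · intro i hi t
      rw [h3 θ ⟨i, hi⟩ t, h3 θ' ⟨i, hi⟩ t, hc, hτ]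
  · rintro ⟨c₀, τ₀⟩
    set cc : ℕ → Fˣ := fun k => if h : k < D.rank then c₀ ⟨k, h⟩ else 1 with hcc
    have hχc : IsChr D (chr D.rank rc cc) := hG.isChr_chr cc
    have hχs : ∀ i : Fin D.rank, chr D.rank rc cc (D.simple i) = c₀ i := fun i => by
      rw [hG.chr_simple (F := F) cc i.2, hcc]
      simp only [Fin.is_lt, dif_pos]
    obtain ⟨f, hf⟩ := exists_field hG τ₀
    set θ : MulAut ↥(D.group F) := f.trans (dAut hG hχc) with hθ
    have hθS : Std (θ : ↥(D.group F) ≃* ↥(D.group F)) := (std_field hG hE hf).trans (std_dAut hG hE hχc)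
    have e1 : ∀ (i : Fin D.rank) (t : F), θ (XX hG (D.simple i) t) = XX hG (D.simple i) ((c₀ i : F) * τ₀ t) := by
      intro i t
      change dAut hG hχc (f (XX hG (D.simple i) t)) = _
      rw [hf _ _ (hG.simple_lt i i.2), dAut_XX hG hχc (hG.simple_lt i i.2), hχs]
    have e2 : ∀ (i : Fin D.rank) (t : F), θ (XX hG (D.neg (D.simple i)) t) =
        XX hG (D.neg (D.simple i)) (((c₀ i)⁻¹ : Fˣ) * τ₀ t) := by
      intro i t
      change dAut hG hχc (f (XX hG (D.neg (D.simple i)) t)) = _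
      rw [hf _ _ (hG.neg_lt' (hG.simple_lt i i.2)), dAut_XX hG hχc (hG.neg_lt' (hG.simple_lt i i.2)),
        hχc.neg _ (hG.simple_lt i i.2), hχs]
    have hk : (⟨θ, hθS⟩ : ↥(A0 D F)) ∈ (nodeHom hG hE (F := F)).ker :=
      (mem_ker_nodeHom hG hE hT).2 ⟨c₀, τ₀, e1, e2⟩
    refine ⟨⟨_, hk⟩, ?_⟩
    have hc : c ⟨_, hk⟩ = c₀ := by
      funext i
      have h4 := h2 ⟨_, hk⟩ i 1
      rw [show (((⟨⟨θ, hθS⟩, hk⟩ : (nodeHom hG hE (F := F)).ker) : ↥(A0 D F)) : MulAut ↥(D.group F)) = θ from rfl, e1 i 1,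
        map_one, map_one, mul_one, mul_one] at h4
      exact Units.ext (XX_inj' hG (hG.simple_lt i i.2) hE h4).symm
    have hτ : τ ⟨_, hk⟩ = τ₀ := by
      ext t
      have h4 := h2 ⟨_, hk⟩ ⟨0, hr⟩ t
      rw [show (((⟨⟨θ, hθS⟩, hk⟩ : (nodeHom hG hE (F := F)).ker) : ↥(A0 D F)) : MulAut ↥(D.group F)) = θ from rfl, e1 _ t, hc] at h4
      have h5 := XX_inj' hG (hG.simple_lt _ hr) hE h4
      exact (mul_left_cancel₀ (Units.ne_zero _) h5).symm
    exact Prod.ext hc hτ

theorem card_A0' [Finite F] (hT : TypeOK D F) (hr : 0 < D.rank) : Nat.card (A0 D F) =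
    Nat.card (nodeHom hG hE (F := F)).range * (Nat.card Fˣ ^ D.rank * Nat.card (F ≃+* F)) := by
  rw [← card_ker_nodeHom hG hE hT hr, Subgroup.card_eq_card_quotient_mul_card_subgroup (nodeHom hG hE (F := F)).ker]
  congr 1
  exact Nat.card_congr (QuotientGroup.quotientKerEquivRange _).toEquiv

omit hG hE in
theorem card_ringAut [Fintype F] (p f : ℕ) [Fact p.Prime] [CharP F p] (hF : Fintype.card F = p ^ f) :
    Nat.card (F ≃+* F) = f := by
  let _ : Algebra (ZMod p) F := ZMod.algebra F p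
  have h1 : Nat.card (F ≃+* F) = Nat.card (F ≃ₐ[ZMod p] F) := by
    refine Nat.card_congr (Equiv.ofBijective (fun σ : F ≃+* F => AlgEquiv.ofRingEquiv (f := σ) (fun r => ?_)) ⟨?_, ?_⟩)
    · exact RingHom.congr_fun (Subsingleton.elim (σ.toRingHom.comp (algebraMap (ZMod p) F)) (algebraMap (ZMod p) F)) r
    · intro σ σ' h
      ext t
      exact DFunLike.congr_fun h t
    · intro α
      exact ⟨α.toRingEquiv, by ext t; rfl⟩
  rw [h1, IsGalois.card_aut_eq_finrank]
  have h2 : Fintype.card F = Fintype.card (ZMod p) ^ Module.finrank (ZMod p) F := Module.card_eq_pow_finrank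
  rw [hF, ZMod.card] at h2
  exact (Nat.pow_right_injective (Fact.out (p := p.Prime)).two_le h2).symm

/-- the order of the outer automorphism group -/
theorem card_out [Fintype F] (hT : TypeOK D F) (hr : 0 < D.rank) (p f : ℕ) [Fact p.Prime] [CharP F p]
    (hF : Fintype.card F = p ^ f) {d : ℕ} (hd : d * Nat.card (D.diagonalSubgroup F) = (p ^ f - 1) ^ D.rank) :
    Nat.card (Cfsg.Out ↥(D.group F)) = Nat.card (nodeHom hG hE (F := F)).range * d * f := by
  have h1 := card_A0 hG hE (F := F)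
  rw [card_A0' hG hE hT hr, card_ringAut p f hF] at h1
  have h2 : Nat.card Fˣ = p ^ f - 1 := by
    rw [Nat.card_units, Nat.card_eq_fintype_card, hF]
  rw [h2, ← hd] at h1
  have h3 : 0 < Nat.card (D.diagonalSubgroup F) := Nat.card_pos
  apply Nat.eq_of_mul_eq_mul_right h3
  rw [← h1]
  ring

end Cfsg.Agent.H15.Chev
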