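import Cfsg.Agent.H15.ChevOut1
import Cfsg.Agent.H6.TwTab

/-!
# Outer automorphism groups of finite Chevalley groups: graph automorphisms
-/

set_option autoImplicit false
set_option linter.unusedSectionVars false
set_option maxRecDepth 100000

namespace Cfsg.Agent.H15.Chev

open Cfsg.Agent.H6 Cfsg.Lie Cfsg.Agent.H22 Cfsg.Agent.H16.BNS
open scoped Matrix

variable {D : ChevalleyDatum} {F : Type*} [Field F]
variable {N : ℕ} {η : ℕ → ℕ → ℤ} {rc : ℕ → ℕ → ℤ}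
variable (hG : Good D N η rc) (hE : Ext D rc)

section
include hG hE

/-- an automorphism permuting the root subgroups and preserving positivity is standard -/
theorem std_of_rho {θ : ↥(D.group F) ≃* ↥(D.group F)} {ρ ρ' : ℕ → ℕ}
    (hρ : ∀ r < D.nroots, ρ r < D.nroots ∧ (N ≤ ρ r ↔ N ≤ r)) (hρ' : ∀ r < D.nroots, ρ' r < D.nroots ∧ (N ≤ ρ' r ↔ N ≤ r))
    (h : ∀ r < D.nroots, ∀ t : F, ∃ t' : F, θ (XX hG r t) = XX hG (ρ r) t')
    (h' : ∀ r < D.nroots, ∀ t : F, ∃ t' : F, θ.symm (XX hG r t) = XX hG (ρ' r) t') : Std θ := by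
  have key : ∀ (θ : ↥(D.group F) ≃* ↥(D.group F)) (ρ : ℕ → ℕ), (∀ r < D.nroots, ∀ t : F, ∃ t' : F, θ (XX hG r t) = XX hG (ρ r) t') →
      ∀ (S : Set ℕ), (∀ r ∈ S, r < D.nroots ∧ ρ r ∈ S) → ∀ (g : ↥(D.group F)), (g : GL D.Idx F) ∈ US (xg D F) S →
        ((θ g : ↥(D.group F)) : GL D.Idx F) ∈ US (xg D F) S := by
    intro θ ρ h S hS g hg
    have hle : US (xg D F) S ≤ (((US (xg D F) S).subgroupOf (D.group F)).comap θ.toMonoidHom).map (D.group F).subtype := by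
      rw [US_le]
      intro r hr t
      refine ⟨XX hG r t, ?_, rfl⟩
      change ((θ (XX hG r t) : ↥(D.group F)) : GL D.Idx F) ∈ US (xg D F) S
      obtain ⟨t', ht'⟩ := h r (hS r hr).1 t
      rw [ht']
      exact mem_US (hS r hr).2 t'
    obtain ⟨g', hg', he⟩ := hle hg
    have : g' = g := Subtype.ext he
    rw [← this]
    exact hg'
  have hpos : ∀ (ρ : ℕ → ℕ), (∀ r < D.nroots, ρ r < D.nroots ∧ (N ≤ ρ r ↔ N ≤ r)) →
      ∀ r ∈ {r | N ≤ r ∧ r < D.nroots}, r < D.nroots ∧ ρ r ∈ {r | N ≤ r ∧ r < D.nroots} := by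
    intro ρ hρ r hr
    exact ⟨hr.2, (hρ r hr.2).2.2 hr.1, (hρ r hr.2).1⟩
  have hneg : ∀ (ρ : ℕ → ℕ), (∀ r < D.nroots, ρ r < D.nroots ∧ (N ≤ ρ r ↔ N ≤ r)) →
      ∀ r ∈ {r | r < N}, r < D.nroots ∧ ρ r ∈ {r | r < N} := by
    intro ρ hρ r hr
    have hr' : r < N := hr
    have hr2 := hG.lt_nroots_of_lt_N hr'
    refine ⟨hr2, ?_⟩
    by_contra hcon
    have h1 : N ≤ ρ r := not_lt.1 hcon
    have h2 := (hρ r hr2).2.1 h1
    omega
  constructor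
  · intro g
    rw [hG.posUnipotent_eq_US]
    constructor
    · intro hg
      have := key θ.symm ρ' h' _ (hpos ρ' hρ') _ hg
      rwa [MulEquiv.symm_apply_apply] at this
    · exact key θ ρ h _ (hpos ρ hρ) g
  · intro g
    rw [hG.negUnipotent_eq_US]
    constructor
    · intro hg
      have := key θ.symm ρ' h' _ (hneg ρ' hρ') _ hg
      rwa [MulEquiv.symm_apply_apply] at this
    · exact key θ ρ h _ (hneg ρ hρ) g

/-- graph automorphisms from twisting data -/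
theorem exists_graph {m : ℕ} {rho inv lam pi : ℕ → ℕ} {ep : ℕ → ℤ} (hT : Tw D N η m rho inv lam pi ep) (hm : (m : F) = 0)
    (hadd : ∀ r < D.nroots, ∀ t u : F, (t + u) ^ (lam r * 1) = t ^ (lam r * 1) + u ^ (lam r * 1))
    (hsurj : ∀ r < D.nroots, Function.Surjective fun t : F => t ^ (lam r * 1)) :
    ∃ θ : ↥(A0 D F), ∀ (i : ℕ) (t : F), i < D.rank →
      ∃ t' : F, (θ : MulAut ↥(D.group F)) (XX hG (D.simple i) t) = XX hG (D.simple (pi i)) t' := by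
  obtain ⟨σ, hS⟩ := hT.exists_endo hG hE hm hadd hsurj
  have hb := hS.bijective hT hE hm hadd hsurj
  have key : ∀ (r : ℕ), r < D.nroots → ∀ t : F, σ (XX hG r t) = XX hG (rho r) ((ep r : F) * t ^ (lam r * 1)) := by
    intro r hr t
    have h1 := hS.x r hr t
    rw [sgf_of (hG.xg_mem_group r t)] at h1
    exact Subtype.ext h1
  set θ : ↥(D.group F) ≃* ↥(D.group F) := MulEquiv.ofBijective σ hb with hθ
  have hρ : ∀ r < D.nroots, rho r < D.nroots ∧ (N ≤ rho r ↔ N ≤ r) := fun r hr => ⟨hT.rho_lt r hr, hT.rho_neg_iff hG hr⟩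
  have hρ' : ∀ r < D.nroots, inv r < D.nroots ∧ (N ≤ inv r ↔ N ≤ r) := by
    intro r hr
    have h1 := hT.inv_lt r hr
    refine ⟨h1, ?_⟩
    have h2 := hT.rho_neg_iff hG h1
    rw [hT.rho_inv r hr] at h2
    exact h2.symm
  have hstd : Std θ := by
    apply std_of_rho hG hE hρ hρ'
    · intro r hr t
      exact ⟨_, key r hr t⟩
    · intro r hr t
      have h1 := hT.inv_lt r hr
      obtain ⟨s, hs⟩ := hsurj _ h1 ((ep (inv r) : F) * t)
      refine ⟨s, ?_⟩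
      rw [MulEquiv.symm_apply_eq]
      change XX hG r t = σ (XX hG (inv r) s)
      rw [key _ h1, hT.rho_inv r hr]
      congr 1
      have hs' : s ^ (lam (inv r) * 1) = (ep (inv r) : F) * t := hs
      rw [hs', ← mul_assoc]
      have h2 : (ep (inv r) : F) * (ep (inv r) : F) = 1 := by
        rcases hT.ep_or (inv r) h1 with h | h <;> rw [h] <;> norm_num
      rw [h2, one_mul]
  refine ⟨⟨θ, hstd⟩, fun i t hi => ?_⟩
  refine ⟨(ep (D.simple i) : F) * t ^ (lam (D.simple i) * 1), ?_⟩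
  change σ (XX hG (D.simple i) t) = _
  rw [key _ (hG.simple_lt i hi), hT.rho_simple i hi]

theorem nodeHom_zero [Finite F] (θ : ↥(A0 D F)) (i j : Fin D.rank) (hij : i ≠ j) :
    D.cartan (nodeHom hG hE θ i) (D.simple (nodeHom hG hE θ j)) = 0 ↔ D.cartan i (D.simple j) = 0 := by
  obtain ⟨π, c, σ, h1, h2, h3, h4⟩ := (mem_A0.1 θ.2).form hG hE
  have h5 : nodeHom hG hE θ = π := nodeHom_eq hG hE fun i t => ⟨_, h3 i t⟩
  rw [h5]
  exact h1 i j hij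

theorem nodeHom_rel [Finite F] (θ : ↥(A0 D F)) : ∃ σ : Fin D.rank → F ≃+* F, RelD D F (nodeHom hG hE θ) σ := by
  obtain ⟨π, c, σ, h1, h2, h3, h4⟩ := (mem_A0.1 θ.2).form hG hE
  have h5 : nodeHom hG hE θ = π := nodeHom_eq hG hE fun i t => ⟨_, h3 i t⟩
  rw [h5]
  exact ⟨σ, h1, h2⟩

theorem card_range_one [Finite F] (h : ∀ θ : ↥(A0 D F), nodeHom hG hE θ = 1) :
    Nat.card (nodeHom hG hE (F := F)).range = 1 := by
  have : (nodeHom hG hE (F := F)).range = ⊥ := by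
    rw [eq_bot_iff]
    rintro _ ⟨θ, rfl⟩
    rw [Subgroup.mem_bot]
    exact h θ
  rw [this, Subgroup.card_bot]

theorem card_range_two [Finite F] (fl : Equiv.Perm (Fin D.rank)) (h1 : fl * fl = 1) (h2 : fl ≠ 1)
    (h : ∀ θ : ↥(A0 D F), nodeHom hG hE θ = 1 ∨ nodeHom hG hE θ = fl) (h3 : ∃ θ : ↥(A0 D F), nodeHom hG hE θ = fl) :
    Nat.card (nodeHom hG hE (F := F)).range = 2 := by
  have : (nodeHom hG hE (F := F)).range = Subgroup.zpowers fl := by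
    apply le_antisymm
    · rintro _ ⟨θ, rfl⟩
      rcases h θ with h | h <;> rw [h]
      · exact one_mem _
      · exact Subgroup.mem_zpowers _
    · rw [Subgroup.zpowers_le]
      obtain ⟨θ, hθ⟩ := h3
      exact ⟨θ, hθ⟩
  rw [this, Nat.card_zpowers]
  exact orderOf_eq_prime (by rw [pow_two, h1]) h2

end

/-! ### combinatorics of the diagrams -/

/-- adjacency in the diagrams of type `E` -/
def adjE (i j : ℕ) : Bool :=
  let a := min i j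
  let b := max i j
  (a == 0 && b == 2) || (a == 1 && b == 3) || (a != 0 && a != 1 && b == a + 1)

def okE (i j a b : ℕ) : Bool := (a != b) && (adjE i j == adjE a b)

set_option synthInstance.maxHeartbeats 400000 in
set_option synthInstance.maxSize 2000 in
theorem combE8 : ∀ a3 a1 : Fin 8, okE 3 1 a3 a1 = true → ∀ a2 : Fin 8, (okE 3 2 a3 a2 && okE 1 2 a1 a2) = true →
    ∀ a4 : Fin 8, (okE 3 4 a3 a4 && okE 1 4 a1 a4 && okE 2 4 a2 a4) = true →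
    ∀ a0 : Fin 8, (okE 3 0 a3 a0 && okE 1 0 a1 a0 && okE 2 0 a2 a0 && okE 4 0 a4 a0) = true →
    ∀ a5 : Fin 8, (okE 3 5 a3 a5 && okE 1 5 a1 a5 && okE 2 5 a2 a5 && okE 4 5 a4 a5 && okE 0 5 a0 a5) = true →
    ∀ a6 : Fin 8, (okE 3 6 a3 a6 && okE 1 6 a1 a6 && okE 2 6 a2 a6 && okE 4 6 a4 a6 && okE 0 6 a0 a6 && okE 5 6 a5 a6) = true →
    ∀ a7 : Fin 8, (okE 3 7 a3 a7 && okE 1 7 a1 a7 && okE 2 7 a2 a7 && okE 4 7 a4 a7 && okE 0 7 a0 a7 && okE 5 7 a5 a7 && okE 6 7 a6 a7) = true →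
    a0 = 0 ∧ a1 = 1 ∧ a2 = 2 ∧ a3 = 3 ∧ a4 = 4 ∧ a5 = 5 ∧ a6 = 6 ∧ a7 = 7 := by
  decide +kernel

set_option synthInstance.maxHeartbeats 400000 in
set_option synthInstance.maxSize 2000 in
theorem combE7 : ∀ a3 a1 : Fin 7, okE 3 1 a3 a1 = true → ∀ a2 : Fin 7, (okE 3 2 a3 a2 && okE 1 2 a1 a2) = true →
    ∀ a4 : Fin 7, (okE 3 4 a3 a4 && okE 1 4 a1 a4 && okE 2 4 a2 a4) = true →
    ∀ a0 : Fin 7, (okE 3 0 a3 a0 && okE 1 0 a1 a0 && okE 2 0 a2 a0 && okE 4 0 a4 a0) = true →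
    ∀ a5 : Fin 7, (okE 3 5 a3 a5 && okE 1 5 a1 a5 && okE 2 5 a2 a5 && okE 4 5 a4 a5 && okE 0 5 a0 a5) = true →
    ∀ a6 : Fin 7, (okE 3 6 a3 a6 && okE 1 6 a1 a6 && okE 2 6 a2 a6 && okE 4 6 a4 a6 && okE 0 6 a0 a6 && okE 5 6 a5 a6) = true →
    a0 = 0 ∧ a1 = 1 ∧ a2 = 2 ∧ a3 = 3 ∧ a4 = 4 ∧ a5 = 5 ∧ a6 = 6 := by
  decide +kernel

set_option synthInstance.maxHeartbeats 400000 in
set_option synthInstance.maxSize 2000 in
theorem combE6 : ∀ a3 a1 : Fin 6, okE 3 1 a3 a1 = true → ∀ a2 : Fin 6, (okE 3 2 a3 a2 && okE 1 2 a1 a2) = true →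
    ∀ a4 : Fin 6, (okE 3 4 a3 a4 && okE 1 4 a1 a4 && okE 2 4 a2 a4) = true →
    ∀ a0 : Fin 6, (okE 3 0 a3 a0 && okE 1 0 a1 a0 && okE 2 0 a2 a0 && okE 4 0 a4 a0) = true →
    ∀ a5 : Fin 6, (okE 3 5 a3 a5 && okE 1 5 a1 a5 && okE 2 5 a2 a5 && okE 4 5 a4 a5 && okE 0 5 a0 a5) = true →
    (a0 = 0 ∧ a1 = 1 ∧ a2 = 2 ∧ a3 = 3 ∧ a4 = 4 ∧ a5 = 5) ∨ (a0 = 5 ∧ a1 = 1 ∧ a2 = 4 ∧ a3 = 3 ∧ a4 = 2 ∧ a5 = 0) := by
  decide +kernel

theorem adj_tab {n : ℕ} {D : ChevalleyDatum} (hn : D.rank = n)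
    (ht : ∀ i < n, ∀ j < n, i ≠ j → (D.cartan i (D.simple j) = 0 ↔ adjE i j = false)) (π : Equiv.Perm (Fin D.rank))
    (h : ∀ i j : Fin D.rank, i ≠ j → (D.cartan (π i) (D.simple (π j)) = 0 ↔ D.cartan i (D.simple j) = 0))
    (i j : Fin D.rank) (hij : i ≠ j) : okE i j (π i) (π j) = true := by
  subst hn
  have hne : (π i : ℕ) ≠ (π j : ℕ) := fun h' => hij (π.injective (Fin.ext h'))
  have hne' : (i : ℕ) ≠ (j : ℕ) := fun h' => hij (Fin.ext h')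
  unfold okE
  rw [Bool.and_eq_true]
  refine ⟨by rw [bne_iff_ne]; exact hne, ?_⟩
  rw [beq_iff_eq]
  have h1 := h i j hij
  rw [ht _ (π i).2 _ (π j).2 hne, ht _ i.2 _ j.2 hne'] at h1
  cases e1 : adjE (i : ℕ) (j : ℕ) <;> cases e2 : adjE (π i : ℕ) (π j : ℕ) <;> simp_all

theorem permE8 (π : Equiv.Perm (Fin chevE8.rank))
    (h : ∀ i j : Fin chevE8.rank, i ≠ j → (chevE8.cartan (π i) (chevE8.simple (π j)) = 0 ↔ chevE8.cartan i (chevE8.simple j) = 0)) :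
    π = 1 := by
  have ht : ∀ i < 8, ∀ j < 8, i ≠ j → (chevE8.cartan i (chevE8.simple j) = 0 ↔ adjE i j = false) := by decide +kernel
  have ha := adj_tab (D := chevE8) rfl ht π h
  let p : Fin 8 → Fin 8 := π
  have hp : ∀ i j : Fin 8, i ≠ j → okE i j (p i) (p j) = true := ha
  have hc := combE8 (p 3) (p 1) (hp 3 1 (by decide)) (p 2) (by
      rw [Bool.and_eq_true]; exact ⟨hp 3 2 (by decide), hp 1 2 (by decide)⟩) (p 4) (by
      simp only [Bool.and_eq_true]; exact ⟨⟨hp 3 4 (by decide), hp 1 4 (by decide)⟩, hp 2 4 (by decide)⟩) (p 0) (by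
      simp only [Bool.and_eq_true]; exact ⟨⟨⟨hp 3 0 (by decide), hp 1 0 (by decide)⟩, hp 2 0 (by decide)⟩, hp 4 0 (by decide)⟩)
      (p 5) (by
      simp only [Bool.and_eq_true]
      exact ⟨⟨⟨⟨hp 3 5 (by decide), hp 1 5 (by decide)⟩, hp 2 5 (by decide)⟩, hp 4 5 (by decide)⟩, hp 0 5 (by decide)⟩)
      (p 6) (by
      simp only [Bool.and_eq_true]
      exact ⟨⟨⟨⟨⟨hp 3 6 (by decide), hp 1 6 (by decide)⟩, hp 2 6 (by decide)⟩, hp 4 6 (by decide)⟩, hp 0 6 (by decide)⟩, hp 5 6 (by decide)⟩)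
      (p 7) (by
      simp only [Bool.and_eq_true]
      exact ⟨⟨⟨⟨⟨⟨hp 3 7 (by decide), hp 1 7 (by decide)⟩, hp 2 7 (by decide)⟩, hp 4 7 (by decide)⟩, hp 0 7 (by decide)⟩,
        hp 5 7 (by decide)⟩, hp 6 7 (by decide)⟩)
  obtain ⟨h0, h1, h2, h3, h4, h5, h6, h7⟩ := hc
  have hall : ∀ i : Fin 8, p i = i := by
    intro i
    fin_cases i <;> assumption
  ext1 i
  exact hall i

theorem permE7 (π : Equiv.Perm (Fin chevE7.rank))
    (h : ∀ i j : Fin chevE7.rank, i ≠ j → (chevE7.cartan (π i) (chevE7.simple (π j)) = 0 ↔ chevE7.cartan i (chevE7.simple j) = 0)) :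
    π = 1 := by
  have ht : ∀ i < 7, ∀ j < 7, i ≠ j → (chevE7.cartan i (chevE7.simple j) = 0 ↔ adjE i j = false) := by decide +kernel
  have ha := adj_tab (D := chevE7) rfl ht π h
  let p : Fin 7 → Fin 7 := π
  have hp : ∀ i j : Fin 7, i ≠ j → okE i j (p i) (p j) = true := ha
  have hc := combE7 (p 3) (p 1) (hp 3 1 (by decide)) (p 2) (by
      rw [Bool.and_eq_true]; exact ⟨hp 3 2 (by decide), hp 1 2 (by decide)⟩) (p 4) (by
      simp only [Bool.and_eq_true]; exact ⟨⟨hp 3 4 (by decide), hp 1 4 (by decide)⟩, hp 2 4 (by decide)⟩) (p 0) (by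
      simp only [Bool.and_eq_true]; exact ⟨⟨⟨hp 3 0 (by decide), hp 1 0 (by decide)⟩, hp 2 0 (by decide)⟩, hp 4 0 (by decide)⟩)
      (p 5) (by
      simp only [Bool.and_eq_true]
      exact ⟨⟨⟨⟨hp 3 5 (by decide), hp 1 5 (by decide)⟩, hp 2 5 (by decide)⟩, hp 4 5 (by decide)⟩, hp 0 5 (by decide)⟩)
      (p 6) (by
      simp only [Bool.and_eq_true]
      exact ⟨⟨⟨⟨⟨hp 3 6 (by decide), hp 1 6 (by decide)⟩, hp 2 6 (by decide)⟩, hp 4 6 (by decide)⟩, hp 0 6 (by decide)⟩, hp 5 6 (by decide)⟩)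
  obtain ⟨h0, h1, h2, h3, h4, h5, h6⟩ := hc
  have hall : ∀ i : Fin 7, p i = i := by
    intro i
    fin_cases i <;> assumption
  ext1 i
  exact hall i

/-- the flip of E6 -/
def flE6 : Equiv.Perm (Fin 6) where
  toFun := ![5, 1, 4, 3, 2, 0]
  invFun := ![5, 1, 4, 3, 2, 0]
  left_inv := by decide
  right_inv := by decide

theorem permE6 (π : Equiv.Perm (Fin chevE6.rank))
    (h : ∀ i j : Fin chevE6.rank, i ≠ j → (chevE6.cartan (π i) (chevE6.simple (π j)) = 0 ↔ chevE6.cartan i (chevE6.simple j) = 0)) :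
    π = 1 ∨ π = flE6 := by
  have ht : ∀ i < 6, ∀ j < 6, i ≠ j → (chevE6.cartan i (chevE6.simple j) = 0 ↔ adjE i j = false) := by decide +kernel
  have ha := adj_tab (D := chevE6) rfl ht π h
  let p : Fin 6 → Fin 6 := π
  have hp : ∀ i j : Fin 6, i ≠ j → okE i j (p i) (p j) = true := ha
  have hc := combE6 (p 3) (p 1) (hp 3 1 (by decide)) (p 2) (by
      rw [Bool.and_eq_true]; exact ⟨hp 3 2 (by decide), hp 1 2 (by decide)⟩) (p 4) (by
      simp only [Bool.and_eq_true]; exact ⟨⟨hp 3 4 (by decide), hp 1 4 (by decide)⟩, hp 2 4 (by decide)⟩) (p 0) (by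
      simp only [Bool.and_eq_true]; exact ⟨⟨⟨hp 3 0 (by decide), hp 1 0 (by decide)⟩, hp 2 0 (by decide)⟩, hp 4 0 (by decide)⟩)
      (p 5) (by
      simp only [Bool.and_eq_true]
      exact ⟨⟨⟨⟨hp 3 5 (by decide), hp 1 5 (by decide)⟩, hp 2 5 (by decide)⟩, hp 4 5 (by decide)⟩, hp 0 5 (by decide)⟩)
  rcases hc with ⟨h0, h1, h2, h3, h4, h5⟩ | ⟨h0, h1, h2, h3, h4, h5⟩
  · left
    have hall : ∀ i : Fin 6, p i = i := by
      intro i
      fin_cases i <;> assumption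
    ext1 i
    exact hall i
  · right
    have hall : ∀ i : Fin 6, p i = flE6 i := by
      intro i
      fin_cases i <;> assumption
    ext1 i
    exact hall i

end Cfsg.Agent.H15.Chev
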