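import Cfsg.Agent.H15.ChevOut2
import Cfsg.Agent.S1035

/-!
# Orders of the outer automorphism groups of finite Chevalley groups
-/

set_option autoImplicit false
set_option linter.unusedSectionVars false
set_option maxRecDepth 100000

namespace Cfsg.Agent.H15.Chev

open Cfsg.Agent.H6 Cfsg.Lie Cfsg.Agent.H22 Cfsg.Agent.H16.BNS
open scoped Matrix

variable {F : Type*} [Field F]

theorem lam_or (m LT r : ℕ) : lamF m LT r = 1 ∨ lamF m LT r = m := by
  unfold lamF
  cases Nat.beq (Nat.land (Nat.shiftRight LT r) (nat_lit 1)) (nat_lit 0)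
  · right; rfl
  · left; rfl

theorem lam_add (p : ℕ) [hp : Fact p.Prime] [CharP F p] (LT r : ℕ) (t u : F) :
    (t + u) ^ (lamF p LT r * 1) = t ^ (lamF p LT r * 1) + u ^ (lamF p LT r * 1) := by
  rcases lam_or p LT r with h | h <;> rw [h]
  · simp
  · rw [mul_one]; exact add_pow_char (p := p) t u

theorem lam_surj [Finite F] (p : ℕ) [hp : Fact p.Prime] [CharP F p] (LT r : ℕ) :
    Function.Surjective fun t : F => t ^ (lamF p LT r * 1) := by
  rcases lam_or p LT r with h | h <;> rw [h]
  · intro x; exact ⟨x, by simp⟩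
  · rw [mul_one]
    have h1 : Function.Injective fun t : F => t ^ p := by
      intro x y hxy
      exact frobenius_inj F p hxy
    exact Finite.surjective_of_injective h1

theorem out_E8 [Fintype F] (p f : ℕ) [Fact p.Prime] [CharP F p] (hF : Fintype.card F = p ^ f) :
    Nat.card (Cfsg.Out ↥(chevE8.group F)) = f := by
  have hd := Cfsg.Agent.S1035.result hF (chevE8, 1) (by simp)
  rw [card_out TE8.good TE8.ext typeOK_E8 (by decide) p f hF hd,
    card_range_one TE8.good TE8.ext (fun θ => permE8 _ (nodeHom_zero TE8.good TE8.ext θ))]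
  simp

theorem out_E7 [Fintype F] (p f : ℕ) [Fact p.Prime] [CharP F p] (hF : Fintype.card F = p ^ f) :
    Nat.card (Cfsg.Out ↥(chevE7.group F)) = Nat.gcd 2 (p ^ f - 1) * f := by
  have hd := Cfsg.Agent.S1035.result hF (chevE7, Nat.gcd 2 (p ^ f - 1)) (by simp)
  rw [card_out TE7.good TE7.ext typeOK_E7 (by decide) p f hF hd,
    card_range_one TE7.good TE7.ext (fun θ => permE7 _ (nodeHom_zero TE7.good TE7.ext θ))]
  simp

theorem out_E6 [Fintype F] (p f : ℕ) [Fact p.Prime] [CharP F p] (hF : Fintype.card F = p ^ f) :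
    Nat.card (Cfsg.Out ↥(chevE6.group F)) = 2 * Nat.gcd 3 (p ^ f - 1) * f := by
  have hd := Cfsg.Agent.S1035.result hF (chevE6, Nat.gcd 3 (p ^ f - 1)) (by simp)
  have hz : ((0 : ℕ) : F) = 0 := Nat.cast_zero
  have hlam : ∀ r, lamF 0 WE6.LT r = 1 := by intro r; simp [lamF, WE6.LT]
  obtain ⟨θ, hθ⟩ := exists_graph (F := F) TE6.good TE6.ext WE6.tw hz
    (fun r _ t u => by rw [hlam]; simp) (fun r _ t => ⟨t, by simp [hlam]⟩)
  have hfl : nodeHom TE6.good TE6.ext θ = flE6 := by
    apply nodeHom_eq TE6.good TE6.ext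
    intro i t
    obtain ⟨t', ht'⟩ := hθ i t i.2
    refine ⟨t', ?_⟩
    have h1 : ∀ i : Fin 6, sP WE6.PT i = (flE6 i : ℕ) := by decide +kernel
    rw [ht', h1 i]
    rfl
  rw [card_out TE6.good TE6.ext typeOK_E6 (by decide) p f hF hd,
    card_range_two TE6.good TE6.ext flE6 (by decide) (by decide : flE6 ≠ (1 : Equiv.Perm (Fin 6)))
      (fun θ => permE6 _ (nodeHom_zero TE6.good TE6.ext θ)) ⟨θ, hfl⟩]

/-- the flip of F4 -/
def flF4 : Equiv.Perm (Fin 4) where
  toFun := ![3, 2, 1, 0]
  invFun := ![3, 2, 1, 0]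
  left_inv := by decide
  right_inv := by decide

theorem permF4 (π : Equiv.Perm (Fin chevF4.rank))
    (h : ∀ i j : Fin chevF4.rank, i ≠ j → (chevF4.cartan (π i) (chevF4.simple (π j)) = 0 ↔ chevF4.cartan i (chevF4.simple j) = 0)) :
    π = 1 ∨ π = flF4 := by
  have hz : ∀ i j : Fin 4, i ≠ j → (chevF4.cartan i (chevF4.simple j) = 0 ↔ ¬ ((i : ℕ) + 1 = j ∨ (j : ℕ) + 1 = i)) := by
    decide +kernel
  have h4 := perm4 π (by
    intro i j hij
    have e1 := hz i j hij
    have e2 := hz (π i) (π j) (fun h => hij (π.injective h))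
    have e3 := h i j hij
    rw [← not_iff_not]
    exact (e1.symm.trans e3.symm).trans e2)
  rcases h4 with h4 | ⟨h0, h1, h2, h3⟩
  · left
    ext1 i
    exact h4 i
  · right
    let p : Fin 4 → Fin 4 := π
    have hall : ∀ i : Fin 4, p i = flF4 i := by
      intro i
      fin_cases i <;> assumption
    ext1 i
    exact hall i

theorem out_F4 [Fintype F] (p f : ℕ) [hp : Fact p.Prime] [CharP F p] (hF : Fintype.card F = p ^ f) :
    Nat.card (Cfsg.Out ↥(chevF4.group F)) = Nat.gcd 2 p * f := by
  have hd := Cfsg.Agent.S1035.result hF (chevF4, 1) (by simp)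
  rw [card_out TF4.good TF4.ext typeOK_F4 (by decide) p f hF hd, mul_one]
  congr 1
  by_cases h2 : p = 2
  · subst h2
    have hz : ((2 : ℕ) : F) = 0 := CharP.cast_eq_zero F 2
    obtain ⟨θ, hθ⟩ := exists_graph (F := F) TF4.good TF4.ext WF4.tw hz
      (fun r _ t u => lam_add 2 _ r t u) (fun r _ => lam_surj 2 _ r)
    have hfl : nodeHom TF4.good TF4.ext θ = flF4 := by
      apply nodeHom_eq TF4.good TF4.ext
      intro i t
      obtain ⟨t', ht'⟩ := hθ i t i.2
      refine ⟨t', ?_⟩
      have h1 : ∀ i : Fin 4, sP WF4.PT i = (flF4 i : ℕ) := by decide +kernel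
      rw [ht', h1 i]
      rfl
    rw [card_range_two TF4.good TF4.ext flF4 (by decide) (by decide : flF4 ≠ (1 : Equiv.Perm (Fin 4)))
      (fun θ => permF4 _ (nodeHom_zero TF4.good TF4.ext θ)) ⟨θ, hfl⟩]
    rfl
  · have h3 : Nat.gcd 2 p = 1 := (Nat.coprime_primes Nat.prime_two hp.out).2 (fun h => h2 h.symm)
    rw [h3]
    apply card_range_one
    intro θ
    rcases permF4 _ (nodeHom_zero TF4.good TF4.ext θ) with h | h
    · exact h
    · exfalso
      obtain ⟨σ, hσ⟩ := nodeHom_rel TF4.good TF4.ext θ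
      rw [h] at hσ
      let j1 : Fin chevF4.rank := (1 : Fin 4)
      let j2 : Fin chevF4.rank := (2 : Fin 4)
      have c21 : chevF4.cartan j2 (chevF4.simple j1) = -1 := by decide +kernel
      have c12 : chevF4.cartan ((flF4 2 : Fin 4) : ℕ) (chevF4.simple ((flF4 1 : Fin 4) : ℕ)) = -((2 : ℕ) : ℤ) := by decide +kernel
      have h5 := char_of_sq _ _ (fun t => hσ.pow (i := j2) (j := j1) (m := 2) two_ne_zero c21 c12 t)
      exact h2 (CharP.eq F ‹_› (h5 ▸ ringChar.charP F))

/-- the flip of G2 -/
def flG2 : Equiv.Perm (Fin 2) := Equiv.swap 0 1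

theorem permG2 (π : Equiv.Perm (Fin chevG2.rank)) : π = 1 ∨ π = flG2 := by
  have : ∀ π : Equiv.Perm (Fin 2), π = 1 ∨ π = flG2 := by decide
  exact this π

theorem out_G2 [Fintype F] (p f : ℕ) [hp : Fact p.Prime] [CharP F p] (hF : Fintype.card F = p ^ f) (hq : 3 ≤ p ^ f) :
    Nat.card (Cfsg.Out ↥(chevG2.group F)) = if p = 3 then 2 * f else f := by
  have hd := Cfsg.Agent.S1035.result hF (chevG2, 1) (by simp)
  rw [card_out TG2.good TG2.ext typeOK_G2 (by decide) p f hF hd, mul_one]
  by_cases h3 : p = 3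
  · subst h3
    rw [if_pos rfl]
    have hz : ((3 : ℕ) : F) = 0 := CharP.cast_eq_zero F 3
    obtain ⟨θ, hθ⟩ := exists_graph (F := F) TG2.good TG2.ext WG2.tw hz
      (fun r _ t u => lam_add 3 _ r t u) (fun r _ => lam_surj 3 _ r)
    have hfl : nodeHom TG2.good TG2.ext θ = flG2 := by
      apply nodeHom_eq TG2.good TG2.ext
      intro i t
      obtain ⟨t', ht'⟩ := hθ i t i.2
      refine ⟨t', ?_⟩
      have h1 : ∀ i : Fin 2, sP WG2.PT i = (flG2 i : ℕ) := by decide +kernel
      rw [ht', h1 i]
      rfl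
    rw [card_range_two TG2.good TG2.ext flG2 (by decide) (by decide : flG2 ≠ (1 : Equiv.Perm (Fin 2))) (fun θ => permG2 _) ⟨θ, hfl⟩]
  · rw [if_neg h3]
    have h1 : Nat.card (nodeHom TG2.good TG2.ext (F := F)).range = 1 := by
      apply card_range_one
      intro θ
      rcases permG2 (nodeHom TG2.good TG2.ext θ) with h | h
      · exact h
      · exfalso
        obtain ⟨σ, hσ⟩ := nodeHom_rel TG2.good TG2.ext θ
        rw [h] at hσ
        let j0 : Fin chevG2.rank := (0 : Fin 2)
        let j1 : Fin chevG2.rank := (1 : Fin 2)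
        have c10 : chevG2.cartan j1 (chevG2.simple j0) = -1 := by decide +kernel
        have c01 : chevG2.cartan ((flG2 1 : Fin 2) : ℕ) (chevG2.simple ((flG2 0 : Fin 2) : ℕ)) = -((3 : ℕ) : ℤ) := by decide +kernel
        have h5 := pow_of_cube _ _ (fun t => hσ.pow (i := j1) (j := j0) (m := 3) (by decide) c10 c01 t)
        have h6 : ringChar F = p := ringChar.eq F p
        rw [h6] at h5
        -- x ^ 3 = x ^ p for all x, additive
        have hadd : ∀ a b : F, (a + b) ^ 3 = a ^ 3 + b ^ 3 := by
          intro a b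
          rw [h5, h5, h5]; exact add_pow_char (p := p) a b
        have h33 : (3 : F) ≠ 0 := by
          intro h0
          have h4 : ((3 : ℕ) : F) = 0 := by exact_mod_cast h0
          have h5 := (CharP.cast_eq_zero_iff F p 3).1 h4
          rcases (Nat.dvd_prime Nat.prime_three).1 h5 with h6 | h6
          · exact hp.out.one_lt.ne' h6
          · exact h3 h6
        have h4 : ∀ s : F, s * (s + 1) = 0 := by
          intro s
          have := hadd s 1
          have h5 : 3 * (s * (s + 1)) = 0 := by linear_combination this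
          rcases mul_eq_zero.1 h5 with h6 | h6
          · exact absurd h6 h33
          · exact h6
        have h7 : Fintype.card F ≤ 2 := by
          classical
          have hinj : Function.Injective (fun x : F => decide (x = 0)) := by
            intro x y hxy
            simp only [decide_eq_decide] at hxy
            by_cases hx : x = 0
            · rw [hx, (hxy.1 hx)]
            · have hy : y ≠ 0 := fun h => hx (hxy.2 h)
              rcases mul_eq_zero.1 (h4 x) with h | h
              · exact absurd h hx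
              · rcases mul_eq_zero.1 (h4 y) with h' | h'
                · exact absurd h' hy
                · linear_combination h - h'
          have := Fintype.card_le_of_injective _ hinj
          simpa using this
        omega
    rw [h1, one_mul]

end Cfsg.Agent.H15.Chev
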