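import Cfsg.Agent.H15.ChevOut3

/-!
# Outer automorphism groups of finite Chevalley groups: structure
-/

set_option autoImplicit false
set_option linter.unusedSectionVars false
set_option maxRecDepth 100000

namespace Cfsg.Agent.H15.Chev

open Cfsg.Agent.H6 Cfsg.Lie Cfsg.Agent.H22 Cfsg.Agent.H16.BNS
open scoped Matrix

/-! ### the transposition of the diagram D4 -/
namespace WD4c
def RT : ℕ := nat_lit 0x171614151312110f100e0c0d0a0b09070806050402030100
def PT : ℕ := nat_lit 0x2030100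
theorem t1 : chkT1 (nat_lit 0) (nat_lit 24) (nat_lit 12) RT RT 0 0 = true := by decide +kernel
theorem t2 : chkT2 (nat_lit 0) (nat_lit 4) (nat_lit 24) RT 0 PT 0 TD4.S TD4.P TD4.E TD4.CA = true := by decide +kernel
theorem t3 : chkT3 (nat_lit 0) (nat_lit 24) (nat_lit 11) TD4.G RT 0 0 = true := by decide +kernel
theorem tw : Tw chevD4 12 (etF TD4.E) 0 (sP RT) (sP RT) (lamF 0 0) (sP PT) (epF 0) := TD4.chk.tw t1 t2 t3
end WD4c

variable {D : ChevalleyDatum} {F : Type*} [Field F]
variable {N : ℕ} {η : ℕ → ℕ → ℤ} {rc : ℕ → ℕ → ℤ}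
variable (hG : Good D N η rc) (hE : Ext D rc)

/-- the hom `σ ↦ field automorphism` -/
noncomputable def fieldHom (hG : Good D N η rc) (hE : Ext D rc) : (F ≃+* F) →* MulAut ↥(D.group F) where
  toFun σ := Classical.choose (exists_field hG σ)
  map_one' := by
    have h1 := Classical.choose_spec (exists_field hG (1 : F ≃+* F))
    apply aut_ext hG hE
    · intro i hi t
      exact h1 _ _ (hG.simple_lt i hi)
    · intro i hi t
      exact h1 _ _ (hG.neg_lt' (hG.simple_lt i hi))
  map_mul' σ τ := by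
    have h1 := Classical.choose_spec (exists_field hG (σ * τ))
    have h2 := Classical.choose_spec (exists_field hG σ)
    have h3 := Classical.choose_spec (exists_field hG τ)
    apply aut_ext hG hE
    · intro i hi t
      rw [h1 _ _ (hG.simple_lt i hi)]
      change _ = (Classical.choose (exists_field hG σ)) ((Classical.choose (exists_field hG τ)) _)
      rw [h3 _ _ (hG.simple_lt i hi), h2 _ _ (hG.simple_lt i hi)]
      rfl
    · intro i hi t
      rw [h1 _ _ (hG.neg_lt' (hG.simple_lt i hi))]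
      change _ = (Classical.choose (exists_field hG σ)) ((Classical.choose (exists_field hG τ)) _)
      rw [h3 _ _ (hG.neg_lt' (hG.simple_lt i hi)), h2 _ _ (hG.neg_lt' (hG.simple_lt i hi))]
      rfl

include hG hE

theorem fieldHom_spec (σ : F ≃+* F) (r : ℕ) (t : F) (hr : r < D.nroots) :
    fieldHom hG hE σ (XX hG r t) = XX hG r (σ t) := Classical.choose_spec (exists_field hG σ) r t hr

theorem isFieldAut_iff' {φ : MulAut ↥(D.group F)} : D.IsFieldAut φ ↔ ∃ σ, fieldHom hG hE σ = φ := by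
  rw [isFieldAut_iff hG]
  constructor
  · rintro ⟨σ, h⟩
    refine ⟨σ, ?_⟩
    apply aut_ext hG hE
    · intro i hi t
      rw [h _ _ (hG.simple_lt i hi), fieldHom_spec hG hE σ _ t (hG.simple_lt i hi)]
    · intro i hi t
      rw [h _ _ (hG.neg_lt' (hG.simple_lt i hi)), fieldHom_spec hG hE σ _ t (hG.neg_lt' (hG.simple_lt i hi))]
  · rintro ⟨σ, rfl⟩
    exact ⟨σ, fun r t hr => fieldHom_spec hG hE σ r t hr⟩

theorem closure_field : Subgroup.closure {φ : MulAut ↥(D.group F) | D.IsFieldAut φ} = (fieldHom hG hE (F := F)).range := by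
  apply le_antisymm
  · rw [Subgroup.closure_le]
    intro φ hφ
    obtain ⟨σ, hσ⟩ := (isFieldAut_iff' hG hE).1 hφ
    exact ⟨σ, hσ⟩
  · rintro _ ⟨σ, rfl⟩
    exact Subgroup.subset_closure ((isFieldAut_iff' hG hE).2 ⟨σ, rfl⟩)

omit hG hE in
theorem cyclic_ringAut [Finite F] : IsCyclic (F ≃+* F) := by
  have := Fintype.ofFinite F
  obtain ⟨p, hp, hc⟩ := exists_char F
  let _ : Algebra (ZMod p) F := ZMod.algebra F p
  let e : (F ≃ₐ[ZMod p] F) →* (F ≃+* F) :=
    { toFun := fun α => α.toRingEquiv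
      map_one' := rfl
      map_mul' := fun _ _ => rfl }
  have he : Function.Surjective e := by
    intro σ
    refine ⟨AlgEquiv.ofRingEquiv (f := σ) (fun r => ?_), ?_⟩
    · exact RingHom.congr_fun (Subsingleton.elim (σ.toRingHom.comp (algebraMap (ZMod p) F)) (algebraMap (ZMod p) F)) r
    · ext t; rfl
  have h1 : IsCyclic (F ≃ₐ[ZMod p] F) := inferInstanceAs (IsCyclic Gal(F/(ZMod p)))
  exact isCyclic_of_surjective e he

/-- the diagonal automorphisms form a subgroup -/
theorem closure_diag : (Subgroup.closure {φ : MulAut ↥(D.group F) | D.IsDiagonalAut φ} : Set (MulAut ↥(D.group F))) =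
    {φ | D.IsDiagonalAut φ} := by
  apply Set.Subset.antisymm
  · intro φ hφ
    induction hφ using Subgroup.closure_induction with
    | mem x hx => exact hx
    | one =>
      refine (isDiagonalAut_iff hG).2 ⟨1, ⟨fun r hr => by simp, fun r hr s hs k hk => by simp⟩, ?_⟩
      ext1 g
      apply Subtype.ext
      rw [coe_dAut, tor_one]
      change (g : GL D.Idx F) = _
      group
    | mul a b _ _ ha hb =>
      obtain ⟨χ, hχ, rfl⟩ := (isDiagonalAut_iff hG).1 ha
      obtain ⟨ψ, hψ, rfl⟩ := (isDiagonalAut_iff hG).1 hb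
      have hχψ : IsChr D (χ * ψ) := by
        constructor
        · intro r hr
          rw [Pi.mul_apply, Pi.mul_apply, hχ.neg r hr, hψ.neg r hr, mul_inv]
        · intro r hr s hs k hk
          simp only [Pi.mul_apply]
          rw [hχ.chain r hr s hs k hk, hψ.chain r hr s hs k hk, mul_pow]
          exact mul_mul_mul_comm _ _ _ _
      refine (isDiagonalAut_iff hG).2 ⟨χ * ψ, hχψ, ?_⟩
      ext1 g
      apply Subtype.ext
      rw [coe_dAut, tor_mul]
      change tor D F χ * (tor D F ψ * (g : GL D.Idx F) * (tor D F ψ)⁻¹) * (tor D F χ)⁻¹ = _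
      group
    | inv a _ ha =>
      obtain ⟨χ, hχ, rfl⟩ := (isDiagonalAut_iff hG).1 ha
      refine (isDiagonalAut_iff hG).2 ⟨χ⁻¹, isChr_inv hG hχ, ?_⟩
      ext1 g
      apply Subtype.ext
      rw [coe_dAut, tor_inv, inv_inv]
      change (tor D F χ)⁻¹ * (g : GL D.Idx F) * tor D F χ = _
      rfl
  · exact Subgroup.subset_closure

/-- characterisation of diagonal automorphisms on simple root elements -/
theorem isDiagonalAut_of {φ : MulAut ↥(D.group F)} (c : ℕ → Fˣ)
    (h1 : ∀ (i : Fin D.rank) (t : F), φ (XX hG (D.simple i) t) = XX hG (D.simple i) ((c i : F) * t))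
    (h2 : ∀ (i : Fin D.rank) (t : F), φ (XX hG (D.neg (D.simple i)) t) = XX hG (D.neg (D.simple i)) (((c i)⁻¹ : Fˣ) * t)) :
    D.IsDiagonalAut φ := by
  have hχc : IsChr D (chr D.rank rc c) := hG.isChr_chr c
  have hχs : ∀ i < D.rank, chr D.rank rc c (D.simple i) = c i := fun i hi => hG.chr_simple (F := F) c hi
  refine (isDiagonalAut_iff hG).2 ⟨_, hχc, ?_⟩
  apply aut_ext hG hE
  · intro i hi t
    rw [h1 ⟨i, hi⟩ t, dAut_XX hG hχc (hG.simple_lt i hi), hχs i hi]
  · intro i hi t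
    rw [h2 ⟨i, hi⟩ t, dAut_XX hG hχc (hG.neg_lt' (hG.simple_lt i hi)), hχc.neg _ (hG.simple_lt i hi), hχs i hi]

/-- the product of the groups of diagonal and field automorphisms -/
theorem mem_DF_iff [Finite F] (hT : TypeOK D F) {θ : MulAut ↥(D.group F)} :
    θ ∈ Subgroup.closure {φ : MulAut ↥(D.group F) | D.IsDiagonalAut φ} ⊔
      Subgroup.closure {φ : MulAut ↥(D.group F) | D.IsFieldAut φ} ↔ ∃ h : θ ∈ A0 D F, nodeHom hG hE ⟨θ, h⟩ = 1 := by
  constructor
  · intro hθ
    have key : Subgroup.closure {φ : MulAut ↥(D.group F) | D.IsDiagonalAut φ} ⊔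
      Subgroup.closure {φ : MulAut ↥(D.group F) | D.IsFieldAut φ} ≤ (nodeHom hG hE (F := F)).ker.map (A0 D F).subtype := by
      rw [← Subgroup.closure_union, Subgroup.closure_le]
      rintro φ (hφ | hφ)
      · obtain ⟨χ, hχ, rfl⟩ := (isDiagonalAut_iff hG).1 hφ
        refine ⟨⟨dAut hG hχ, std_dAut hG hE hχ⟩, ?_, rfl⟩
        apply nodeHom_eq hG hE
        intro i t
        exact ⟨_, dAut_XX hG hχ (hG.simple_lt i i.2) t⟩
      · obtain ⟨σ, hσ⟩ := (isFieldAut_iff hG).1 hφ
        refine ⟨⟨φ, std_field hG hE hσ⟩, ?_, rfl⟩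
        apply nodeHom_eq hG hE
        intro i t
        exact ⟨_, hσ _ t (hG.simple_lt i i.2)⟩
    obtain ⟨x, hx, he⟩ := key hθ
    subst he
    exact ⟨x.2, hx⟩
  · rintro ⟨h, h1⟩
    obtain ⟨c, τ, h2, h3⟩ := (mem_ker_nodeHom hG hE hT).1 (show (⟨θ, h⟩ : ↥(A0 D F)) ∈ (nodeHom hG hE (F := F)).ker from h1)
    change ∀ (i : Fin D.rank) (t : F), θ (XX hG (D.simple i) t) = _ at h2
    change ∀ (i : Fin D.rank) (t : F), θ (XX hG (D.neg (D.simple i)) t) = _ at h3
    have h4 : θ = (θ * (fieldHom hG hE τ)⁻¹) * fieldHom hG hE τ := by group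
    rw [h4]
    refine mul_mem (Subgroup.mem_sup_left (Subgroup.subset_closure ?_)) (Subgroup.mem_sup_right ?_)
    · set cc : ℕ → Fˣ := fun k => if h : k < D.rank then c ⟨k, h⟩ else 1 with hcc
      have hci : ∀ i : Fin D.rank, cc i = c i := by
        intro i
        rw [hcc]
        simp only [Fin.is_lt, dif_pos]
      have hf' : ∀ (r : ℕ) (t : F), r < D.nroots → (fieldHom hG hE τ)⁻¹ (XX hG r t) = XX hG r (τ.symm t) := by
        intro r t hr
        change (fieldHom hG hE τ).symm (XX hG r t) = _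
        rw [MulEquiv.symm_apply_eq, fieldHom_spec hG hE τ r _ hr, RingEquiv.apply_symm_apply]
      apply isDiagonalAut_of hG hE cc
      · intro i t
        change θ ((fieldHom hG hE τ)⁻¹ (XX hG (D.simple i) t)) = _
        rw [hf' _ _ (hG.simple_lt i i.2), h2, RingEquiv.apply_symm_apply, hci]
      · intro i t
        change θ ((fieldHom hG hE τ)⁻¹ (XX hG (D.neg (D.simple i)) t)) = _
        rw [hf' _ _ (hG.neg_lt' (hG.simple_lt i i.2)), h3, RingEquiv.apply_symm_apply, hci]
    · rw [closure_field hG hE]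
      exact ⟨τ, rfl⟩

/-- diagonal automorphisms are normalised by standard automorphisms -/
theorem diag_conj [Finite F] (hT : TypeOK D F) {θ φ : MulAut ↥(D.group F)} (hθ : θ ∈ A0 D F) (hφ : D.IsDiagonalAut φ) :
    D.IsDiagonalAut ((θ * φ * θ⁻¹ : MulAut ↥(D.group F))) := by
  obtain ⟨χ, hχ, rfl⟩ := (isDiagonalAut_iff hG).1 hφ
  obtain ⟨π, c, τ, h1, h2, h3⟩ := Std.form' hG hE hT (mem_A0.1 hθ)
  set e : Fin D.rank → ℕ := fun i => D.graphExp (ringChar F) i (π i) with he
  set c' : ℕ → Fˣ := fun k => if h : k < D.rank then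
    (Units.map τ.toRingHom.toMonoidHom (χ (D.simple (π.symm ⟨k, h⟩)))) ^ e (π.symm ⟨k, h⟩) else 1 with hc'
  have hc'i : ∀ i : Fin D.rank, c' (π i) = (Units.map τ.toRingHom.toMonoidHom (χ (D.simple i))) ^ e i := by
    intro i
    rw [hc']
    simp only [Fin.is_lt, dif_pos, Fin.eta, Equiv.symm_apply_apply]
  have hτu : ∀ u : Fˣ, ((Units.map τ.toRingHom.toMonoidHom u : Fˣ) : F) = τ u := fun u => rfl
  -- action on simple root elements via preimages
  have key1 : ∀ (i : Fin D.rank) (t : F), (θ * dAut hG hχ * θ⁻¹ : MulAut ↥(D.group F)) (θ (XX hG (D.simple i) t)) =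
      θ (XX hG (D.simple i) ((χ (D.simple i) : F) * t)) := by
    intro i t
    change θ (dAut hG hχ (θ.symm (θ _))) = _
    rw [MulEquiv.symm_apply_apply, dAut_XX hG hχ (hG.simple_lt i i.2)]
  have key2 : ∀ (i : Fin D.rank) (t : F), (θ * dAut hG hχ * θ⁻¹ : MulAut ↥(D.group F)) (θ (XX hG (D.neg (D.simple i)) t)) =
      θ (XX hG (D.neg (D.simple i)) (((χ (D.simple i))⁻¹ : Fˣ) * t)) := by
    intro i t
    change θ (dAut hG hχ (θ.symm (θ _))) = _
    rw [MulEquiv.symm_apply_apply, dAut_XX hG hχ (hG.neg_lt' (hG.simple_lt i i.2)), hχ.neg _ (hG.simple_lt i i.2)]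
  obtain ⟨π', f, g, e1, e2, e3, e4, e5⟩ := (mem_A0.1 hθ).exists_perm hG hE
  have hππ : π' = π := node_perm_unique hG hE (θ := ⟨θ, hθ⟩) (fun i t => ⟨_, e1 i t⟩) (fun i t => ⟨_, h2 i t⟩)
  subst hππ
  have hfe : ∀ i t, f i t = (c (π' i) : F) * τ t ^ e i := fun i t =>
    XX_inj' hG (hG.simple_lt _ (π' i).2) hE ((e1 i t).symm.trans (h2 i t))
  have hge : ∀ i t, g i t = ((c (π' i))⁻¹ : Fˣ) * τ t ^ e i := fun i t =>
    XX_inj' hG (hG.neg_lt' (hG.simple_lt _ (π' i).2)) hE ((e2 i t).symm.trans (h3 i t))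
  apply isDiagonalAut_of hG hE c'
  · intro j t
    obtain ⟨i, rfl⟩ := π'.surjective j
    obtain ⟨s, rfl⟩ := (e4 i).2 t
    rw [← e1 i s, key1, h2, hfe, hc'i]
    congr 1
    rw [map_mul, mul_pow, Units.val_pow_eq_pow_val, hτu]
    ring
  · intro j t
    obtain ⟨i, rfl⟩ := π'.surjective j
    -- surjectivity of g
    have hgs : ∃ s, g i s = t := by
      obtain ⟨s, hs⟩ := (e4 i).2 ((c (π' i) : F) * ((c (π' i) : F) * t))
      refine ⟨s, ?_⟩
      rw [hfe] at hs
      have h4 := mul_left_cancel₀ (Units.ne_zero _) hs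
      rw [hge, h4, ← mul_assoc, Units.inv_mul, one_mul]
    obtain ⟨s, rfl⟩ := hgs
    rw [← e2 i s, key2, h3, hge, hc'i]
    congr 1
    rw [map_mul, mul_pow, Units.val_inv_eq_inv_val, Units.val_inv_eq_inv_val, Units.val_inv_eq_inv_val, Units.val_pow_eq_pow_val,
      hτu, map_inv₀, inv_pow]
    ring

end Cfsg.Agent.H15.Chev
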