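import Cfsg.Agent.H15.ChevOut4

/-!
# Outer automorphism groups of finite Chevalley groups: structure, conclusion
-/

set_option autoImplicit false
set_option linter.unusedSectionVars false
set_option maxRecDepth 100000

namespace Cfsg.Agent.H15.Chev

open Cfsg.Agent.H6 Cfsg.Lie Cfsg.Agent.H22 Cfsg.Agent.H16.BNS
open scoped Matrix

variable {D : ChevalleyDatum} {F : Type*} [Field F]
variable {N : ℕ} {η : ℕ → ℕ → ℤ} {rc : ℕ → ℕ → ℤ}
variable (hG : Good D N η rc) (hE : Ext D rc)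

/-- image of the diagonal automorphisms -/
noncomputable def DbarG (D : ChevalleyDatum) (F : Type*) [Field F] : Subgroup (Cfsg.Out ↥(D.group F)) :=
  (Subgroup.closure {φ : MulAut ↥(D.group F) | D.IsDiagonalAut φ}).map (QuotientGroup.mk' (Cfsg.Inn ↥(D.group F)))

/-- image of the field automorphisms -/
noncomputable def FbarG (D : ChevalleyDatum) (F : Type*) [Field F] : Subgroup (Cfsg.Out ↥(D.group F)) :=
  (Subgroup.closure {φ : MulAut ↥(D.group F) | D.IsFieldAut φ}).map (QuotientGroup.mk' (Cfsg.Inn ↥(D.group F)))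

include hG hE

theorem exists_A0_rep [Finite F] (y : Cfsg.Out ↥(D.group F)) : ∃ θ ∈ A0 D F, QuotientGroup.mk' (Cfsg.Inn ↥(D.group F)) θ = y := by
  obtain ⟨θ, hθ⟩ := toOut_surj hG hE (F := F) y
  exact ⟨θ, θ.2, hθ⟩

theorem Dbar_normal [Finite F] (hT : TypeOK D F) : (DbarG D F).Normal := by
  constructor
  rintro _ ⟨φ, hφ, rfl⟩ y
  obtain ⟨θ, hθ, rfl⟩ := exists_A0_rep hG hE y
  have h1 : D.IsDiagonalAut φ := by
    have := closure_diag hG hE (F := F)
    have h2 : φ ∈ (Subgroup.closure {φ : MulAut ↥(D.group F) | D.IsDiagonalAut φ} : Set (MulAut ↥(D.group F))) := hφ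
    rw [this] at h2
    exact h2
  refine ⟨θ * φ * θ⁻¹, Subgroup.subset_closure (diag_conj hG hE hT hθ h1), ?_⟩
  rw [map_mul, map_mul, map_inv]

omit hE in
theorem Dbar_comm (hE : Ext D rc) : IsMulCommutative ↥(DbarG D F) := by
  constructor
  constructor
  rintro ⟨_, φ, hφ, rfl⟩ ⟨_, ψ, hψ, rfl⟩
  apply Subtype.ext
  change QuotientGroup.mk' _ φ * QuotientGroup.mk' _ ψ = QuotientGroup.mk' _ ψ * QuotientGroup.mk' _ φ
  rw [← map_mul, ← map_mul]
  congr 1
  have hc := closure_diag hG hE (F := F)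
  have h1 : D.IsDiagonalAut φ := by
    have h2 : φ ∈ (Subgroup.closure {φ : MulAut ↥(D.group F) | D.IsDiagonalAut φ} : Set (MulAut ↥(D.group F))) := hφ
    rw [hc] at h2
    exact h2
  have h2 : D.IsDiagonalAut ψ := by
    have h2 : ψ ∈ (Subgroup.closure {φ : MulAut ↥(D.group F) | D.IsDiagonalAut φ} : Set (MulAut ↥(D.group F))) := hψ
    rw [hc] at h2
    exact h2
  obtain ⟨χ, hχ, rfl⟩ := (isDiagonalAut_iff hG).1 h1
  obtain ⟨ω, hω, rfl⟩ := (isDiagonalAut_iff hG).1 h2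
  ext1 g
  apply Subtype.ext
  change tor D F χ * (tor D F ω * (g : GL D.Idx F) * (tor D F ω)⁻¹) * (tor D F χ)⁻¹ =
    tor D F ω * (tor D F χ * (g : GL D.Idx F) * (tor D F χ)⁻¹) * (tor D F ω)⁻¹
  have h3 : tor D F χ * tor D F ω = tor D F ω * tor D F χ := by rw [← tor_mul, ← tor_mul, mul_comm]
  calc _ = (tor D F χ * tor D F ω) * (g : GL D.Idx F) * (tor D F χ * tor D F ω)⁻¹ := by group
    _ = (tor D F ω * tor D F χ) * (g : GL D.Idx F) * (tor D F ω * tor D F χ)⁻¹ := by rw [h3]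
    _ = _ := by group

theorem Fbar_cyclic [Finite F] : IsCyclic ↥(FbarG D F) := by
  have := cyclic_ringAut (F := F)
  have hmem : ∀ σ : F ≃+* F, QuotientGroup.mk' (Cfsg.Inn ↥(D.group F)) (fieldHom hG hE σ) ∈ FbarG D F := by
    intro σ
    refine ⟨_, ?_, rfl⟩
    change fieldHom hG hE σ ∈ Subgroup.closure _
    rw [closure_field hG hE]
    exact ⟨σ, rfl⟩
  let e : (F ≃+* F) →* ↥(FbarG D F) :=
    ((QuotientGroup.mk' (Cfsg.Inn ↥(D.group F))).comp (fieldHom hG hE)).codRestrict (FbarG D F) hmem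
  refine isCyclic_of_surjective e ?_
  rintro ⟨_, φ, hφ, rfl⟩
  have h1 : φ ∈ Subgroup.closure {φ : MulAut ↥(D.group F) | D.IsFieldAut φ} := hφ
  rw [closure_field hG hE] at h1
  obtain ⟨σ, rfl⟩ := h1
  exact ⟨σ, rfl⟩

theorem mem_sup_iff [Finite F] (hT : TypeOK D F) (θ : ↥(A0 D F)) :
    toOut D F θ ∈ DbarG D F ⊔ FbarG D F ↔ nodeHom hG hE θ = 1 := by
  unfold DbarG FbarG
  rw [← Subgroup.map_sup]
  constructor
  · rintro ⟨κ, hκ, he⟩
    obtain ⟨hκ0, hκ1⟩ := (mem_DF_iff hG hE hT).1 hκ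
    have h1 : toOut D F (θ * (⟨κ, hκ0⟩ : ↥(A0 D F))⁻¹) = 1 := by
      rw [map_mul, map_inv]
      change _ * (QuotientGroup.mk' _ κ)⁻¹ = 1
      rw [he, mul_inv_cancel]
    obtain ⟨x, hx, hx'⟩ := (mem_ker_toOut hG hE).1 (show _ ∈ (toOut D F).ker from h1)
    have h2 : nodeHom hG hE (θ * (⟨κ, hκ0⟩ : ↥(A0 D F))⁻¹) = 1 := by
      apply nodeHom_eq hG hE
      intro i t
      rw [hx']
      obtain ⟨ψ, hψ⟩ := hG.diagonal_conj_xg (F := F) hx
      exact ⟨_, Subtype.ext (hψ _ (hG.simple_lt i i.2) t)⟩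
    rw [map_mul, map_inv, hκ1, inv_one, mul_one] at h2
    exact h2
  · intro h
    exact ⟨θ, (mem_DF_iff hG hE hT).2 ⟨θ.2, h⟩, rfl⟩

theorem sup_normal [Finite F] (hT : TypeOK D F) : (DbarG D F ⊔ FbarG D F).Normal := by
  constructor
  intro x hx y
  obtain ⟨θ, rfl⟩ := toOut_surj hG hE (F := F) x
  obtain ⟨φ, rfl⟩ := toOut_surj hG hE (F := F) y
  rw [mem_sup_iff hG hE hT] at hx
  rw [← map_inv, ← map_mul, ← map_mul, mem_sup_iff hG hE hT, map_mul, map_mul, map_inv, hx, mul_one, mul_inv_cancel]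

theorem index_sup [Finite F] (hT : TypeOK D F) : (DbarG D F ⊔ FbarG D F).index = Nat.card (nodeHom hG hE (F := F)).range := by
  have h1 : (DbarG D F ⊔ FbarG D F).comap (toOut D F) = (nodeHom hG hE (F := F)).ker := by
    ext θ
    rw [Subgroup.mem_comap, mem_sup_iff hG hE hT, MonoidHom.mem_ker]
  rw [← Subgroup.index_comap_of_surjective _ (toOut_surj hG hE (F := F)), h1, Subgroup.index_ker]

theorem not_comm [Finite F] (hT : TypeOK D F) (h : ∃ θ φ : ↥(A0 D F), nodeHom hG hE θ * nodeHom hG hE φ ≠ nodeHom hG hE φ * nodeHom hG hE θ) :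
    ¬ commutator (Cfsg.Out ↥(D.group F)) ≤ DbarG D F ⊔ FbarG D F := by
  intro hle
  obtain ⟨θ, φ, hne⟩ := h
  have h1 : toOut D F θ * toOut D F φ * (toOut D F θ)⁻¹ * (toOut D F φ)⁻¹ ∈ commutator (Cfsg.Out ↥(D.group F)) := by
    rw [commutator_def]
    exact Subgroup.commutator_mem_commutator (Subgroup.mem_top _) (Subgroup.mem_top _)
  have h2 := hle h1
  rw [← map_inv, ← map_inv, ← map_mul, ← map_mul, ← map_mul, mem_sup_iff hG hE hT, map_mul, map_mul, map_mul, map_inv, map_inv,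
    mul_inv_eq_one, mul_inv_eq_iff_eq_mul] at h2
  exact hne h2

theorem card_range_or [Finite F] (fl : Equiv.Perm (Fin D.rank)) (h1 : fl * fl = 1)
    (h : ∀ θ : ↥(A0 D F), nodeHom hG hE θ = 1 ∨ nodeHom hG hE θ = fl) :
    Nat.card (nodeHom hG hE (F := F)).range = 1 ∨ Nat.card (nodeHom hG hE (F := F)).range = 2 := by
  by_cases h2 : ∀ θ : ↥(A0 D F), nodeHom hG hE θ = 1
  · left; exact card_range_one hG hE h2
  · right
    push Not at h2
    obtain ⟨θ, hθ⟩ := h2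
    have h3 : nodeHom hG hE θ = fl := (h θ).resolve_left hθ
    exact card_range_two hG hE fl h1 (h3 ▸ hθ) h ⟨θ, h3⟩

end Cfsg.Agent.H15.Chev

namespace Cfsg.Agent.H15.Chev

open Cfsg.Agent.H6 Cfsg.Lie Cfsg.Agent.H22 Cfsg.Agent.H16.BNS
open scoped Matrix

variable {F : Type*} [Field F]

/-- perms of D4 -/
def s3D4 : Subgroup (Equiv.Perm (Fin 4)) where
  carrier := {π | π 1 = 1}
  mul_mem' := by
    intro a b ha hb
    change a (b 1) = 1
    rw [hb, ha]
  one_mem' := rfl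
  inv_mem' := by
    intro a ha
    change a.symm 1 = 1
    rw [Equiv.symm_apply_eq]
    exact ha.symm

theorem card_s3D4 : Nat.card s3D4 = 6 := by
  have : Nat.card s3D4 = Nat.card {π : Equiv.Perm (Fin 4) // π 1 = 1} := rfl
  rw [this, Nat.card_eq_fintype_card]
  decide +kernel

theorem adjD4 : ∀ i j : Fin 4, i ≠ j → (chevD4.cartan i (chevD4.simple j) = 0 ↔ (i ≠ 1 ∧ j ≠ 1)) := by
  decide +kernel

theorem permD4 (π : Equiv.Perm (Fin chevD4.rank))
    (h : ∀ i j : Fin chevD4.rank, i ≠ j → (chevD4.cartan (π i) (chevD4.simple (π j)) = 0 ↔ chevD4.cartan i (chevD4.simple j) = 0)) :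
    π ∈ s3D4 := by
  let p : Equiv.Perm (Fin 4) := π
  change p 1 = 1
  have h' : ∀ i j : Fin 4, i ≠ j → ((p i ≠ 1 ∧ p j ≠ 1) ↔ (i ≠ 1 ∧ j ≠ 1)) := by
    intro i j hij
    have h1 := h i j hij
    have h2 := adjD4 i j hij
    have h3 := adjD4 (p i) (p j) (fun h => hij (p.injective h))
    exact (h3.symm.trans h1).trans h2
  have : ∀ p : Equiv.Perm (Fin 4), (∀ i j : Fin 4, i ≠ j → ((p i ≠ 1 ∧ p j ≠ 1) ↔ (i ≠ 1 ∧ j ≠ 1))) → p 1 = 1 := by
    decide +kernel
  exact this p h'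

def cyD4 : Equiv.Perm (Fin 4) where
  toFun := ![2, 1, 3, 0]
  invFun := ![3, 1, 0, 2]
  left_inv := by decide
  right_inv := by decide

def trD4 : Equiv.Perm (Fin 4) := Equiv.swap 2 3

theorem exists_cy [Finite F] : ∃ θ : ↥(A0 chevD4 F), nodeHom TD4.good TD4.ext θ = cyD4 := by
  have hz : ((0 : ℕ) : F) = 0 := Nat.cast_zero
  have hlam : ∀ r, lamF 0 WD4a.LT r = 1 := by intro r; simp [lamF, WD4a.LT]
  obtain ⟨θ, hθ⟩ := exists_graph (F := F) TD4.good TD4.ext WD4a.tw hz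
    (fun r _ t u => by rw [hlam]; simp) (fun r _ t => ⟨t, by simp [hlam]⟩)
  refine ⟨θ, nodeHom_eq TD4.good TD4.ext fun i t => ?_⟩
  obtain ⟨t', ht'⟩ := hθ i t i.2
  refine ⟨t', ?_⟩
  have h1 : ∀ i : Fin 4, sP WD4a.PT i = (cyD4 i : ℕ) := by decide +kernel
  rw [ht', h1 i]
  rfl

theorem exists_tr [Finite F] : ∃ θ : ↥(A0 chevD4 F), nodeHom TD4.good TD4.ext θ = trD4 := by
  have hz : ((0 : ℕ) : F) = 0 := Nat.cast_zero
  have hlam : ∀ r, lamF 0 0 r = 1 := by intro r; simp [lamF]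
  obtain ⟨θ, hθ⟩ := exists_graph (F := F) TD4.good TD4.ext WD4c.tw hz
    (fun r _ t u => by rw [hlam]; simp) (fun r _ t => ⟨t, by simp [hlam]⟩)
  refine ⟨θ, nodeHom_eq TD4.good TD4.ext fun i t => ?_⟩
  obtain ⟨t', ht'⟩ := hθ i t i.2
  refine ⟨t', ?_⟩
  have h1 : ∀ i : Fin 4, sP WD4c.PT i = (trD4 i : ℕ) := by decide +kernel
  rw [ht', h1 i]
  rfl

theorem card_range_D4 [Finite F] : Nat.card (nodeHom TD4.good TD4.ext (F := F)).range = 6 := by
  set R : Subgroup (Equiv.Perm (Fin 4)) := (nodeHom TD4.good TD4.ext (F := F)).range with hR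
  change Nat.card R = 6
  have hle : R ≤ s3D4 := by
    rintro _ ⟨θ, rfl⟩
    exact permD4 _ (nodeHom_zero TD4.good TD4.ext θ)
  have h1 : Nat.card R ∣ 6 := by
    rw [← card_s3D4]
    exact Subgroup.card_dvd_of_le hle
  have h2 : 2 ∣ Nat.card R := by
    obtain ⟨θ, hθ⟩ := exists_tr (F := F)
    have h3 : orderOf trD4 = 2 := orderOf_eq_prime (by decide) (by decide : trD4 ≠ (1 : Equiv.Perm (Fin 4)))
    have h4 : trD4 ∈ R := ⟨θ, hθ⟩
    rw [← h3, ← Subgroup.orderOf_mk _ h4]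
    exact orderOf_dvd_natCard _
  have h3 : 3 ∣ Nat.card R := by
    obtain ⟨θ, hθ⟩ := exists_cy (F := F)
    have h3 : orderOf cyD4 = 3 := orderOf_eq_prime (by decide) (by decide : cyD4 ≠ (1 : Equiv.Perm (Fin 4)))
    have h4 : cyD4 ∈ R := ⟨θ, hθ⟩
    rw [← h3, ← Subgroup.orderOf_mk _ h4]
    exact orderOf_dvd_natCard _
  have h4 : 6 ∣ Nat.card R := (Nat.Coprime.mul_dvd_of_dvd_of_dvd (by norm_num : Nat.Coprime 2 3) h2 h3)
  exact Nat.dvd_antisymm h1 h4

theorem index_cases {D : ChevalleyDatum} [Finite F] (hD : D ∈ [chevG2, chevB2, chevD4, chevF4, chevE6, chevE7, chevE8]) :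
    (DbarG D F ⊔ FbarG D F).index = 1 ∨ (DbarG D F ⊔ FbarG D F).index = 2 ∨
      ((DbarG D F ⊔ FbarG D F).index = 6 ∧ ¬ commutator (Cfsg.Out ↥(D.group F)) ≤ DbarG D F ⊔ FbarG D F) := by
  have hT := typeOK (F := F) hD
  simp only [List.mem_cons, List.mem_nil_iff, or_false] at hD
  rcases hD with rfl | rfl | rfl | rfl | rfl | rfl | rfl
  · rw [index_sup TG2.good TG2.ext hT]
    rw [← or_assoc]
    exact Or.inl (card_range_or TG2.good TG2.ext flG2 (by decide) fun θ => permG2 _)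
  · rw [index_sup TB2.good TB2.ext hT]
    rw [← or_assoc]
    refine Or.inl (card_range_or TB2.good TB2.ext flG2 (by decide) fun θ => ?_)
    have : ∀ π : Equiv.Perm (Fin 2), π = 1 ∨ π = flG2 := by decide
    exact this _
  · right; right
    constructor
    · rw [index_sup TD4.good TD4.ext hT]
      exact card_range_D4
    · apply not_comm TD4.good TD4.ext hT
      obtain ⟨θ, hθ⟩ := exists_tr (F := F)
      obtain ⟨φ, hφ⟩ := exists_cy (F := F)
      refine ⟨θ, φ, ?_⟩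
      rw [hθ, hφ]
      exact (by decide : trD4 * cyD4 ≠ cyD4 * trD4)
  · rw [index_sup TF4.good TF4.ext hT]
    rw [← or_assoc]
    exact Or.inl (card_range_or TF4.good TF4.ext flF4 (by decide) fun θ => permF4 _ (nodeHom_zero TF4.good TF4.ext θ))
  · rw [index_sup TE6.good TE6.ext hT]
    rw [← or_assoc]
    exact Or.inl (card_range_or TE6.good TE6.ext flE6 (by decide) fun θ => permE6 _ (nodeHom_zero TE6.good TE6.ext θ))
  · rw [index_sup TE7.good TE7.ext hT]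
    exact Or.inl (card_range_one TE7.good TE7.ext fun θ => permE7 _ (nodeHom_zero TE7.good TE7.ext θ))
  · rw [index_sup TE8.good TE8.ext hT]
    exact Or.inl (card_range_one TE8.good TE8.ext fun θ => permE8 _ (nodeHom_zero TE8.good TE8.ext θ))

end Cfsg.Agent.H15.Chev
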