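import Mathlib
import Cfsg.Agent.H15.Schur4

/-! # Schur multiplier API, part 5: projective representations -/

set_option autoImplicit false

universe u v w w'

open scoped commutatorElement

namespace Cfsg.Agent.H15.Schur

/-- divisible groups are injective -/
theorem exists_extension {A : Type u} [CommGroup A] (S : Subgroup A) {D : Type v} [CommGroup D]
    (hD : ∀ (d : D) (n : ℕ), n ≠ 0 → ∃ e : D, e ^ n = d) (f : S →* D) :
    ∃ g : A →* D, ∀ s : S, g s = f s := by
  classical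
  have hD' : ∀ (d : Additive D) (n : ℤ), n ≠ 0 → ∃ e : Additive D, n • e = d := by
    intro d n hn
    obtain ⟨e, he⟩ := hD d.toMul n.natAbs (by simpa using hn)
    rcases Int.natAbs_eq n with h | h
    · refine ⟨Additive.ofMul e, ?_⟩
      rw [h, natCast_zsmul, ← ofMul_pow, he]; rfl
    · refine ⟨-Additive.ofMul e, ?_⟩
      rw [h, neg_smul, smul_neg, neg_neg, natCast_zsmul, ← ofMul_pow, he]; rfl
  let _ : DivisibleBy (Additive D) ℤ :=
    { div := fun d n => if h : n = 0 then 0 else (hD' d n h).choose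
      div_zero := fun d => by simp
      div_cancel := fun {n} d h => by
        rw [dif_neg h]; exact (hD' d n h).choose_spec }
  obtain ⟨g, hg⟩ := (Module.Baer.of_divisible (Additive D)).extension_property_addMonoidHom
    (MonoidHom.toAdditive S.subtype) (fun a b h => S.subtype_injective h) (MonoidHom.toAdditive f)
  refine ⟨MonoidHom.toAdditive.symm g, ?_⟩
  intro s
  exact DFunLike.congr_fun hg (Additive.ofMul s)

theorem exists_extension_inj {S : Type w} [Group S] {A : Type u} [CommGroup A] (i : S →* A)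
    (hi : Function.Injective i) {D : Type v} [CommGroup D]
    (hD : ∀ (d : D) (n : ℕ), n ≠ 0 → ∃ e : D, e ^ n = d) (f : S →* D) :
    ∃ g : A →* D, ∀ s : S, g (i s) = f s := by
  let e : S ≃* i.range := MulEquiv.ofBijective i.rangeRestrict
    ⟨i.rangeRestrict_injective_iff.mpr hi, i.rangeRestrict_surjective⟩
  obtain ⟨g, hg⟩ := exists_extension i.range hD (f.comp e.symm.toMonoidHom)
  refine ⟨g, fun s => ?_⟩
  have h1 := hg (e s)
  have h2 : (f.comp e.symm.toMonoidHom) (e s) = f s := by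
    show f (e.symm (e s)) = f s
    rw [e.symm_apply_apply]
  rw [h2] at h1
  exact h1

theorem exists_extension_of_inf_commutator {E : Type u} [Group E] (S : Subgroup E)
    (hS : S ⊓ commutator E = ⊥) {D : Type v} [CommGroup D]
    (hD : ∀ (d : D) (n : ℕ), n ≠ 0 → ∃ e : D, e ^ n = d) (f : S →* D) :
    ∃ g : E →* D, ∀ s : S, g s = f s := by
  obtain ⟨g, hg⟩ := exists_extension_inj (Abelianization.of.comp S.subtype) (by
    rw [injective_iff_map_eq_one]
    intro a ha
    have h1 : a.1 ∈ commutator E := by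
      rw [← Abelianization.ker_of]; exact ha
    have h2 : a.1 ∈ S ⊓ commutator E := ⟨a.2, h1⟩
    rw [hS] at h2
    exact Subtype.ext (by simpa using h2)) hD f
  exact ⟨g.comp Abelianization.of, hg⟩

theorem hom_eq_on_commutator {G : Type u} [Group G] {X : Type w} [Group X]
    {Q : Type v} [Group Q] (ξ : X →* Q) (hc : ξ.ker ≤ Subgroup.center X) (f g : G →* X)
    (h : ξ.comp f = ξ.comp g) (x : G) (hx : x ∈ commutator G) : f x = g x := by
  have hz : ∀ x, (g x)⁻¹ * f x ∈ Subgroup.center X := by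
    intro x
    apply hc
    have h1 : ξ (f x) = ξ (g x) := DFunLike.congr_fun h x
    rw [MonoidHom.mem_ker, map_mul, map_inv, h1, inv_mul_cancel]
  let δ : G →* X :=
    { toFun := fun x => (g x)⁻¹ * f x
      map_one' := by simp
      map_mul' := by
        intro x y
        have h1 := mul_comm_of_center (hz x) (g y)⁻¹
        rw [map_mul, map_mul, mul_inv_rev]
        calc (g y)⁻¹ * (g x)⁻¹ * (f x * f y) = (g y)⁻¹ * ((g x)⁻¹ * f x) * f y := by group
          _ = (g x)⁻¹ * f x * (g y)⁻¹ * f y := by rw [h1]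
          _ = _ := by group }
  have hδ : commutator G ≤ δ.ker := by
    rw [commutator_def, Subgroup.commutator_le]
    intro a _ b _
    rw [MonoidHom.mem_ker, map_commutatorElement]
    exact (commutatorElement_eq_one_iff_mul_comm).mpr (mul_comm_of_center (hz b) _)
  have h2 : (g x)⁻¹ * f x = 1 := hδ hx
  exact (inv_mul_eq_one.mp h2).symm

theorem smMap_canonical {F : Type u} [Group F] {Q : Type v} [Group Q] (φ : F →* Q)
    {X : Type w} [Group X] (ξ : X →* Q) (hc : ξ.ker ≤ Subgroup.center X)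
    (η η' : CE φ →* X) (h : ξ.comp η = pr φ) (h' : ξ.comp η' = pr φ) :
    smMap φ ξ η h = smMap φ ξ η' h' := by
  ext x
  exact hom_eq_on_commutator ξ hc η η' (h.trans h'.symm) x.1 x.2.2

theorem center_GL_divisible (n : ℕ) (d : Subgroup.center (GL (Fin n) ℂ)) (k : ℕ) (hk : k ≠ 0) :
    ∃ e : Subgroup.center (GL (Fin n) ℂ), e ^ k = d := by
  obtain ⟨d, hd⟩ := d
  have hd' := hd
  rw [Matrix.GeneralLinearGroup.center_eq_range_scalar] at hd'
  obtain ⟨c, rfl⟩ := hd'
  obtain ⟨z, hz⟩ := IsAlgClosed.exists_pow_nat_eq (c : ℂ) (Nat.pos_of_ne_zero hk)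
  have hz0 : z ≠ 0 := by
    rintro rfl
    rw [zero_pow hk] at hz
    exact c.ne_zero hz.symm
  refine ⟨⟨Matrix.GeneralLinearGroup.scalar (Fin n) (Units.mk0 z hz0), ?_⟩, ?_⟩
  · rw [Matrix.GeneralLinearGroup.center_eq_range_scalar]; exact ⟨_, rfl⟩
  · apply Subtype.ext
    show (Matrix.GeneralLinearGroup.scalar (Fin n) (Units.mk0 z hz0)) ^ k = _
    rw [← map_pow]
    congr 1
    ext
    exact hz

theorem smMap_injective_of_card {F : Type u} [Group F] [IsFreeGroup F] [Group.FG F]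
    {Q : Type v} [Group Q] [Finite Q]
    (φ : F →* Q) (hφ : Function.Surjective φ)
    {Γ : Type w} [Group Γ] (σ : Γ →* Q) (hσ : Cfsg.IsStemExtension σ)
    (e : Nonempty (σ.ker ≃* SM φ)) (η : CE φ →* Γ) (hη : σ.comp η = pr φ) :
    Function.Injective (smMap φ σ η hη) := by
  obtain ⟨e⟩ := e
  have hs := smMap_surjective φ hφ σ hσ η hη
  have hf : Finite σ.ker := Finite.of_equiv _ e.symm.toEquiv
  exact ((Nat.bijective_iff_surjective_and_card _).mpr
    ⟨hs, (Nat.card_congr e.toEquiv).symm⟩).1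

/-- projective representations lift to Schur covers -/
theorem exists_lift_of_cover {Q : Type u} [Group Q] [Finite Q]
    {Γ : Type v} [Group Γ] (σ : Γ →* Q) (hσ : Cfsg.IsStemExtension σ)
    (hk : Nonempty (σ.ker ≃* SM (canPres Q))) (n : ℕ)
    (γ : Q →* (GL (Fin n) ℂ ⧸ Subgroup.center (GL (Fin n) ℂ))) :
    ∃ ρ : Γ →* GL (Fin n) ℂ,
      (QuotientGroup.mk' (Subgroup.center (GL (Fin n) ℂ))).comp ρ = γ.comp σ := by
  let φ := canPres Q
  have hφ : Function.Surjective φ := canPres_surjective Q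
  obtain ⟨η, hη⟩ := exists_ceLift φ σ hσ.1 hσ.2.1
  have hinj := smMap_injective_of_card φ hφ σ hσ hk η hη
  have hηs := surjective_of_isStem (pr φ) (pr_surjective φ hφ) σ hσ η hη
  -- the pull-back
  let Z := Subgroup.center (GL (Fin n) ℂ)
  let E : Subgroup (Q × GL (Fin n) ℂ) :=
    { carrier := {x | γ x.1 = QuotientGroup.mk' Z x.2}
      mul_mem' := by
        intro a b ha hb
        show γ (a.1 * b.1) = QuotientGroup.mk' Z (a.2 * b.2)
        rw [map_mul, map_mul, ha, hb]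
      one_mem' := by
        show γ 1 = QuotientGroup.mk' Z 1
        rw [map_one, map_one]
      inv_mem' := by
        intro a ha
        show γ a.1⁻¹ = QuotientGroup.mk' Z a.2⁻¹
        rw [map_inv, map_inv, ha] }
  let ξ : E →* Q := (MonoidHom.fst Q (GL (Fin n) ℂ)).comp E.subtype
  have hξ : Function.Surjective ξ := by
    intro q
    obtain ⟨g, hg⟩ := QuotientGroup.mk'_surjective Z (γ q)
    exact ⟨⟨(q, g), hg.symm⟩, rfl⟩
  have hc : ξ.ker ≤ Subgroup.center E := by
    rintro ⟨⟨q, g⟩, hx⟩ h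
    have h1 : q = 1 := h
    subst h1
    have h2 : g ∈ Z := by
      have h3 : γ 1 = QuotientGroup.mk' Z g := hx
      rw [map_one] at h3
      exact (QuotientGroup.eq_one_iff g).mp h3.symm
    rw [Subgroup.mem_center_iff]
    rintro ⟨⟨q', g'⟩, hx'⟩
    apply Subtype.ext
    apply Prod.ext
    · show q' * 1 = 1 * q'; simp
    · exact Subgroup.mem_center_iff.mp h2 g'
  obtain ⟨η', hη'⟩ := exists_ceLift φ ξ hξ hc
  let ρ₀ : CE φ →* GL (Fin n) ℂ := ((MonoidHom.snd Q (GL (Fin n) ℂ)).comp E.subtype).comp η'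
  have hρ₀ : ∀ x, QuotientGroup.mk' Z (ρ₀ x) = γ (pr φ x) := by
    intro x
    have h1 : γ (η' x).1.1 = QuotientGroup.mk' Z (η' x).1.2 := (η' x).2
    have h2 : (η' x).1.1 = pr φ x := DFunLike.congr_fun hη' x
    rw [← h2, h1]; rfl
  let S := η.ker
  have hSk : ∀ s ∈ S, s ∈ (pr φ).ker := by
    intro s hs
    rw [MonoidHom.mem_ker, ← hη]
    show σ (η s) = 1
    rw [MonoidHom.mem_ker.mp hs, map_one]
  have hS : S ⊓ commutator (CE φ) = ⊥ := by
    rw [Subgroup.eq_bot_iff_forall]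
    rintro x ⟨hx1, hx2⟩
    have h1 : (⟨x, hSk x hx1, hx2⟩ : SM φ) = 1 := by
      apply hinj
      rw [map_one]
      apply Subtype.ext
      exact hx1
    exact congrArg Subtype.val h1
  let f : S →* Z := (ρ₀.comp S.subtype).codRestrict Z (by
    rintro ⟨s, hs⟩
    have h1 := hρ₀ s
    rw [MonoidHom.mem_ker.mp (hSk s hs), map_one] at h1
    exact (QuotientGroup.eq_one_iff _).mp h1)
  let _ : CommGroup (Subgroup.center (GL (Fin n) ℂ)) :=
    { (inferInstance : Group (Subgroup.center (GL (Fin n) ℂ))) with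
      mul_comm := fun a b => Subtype.ext (((Subgroup.mem_center_iff.mp a.2) b.1).symm) }
  obtain ⟨g, hg⟩ := exists_extension_of_inf_commutator (D := Subgroup.center (GL (Fin n) ℂ))
    S hS (center_GL_divisible n) f
  let ρ₁ : CE φ →* GL (Fin n) ℂ :=
    { toFun := fun x => ρ₀ x * ((g x)⁻¹ : Z).1
      map_one' := by simp
      map_mul' := by
        intro x y
        rw [map_mul, map_mul, mul_inv]
        show ρ₀ x * ρ₀ y * (((g x)⁻¹ : Z).1 * ((g y)⁻¹ : Z).1) = _
        have h1 := mul_comm_of_center ((g x)⁻¹ : Z).2 (ρ₀ y)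
        calc ρ₀ x * ρ₀ y * (((g x)⁻¹ : Z).1 * ((g y)⁻¹ : Z).1)
            = ρ₀ x * (ρ₀ y * ((g x)⁻¹ : Z).1) * ((g y)⁻¹ : Z).1 := by simp only [mul_assoc]
          _ = ρ₀ x * (((g x)⁻¹ : Z).1 * ρ₀ y) * ((g y)⁻¹ : Z).1 := by rw [h1]
          _ = _ := by simp only [mul_assoc] }
  have hρ₁ : η.ker ≤ ρ₁.ker := by
    intro s hs
    have h1 := hg ⟨s, hs⟩
    show ρ₀ s * ((g s)⁻¹ : Z).1 = 1
    have h2 : g s = f ⟨s, hs⟩ := h1
    rw [h2]
    show ρ₀ s * (ρ₀ s)⁻¹ = 1
    rw [mul_inv_cancel]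
  refine ⟨η.liftOfSurjective hηs ⟨ρ₁, hρ₁⟩, ?_⟩
  ext y
  obtain ⟨x, rfl⟩ := hηs y
  show QuotientGroup.mk' Z (η.liftOfSurjective hηs ⟨ρ₁, hρ₁⟩ (η x)) = γ (σ (η x))
  have h1 : η.liftOfSurjective hηs ⟨ρ₁, hρ₁⟩ (η x) = ρ₁ x :=
    MonoidHom.liftOfRightInverse_comp_apply _ _ _ ⟨ρ₁, hρ₁⟩ x
  have h2 : σ (η x) = pr φ x := DFunLike.congr_fun hη x
  rw [h1, h2, ← hρ₀]
  show QuotientGroup.mk' Z (ρ₀ x * ((g x)⁻¹ : Z).1) = _
  rw [map_mul]
  have h3 : QuotientGroup.mk' Z ((g x)⁻¹ : Z).1 = 1 :=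
    (QuotientGroup.eq_one_iff _).mpr ((g x)⁻¹ : Z).2
  rw [h3, mul_one]

section Induced

variable {C : Type u} [Group C] (K : Subgroup C) (lam : K →* ℂˣ)

/-- functions with `f (k x) = λ k f x` -/
def Vlam : Submodule ℂ (C → ℂ) where
  carrier := {f | ∀ (k : K) (x : C), f (k.1 * x) = (lam k : ℂ) * f x}
  add_mem' := by
    intro a b ha hb k x
    show a _ + b _ = _ * (a x + b x)
    rw [ha, hb, mul_add]
  zero_mem' := by intro k x; show (0 : ℂ) = _ * 0; simp
  smul_mem' := by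
    intro c a ha k x
    show c * a _ = _ * (c * a x)
    rw [ha]; ring

/-- right translation on `Vlam` -/
def repLam : C →* (Vlam K lam →ₗ[ℂ] Vlam K lam) where
  toFun c :=
    { toFun := fun f => ⟨fun x => f.1 (x * c), by
        intro k x
        show f.1 (k.1 * x * c) = _ * f.1 (x * c)
        rw [mul_assoc]; exact f.2 k (x * c)⟩
      map_add' := by intro f g; rfl
      map_smul' := by intro a f; rfl }
  map_one' := by
    ext f x
    show f.1 (x * 1) = f.1 x
    rw [mul_one]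
  map_mul' a b := by
    ext f x
    show f.1 (x * (a * b)) = f.1 (x * a * b)
    rw [mul_assoc]

theorem repLam_central (hK : K ≤ Subgroup.center C) (k : K) :
    repLam K lam k.1 = (lam k : ℂ) • LinearMap.id := by
  ext f x
  show f.1 (x * k.1) = (lam k : ℂ) * f.1 x
  rw [← f.2 k x, Subgroup.mem_center_iff.mp (hK k.2) x]

open Classical in
theorem Vlam_ne_bot : ∃ f : Vlam K lam, f ≠ 0 := by
  refine ⟨⟨fun x => if h : x ∈ K then ((lam ⟨x, h⟩ : ℂˣ) : ℂ) else 0, ?_⟩, ?_⟩
  · intro k x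
    show (if h : k.1 * x ∈ K then ((lam ⟨k.1 * x, h⟩ : ℂˣ) : ℂ) else 0) =
      (lam k : ℂ) * (if h : x ∈ K then ((lam ⟨x, h⟩ : ℂˣ) : ℂ) else 0)
    by_cases h : x ∈ K
    · have h' : k.1 * x ∈ K := mul_mem k.2 h
      rw [dif_pos h, dif_pos h', ← Units.val_mul, ← map_mul]
      rfl
    · have h' : k.1 * x ∉ K := by
        intro h'
        apply h
        have := mul_mem (inv_mem k.2) h'
        simpa using this
      rw [dif_neg h, dif_neg h', mul_zero]
  · intro h
    have h1 := congrFun (congrArg Subtype.val h) 1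
    have h2 : (if h : (1 : C) ∈ K then ((lam ⟨1, h⟩ : ℂˣ) : ℂ) else 0) = 0 := h1
    rw [dif_pos (one_mem K)] at h2
    exact Units.ne_zero _ h2

theorem exists_rep_of_central [Finite C] (hK : K ≤ Subgroup.center C) :
    ∃ (n : ℕ) (_ : n ≠ 0) (ρ : C →* GL (Fin n) ℂ),
      ∀ k : K, ρ k.1 = Matrix.GeneralLinearGroup.scalar (Fin n) (lam k) := by
  classical
  have := Fintype.ofFinite C
  let V := Vlam K lam
  have hfd : FiniteDimensional ℂ V := inferInstance
  obtain ⟨f, hf⟩ := Vlam_ne_bot K lam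
  have hnt : Nontrivial V := ⟨⟨f, 0, hf⟩⟩
  let b := Module.finBasis ℂ V
  let ρ : C →* Matrix (Fin (Module.finrank ℂ V)) (Fin (Module.finrank ℂ V)) ℂ :=
    ((LinearMap.toMatrixAlgEquiv b : (V →ₗ[ℂ] V) ≃ₐ[ℂ] _) : (V →ₗ[ℂ] V) →* _).comp
      (repLam K lam)
  refine ⟨Module.finrank ℂ V, Module.finrank_pos.ne', ρ.toHomUnits, ?_⟩
  intro k
  ext i j
  have h1 : ((ρ.toHomUnits k.1 : GL (Fin (Module.finrank ℂ V)) ℂ) :
      Matrix (Fin (Module.finrank ℂ V)) (Fin (Module.finrank ℂ V)) ℂ) =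
      LinearMap.toMatrixAlgEquiv b (repLam K lam k.1) := rfl
  rw [h1, repLam_central K lam hK k, map_smul]
  have h2 : LinearMap.toMatrixAlgEquiv b (LinearMap.id : V →ₗ[ℂ] V) = 1 :=
    LinearMap.toMatrixAlgEquiv_id b
  rw [h2]
  simp [Matrix.GeneralLinearGroup.scalar, Matrix.one_apply, Matrix.diagonal_apply]

end Induced

/-- a stem extension to which all projective representations lift is a Schur cover -/
theorem smMap_injective_of_lift {Q : Type u} [Group Q] [Finite Q]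
    {Γ : Type v} [Group Γ] (σ : Γ →* Q)
    (hlift : ∀ (n : ℕ) (γ : Q →* (GL (Fin n) ℂ ⧸ Subgroup.center (GL (Fin n) ℂ))),
      ∃ ρ : Γ →* GL (Fin n) ℂ,
        (QuotientGroup.mk' (Subgroup.center (GL (Fin n) ℂ))).comp ρ = γ.comp σ)
    (η : CE (canPres Q) →* Γ) (hη : σ.comp η = pr (canPres Q)) :
    Function.Injective (smMap (canPres Q) σ η hη) := by
  let φ := canPres Q
  have hφ : Function.Surjective φ := canPres_surjective Q
  rw [injective_iff_map_eq_one]
  intro s hs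
  by_contra hne
  obtain ⟨S, hS, h1, h2⟩ := exists_complement_ker φ (pr φ).ker le_rfl
    (sup_eq_right.mpr inf_le_left)
  have := normal_of_le_ker φ hS
  have hfin := finite_cover φ S hS h1 h2
  let σC := coverHom φ S hS
  have hst := coverHom_isStem φ hφ S hS h2
  let e := coverKerEquiv φ S hS h1 h2
  let _ : CommGroup σC.ker :=
    { (inferInstance : Group σC.ker) with
      mul_comm := fun a b => Subtype.ext
        (((Subgroup.mem_center_iff.mp (hst.2.1 a.2)) b.1).symm) }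
  have hes : e s ≠ 1 := by
    intro h; apply hne
    apply e.injective; rw [h, map_one]
  have : NeZero (Monoid.exponent σC.ker) := ⟨Monoid.exponent_ne_zero_of_finite⟩
  obtain ⟨lam, hlam⟩ := CommGroup.exists_apply_ne_one_of_hasEnoughRootsOfUnity σC.ker ℂ hes
  obtain ⟨n, hn, ρ, hρ⟩ := exists_rep_of_central σC.ker lam hst.2.1
  let Z := Subgroup.center (GL (Fin n) ℂ)
  have hker : σC.ker ≤ ((QuotientGroup.mk' Z).comp ρ).ker := by
    intro k hk
    rw [MonoidHom.mem_ker]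
    show QuotientGroup.mk' Z (ρ k) = 1
    rw [hρ ⟨k, hk⟩]
    apply (QuotientGroup.eq_one_iff _).mpr
    show _ ∈ Subgroup.center (GL (Fin n) ℂ)
    rw [Matrix.GeneralLinearGroup.center_eq_range_scalar]
    exact ⟨_, rfl⟩
  let γ : Q →* (GL (Fin n) ℂ ⧸ Z) := σC.liftOfSurjective hst.1 ⟨(QuotientGroup.mk' Z).comp ρ, hker⟩
  have hγ : ∀ c, γ (σC c) = QuotientGroup.mk' Z (ρ c) := fun c =>
    MonoidHom.liftOfRightInverse_comp_apply _ _ _ ⟨(QuotientGroup.mk' Z).comp ρ, hker⟩ c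
  obtain ⟨ρ', hρ'⟩ := hlift n γ
  have h3 : (QuotientGroup.mk' Z).comp (ρ'.comp η) =
      (QuotientGroup.mk' Z).comp (ρ.comp (QuotientGroup.mk' S)) := by
    apply MonoidHom.ext
    intro x
    show QuotientGroup.mk' Z (ρ' (η x)) = QuotientGroup.mk' Z (ρ (QuotientGroup.mk x))
    have h4 : QuotientGroup.mk' Z (ρ' (η x)) = γ (σ (η x)) :=
      DFunLike.congr_fun hρ' _
    have h5 : σ (η x) = pr φ x := DFunLike.congr_fun hη _
    rw [h4, h5, ← hγ]
    rfl
  have h6 := hom_eq_on_commutator (QuotientGroup.mk' Z) (by rw [QuotientGroup.ker_mk'])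
    (ρ'.comp η) (ρ.comp (QuotientGroup.mk' S)) h3 s.1 s.2.2
  have h7 : η s.1 = 1 := congrArg Subtype.val hs
  have h8 : ρ' (η s.1) = ρ (e s).1 := h6
  rw [h7, map_one, hρ] at h8
  apply hlam
  have h9 := congrArg (fun g : GL (Fin n) ℂ => (g : Matrix (Fin n) (Fin n) ℂ) ⟨0, Nat.pos_of_ne_zero hn⟩
    ⟨0, Nat.pos_of_ne_zero hn⟩) h8
  ext
  have h10 : (1 : ℂ) = ((lam (e s) : ℂˣ) : ℂ) := by
    simpa [Matrix.GeneralLinearGroup.scalar] using h9
  exact h10.symm

theorem surj_of_lift {Q : Type u} [Group Q] [Finite Q] {Γ : Type v} [Group Γ]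
    (σ : Γ →* Q) (hσ : Cfsg.IsStemExtension σ)
    (hlift : ∀ (n : ℕ) (γ : Q →* (GL (Fin n) ℂ ⧸ Subgroup.center (GL (Fin n) ℂ))),
      ∃ ρ : Γ →* GL (Fin n) ℂ,
        (QuotientGroup.mk' (Subgroup.center (GL (Fin n) ℂ))).comp ρ = γ.comp σ)
    {Δ : Type w} [Group Δ] (τ : Δ →* Q) (hτ : Cfsg.IsStemExtension τ) :
    ∃ π : σ.ker →* τ.ker, Function.Surjective π := by
  let φ := canPres Q
  have hφ : Function.Surjective φ := canPres_surjective Q
  obtain ⟨η, hη⟩ := exists_ceLift φ σ hσ.1 hσ.2.1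
  obtain ⟨η', hη'⟩ := exists_ceLift φ τ hτ.1 hτ.2.1
  let e1 := MulEquiv.ofBijective (smMap φ σ η hη) ⟨smMap_injective_of_lift σ hlift η hη,
    smMap_surjective φ hφ σ hσ η hη⟩
  exact ⟨(smMap φ τ η' hη').comp e1.symm.toMonoidHom,
    (smMap_surjective φ hφ τ hτ η' hη').comp e1.symm.surjective⟩

end Cfsg.Agent.H15.Schur
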