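import Mathlib
import Cfsg.Agent.H15.Schur5

/-! # Kuenneth formula for Schur multipliers -/

set_option autoImplicit false

universe u v w w' w''

open scoped commutatorElement TensorProduct

namespace Cfsg.Agent.H15.Schur

section Tw

variable {G₁ : Type u} {G₂ : Type v} {T : Type w} [Group G₁] [Group G₂] [CommGroup T]

/-- bimultiplicative maps -/
structure Bimul (β : G₁ → G₂ → T) : Prop where
  left : ∀ a a' b, β (a * a') b = β a b * β a' b
  right : ∀ a b b', β a (b * b') = β a b * β a b'

theorem Bimul.one_left {β : G₁ → G₂ → T} (h : Bimul β) (b : G₂) : β 1 b = 1 := by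
  have := h.left 1 1 b
  rw [mul_one] at this
  exact left_eq_mul.mp this

theorem Bimul.one_right {β : G₁ → G₂ → T} (h : Bimul β) (a : G₁) : β a 1 = 1 := by
  have := h.right a 1 1
  rw [mul_one] at this
  exact left_eq_mul.mp this

theorem Bimul.inv_left {β : G₁ → G₂ → T} (h : Bimul β) (a : G₁) (b : G₂) :
    β a⁻¹ b = (β a b)⁻¹ := by
  have := h.left a⁻¹ a b
  rw [inv_mul_cancel, h.one_left] at this
  exact eq_inv_of_mul_eq_one_left this.symm

/-- the twisted product -/
@[ext] structure Tw (β : G₁ → G₂ → T) (h : Bimul β) where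
  /-- first component -/
  fst : G₁
  /-- second component -/
  snd : G₂
  /-- third component -/
  thd : T

variable {β : G₁ → G₂ → T} {h : Bimul β}

instance instMulTw : Mul (Tw β h) :=
  ⟨fun x y => ⟨x.fst * y.fst, x.snd * y.snd, x.thd * y.thd * β y.fst x.snd⟩⟩

instance instOneTw : One (Tw β h) := ⟨⟨1, 1, 1⟩⟩

instance instInvTw : Inv (Tw β h) :=
  ⟨fun x => ⟨x.fst⁻¹, x.snd⁻¹, x.thd⁻¹ * β x.fst x.snd⟩⟩

theorem tw_mul_def (x y : Tw β h) :
    x * y = ⟨x.fst * y.fst, x.snd * y.snd, x.thd * y.thd * β y.fst x.snd⟩ := rfl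

@[simp] theorem tw_mul_fst (x y : Tw β h) : (x * y).fst = x.fst * y.fst := rfl
@[simp] theorem tw_mul_snd (x y : Tw β h) : (x * y).snd = x.snd * y.snd := rfl
@[simp] theorem tw_mul_thd (x y : Tw β h) : (x * y).thd = x.thd * y.thd * β y.fst x.snd := rfl
@[simp] theorem tw_one_fst : (1 : Tw β h).fst = 1 := rfl
@[simp] theorem tw_one_snd : (1 : Tw β h).snd = 1 := rfl
@[simp] theorem tw_one_thd : (1 : Tw β h).thd = 1 := rfl

instance instGroupTw : Group (Tw β h) :=
  Group.ofLeftAxioms
    (by
      intro x y z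
      ext
      · simp [mul_assoc]
      · simp [mul_assoc]
      · simp only [tw_mul_thd, tw_mul_fst, tw_mul_snd, h.left, h.right]
        simp only [mul_comm, mul_left_comm])
    (by
      intro x
      ext
      · simp
      · simp
      · simp [h.one_right])
    (by
      intro x
      ext
      · show x.fst⁻¹ * x.fst = 1; simp
      · show x.snd⁻¹ * x.snd = 1; simp
      · show x.thd⁻¹ * β x.fst x.snd * x.thd * β x.fst x.snd⁻¹ = 1
        have h1 : β x.fst x.snd * β x.fst x.snd⁻¹ = 1 := by
          rw [← h.right, mul_inv_cancel, h.one_right]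
        calc x.thd⁻¹ * β x.fst x.snd * x.thd * β x.fst x.snd⁻¹
            = (x.thd⁻¹ * x.thd) * (β x.fst x.snd * β x.fst x.snd⁻¹) := by
              simp only [mul_assoc, mul_comm, mul_left_comm]
          _ = 1 := by rw [h1, inv_mul_cancel, mul_one])

/-- first projection -/
def twFst : Tw β h →* G₁ where
  toFun x := x.fst
  map_one' := rfl
  map_mul' _ _ := rfl

/-- second projection -/
def twSnd : Tw β h →* G₂ where
  toFun x := x.snd
  map_one' := rfl
  map_mul' _ _ := rfl

/-- first inclusion -/
def twInl : G₁ →* Tw β h where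
  toFun a := ⟨a, 1, 1⟩
  map_one' := rfl
  map_mul' a b := by
    ext
    · rfl
    · simp
    · simp [h.one_right]

/-- second inclusion -/
def twInr : G₂ →* Tw β h where
  toFun a := ⟨1, a, 1⟩
  map_one' := rfl
  map_mul' a b := by
    ext
    · simp
    · rfl
    · simp [h.one_left]

/-- third inclusion -/
def twInt : T →* Tw β h where
  toFun a := ⟨1, 1, a⟩
  map_one' := rfl
  map_mul' a b := by
    ext
    · simp
    · simp
    · simp [h.one_left]

theorem tw_eq (a : G₁) (b : G₂) (t : T) :
    (⟨a, b, t⟩ : Tw β h) = twInl a * twInr b * twInt t := by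
  ext
  · simp [twInl, twInr, twInt]
  · simp [twInl, twInr, twInt]
  · simp [twInl, twInr, twInt, h.one_left]

theorem tw_comm (a : G₁) (b : G₂) :
    (twInr b * twInl a : Tw β h) = twInl a * twInr b * twInt (β a b) := by
  ext
  · simp [twInl, twInr, twInt]
  · simp [twInl, twInr, twInt]
  · simp [twInl, twInr, twInt, h.one_left]

theorem tw_finite [Finite G₁] [Finite G₂] [Finite T] : Finite (Tw β h) := by
  have : Function.Injective (fun x : Tw β h => (x.fst, x.snd, x.thd)) := by
    intro x y hxy
    simp only [Prod.mk.injEq] at hxy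
    exact Tw.ext hxy.1 hxy.2.1 hxy.2.2
  exact Finite.of_injective _ this

theorem commutator_map_le {A : Type u} {B : Type v} [Group A] [Group B] (f : A →* B) (x : A)
    (hx : x ∈ commutator A) : f x ∈ commutator B := by
  have h1 : (commutator A).map f ≤ commutator B := by
    rw [commutator_def, Subgroup.map_commutator]
    exact Subgroup.commutator_mono le_top le_top
  exact h1 ⟨x, hx, rfl⟩

theorem commutator_map_le' {A : Type u} {B : Type v} [Group A] [Group B] (f : A →* B) (x : A)
    (hx : x ∈ commutator A) : f x ∈ commutator B := commutator_map_le f x hx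

theorem twInt_mem_commutator (a : G₁) (b : G₂) :
    (twInt (β a b) : Tw β h) ∈ commutator (Tw β h) := by
  have h1 := tw_comm (h := h) a b
  have h2 : (twInt (β a b) : Tw β h) =
      ⁅((twInr b : Tw β h))⁻¹, ((twInl a : Tw β h))⁻¹⁆ := by
    rw [commutatorElement_def, inv_inv, inv_inv]
    have h4 : (twInt (β a b) : Tw β h) = ((twInl a : Tw β h) * twInr b)⁻¹ *
        ((twInr b : Tw β h) * twInl a) := by
      rw [h1]; group
    rw [h4, mul_inv_rev]; group
  rw [h2, commutator_def]
  exact Subgroup.commutator_mem_commutator trivial trivial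

end Tw

section TwStem

variable {G₁ : Type u} {G₂ : Type v} {T : Type w} [Group G₁] [Group G₂] [CommGroup T]
  {β : G₁ → G₂ → T} {h : Bimul β}
variable {Q₁ : Type w'} {Q₂ : Type w''} [Group Q₁] [Group Q₂] (σ₁ : G₁ →* Q₁) (σ₂ : G₂ →* Q₂)

/-- the projection -/
def twProj : Tw β h →* Q₁ × Q₂ := (σ₁.comp twFst).prod (σ₂.comp twSnd)

theorem twProj_surjective (h1 : Function.Surjective σ₁) (h2 : Function.Surjective σ₂) :
    Function.Surjective (twProj (h := h) σ₁ σ₂) := by
  rintro ⟨q1, q2⟩
  obtain ⟨a, rfl⟩ := h1 q1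
  obtain ⟨b, rfl⟩ := h2 q2
  exact ⟨⟨a, b, 1⟩, rfl⟩

theorem mem_ker_twProj (x : Tw β h) :
    x ∈ (twProj (h := h) σ₁ σ₂).ker ↔ x.fst ∈ σ₁.ker ∧ x.snd ∈ σ₂.ker := by
  rw [MonoidHom.mem_ker, MonoidHom.mem_ker, MonoidHom.mem_ker]
  show (σ₁ x.fst, σ₂ x.snd) = (1, 1) ↔ _
  rw [Prod.mk.injEq]

theorem twProj_isStem (h1 : Cfsg.IsStemExtension σ₁) (h2 : Cfsg.IsStemExtension σ₂)
    (hl : ∀ a ∈ σ₁.ker, ∀ b, β a b = 1) (hr : ∀ a, ∀ b ∈ σ₂.ker, β a b = 1)
    (hgen : Subgroup.closure {t | ∃ a b, β a b = t} = ⊤) :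
    Cfsg.IsStemExtension (twProj (h := h) σ₁ σ₂) := by
  refine ⟨twProj_surjective σ₁ σ₂ h1.1 h2.1, ?_, ?_⟩
  · intro x hx
    rw [mem_ker_twProj] at hx
    rw [Subgroup.mem_center_iff]
    intro g
    ext
    · exact mul_comm_of_center (h1.2.1 hx.1) g.fst
    · exact mul_comm_of_center (h2.2.1 hx.2) g.snd
    · rw [tw_mul_thd, tw_mul_thd, hl _ hx.1, hr _ _ hx.2, mul_one, mul_one, mul_comm]
  · intro x hx
    rw [mem_ker_twProj] at hx
    have : x = twInl x.fst * twInr x.snd * twInt x.thd := tw_eq x.fst x.snd x.thd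
    rw [this]
    refine mul_mem (mul_mem ?_ ?_) ?_
    · exact commutator_map_le _ _ (h1.2.2 hx.1)
    · exact commutator_map_le _ _ (h2.2.2 hx.2)
    · have h3 : Subgroup.closure {t | ∃ a b, β a b = t} ≤
          (commutator (Tw β h)).comap twInt := by
        rw [Subgroup.closure_le]
        rintro _ ⟨a, b, rfl⟩
        exact twInt_mem_commutator a b
      exact h3 (by rw [hgen]; trivial)

/-- the kernel of the projection -/
def twKerEquiv (hl : ∀ a ∈ σ₁.ker, ∀ b, β a b = 1) :
    (twProj (h := h) σ₁ σ₂).ker ≃* σ₁.ker × σ₂.ker × T where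
  toFun x := (⟨x.1.fst, ((mem_ker_twProj σ₁ σ₂ x.1).mp x.2).1⟩,
    ⟨x.1.snd, ((mem_ker_twProj σ₁ σ₂ x.1).mp x.2).2⟩, x.1.thd)
  invFun y := ⟨⟨y.1.1, y.2.1.1, y.2.2⟩, (mem_ker_twProj σ₁ σ₂ _).mpr ⟨y.1.2, y.2.1.2⟩⟩
  left_inv x := rfl
  right_inv y := rfl
  map_mul' x y := by
    ext
    · rfl
    · rfl
    · show x.1.thd * y.1.thd * β y.1.fst x.1.snd = x.1.thd * y.1.thd
      rw [hl _ ((mem_ker_twProj σ₁ σ₂ y.1).mp y.2).1, mul_one]

end TwStem

section Pairing

variable (Q₁ : Type u) (Q₂ : Type v) [Group Q₁] [Group Q₂]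

/-- the tensor product of the abelianizations -/
abbrev Ten : Type (max u v) :=
  Multiplicative (TensorProduct ℤ (Additive (Abelianization Q₁)) (Additive (Abelianization Q₂)))

variable {Q₁ Q₂}

/-- the universal pairing -/
def tpair (a : Q₁) (b : Q₂) : Ten Q₁ Q₂ :=
  Multiplicative.ofAdd (Additive.ofMul (Abelianization.of a) ⊗ₜ[ℤ]
    Additive.ofMul (Abelianization.of b))

theorem tpair_bimul : Bimul (tpair : Q₁ → Q₂ → Ten Q₁ Q₂) := by
  constructor
  · intro a a' b
    unfold tpair
    rw [map_mul, ofMul_mul, TensorProduct.add_tmul]; rfl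
  · intro a b b'
    unfold tpair
    rw [map_mul, ofMul_mul, TensorProduct.tmul_add]; rfl

theorem tpair_closure : Subgroup.closure {t : Ten Q₁ Q₂ | ∃ a b, tpair a b = t} = ⊤ := by
  rw [eq_top_iff]
  suffices key : ∀ y : TensorProduct ℤ (Additive (Abelianization Q₁))
      (Additive (Abelianization Q₂)), Multiplicative.ofAdd y ∈
      Subgroup.closure {t : Ten Q₁ Q₂ | ∃ a b, tpair a b = t} from
    fun x _ => key x.toAdd
  intro y
  induction y using TensorProduct.induction_on with
  | zero => exact one_mem _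
  | tmul a b =>
    obtain ⟨a', ha'⟩ := QuotientGroup.mk_surjective (s := commutator Q₁) a.toMul
    obtain ⟨b', hb'⟩ := QuotientGroup.mk_surjective (s := commutator Q₂) b.toMul
    apply Subgroup.subset_closure
    refine ⟨a', b', ?_⟩
    unfold tpair
    have h1 : Additive.ofMul (Abelianization.of a') = a := by
      show Additive.ofMul (QuotientGroup.mk a') = a
      rw [ha']; rfl
    have h2 : Additive.ofMul (Abelianization.of b') = b := by
      show Additive.ofMul (QuotientGroup.mk b') = b
      rw [hb']; rfl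
    rw [h1, h2]
  | add a b ha hb => exact mul_mem ha hb

theorem ten_finite [Finite Q₁] [Finite Q₂] : Finite (Ten Q₁ Q₂) := by
  have : Finite (Abelianization Q₁) := inferInstance
  have h1 : Module.Finite ℤ (Additive (Abelianization Q₁)) := inferInstance
  have h2 : Module.Finite ℤ (Additive (Abelianization Q₂)) := inferInstance
  have h3 : Module.Finite ℤ (TensorProduct ℤ (Additive (Abelianization Q₁))
    (Additive (Abelianization Q₂))) := Module.Finite.tensorProduct _ _ _
  have h4 : Finite (TensorProduct ℤ (Additive (Abelianization Q₁))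
    (Additive (Abelianization Q₂))) := by
    apply Module.finite_of_fg_torsion
    intro x
    have hn : (Nat.card (Abelianization Q₁) : ℤ) ≠ 0 := by exact_mod_cast Nat.card_pos.ne'
    refine ⟨⟨(Nat.card (Abelianization Q₁) : ℤ), mem_nonZeroDivisors_of_ne_zero hn⟩, ?_⟩
    show (Nat.card (Abelianization Q₁) : ℤ) • x = 0
    induction x using TensorProduct.induction_on with
    | zero => rw [smul_zero]
    | tmul a b =>
      rw [TensorProduct.smul_tmul', natCast_zsmul]
      have : Nat.card (Abelianization Q₁) • a = 0 := by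
        have := pow_card_eq_one' (x := a.toMul)
        exact this
      rw [this, TensorProduct.zero_tmul]
    | add a b ha hb => rw [smul_add, ha, hb, add_zero]
  exact h4

theorem exists_ten_lift {K : Type w} [CommGroup K] (c : Q₁ → Q₂ → K) (hc : Bimul c) :
    ∃ f : Ten Q₁ Q₂ →* K, ∀ a b, f (tpair a b) = c a b := by
  -- hom Q₁ → Hom(Q₂ab, K)
  let c1 : Q₁ → (Abelianization Q₂ →* K) := fun a =>
    Abelianization.lift
      { toFun := c a
        map_one' := hc.one_right a
        map_mul' := hc.right a }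
  have hc1 : ∀ a b, c1 a (Abelianization.of b) = c a b := by
    intro a b
    exact Abelianization.lift_apply_of _ _
  let c2 : Q₁ →* (Abelianization Q₂ →* K) :=
    { toFun := c1
      map_one' := by
        apply Abelianization.hom_ext
        ext b
        show c1 1 (Abelianization.of b) = 1
        rw [hc1, hc.one_left]
      map_mul' := by
        intro a a'
        apply Abelianization.hom_ext
        ext b
        show c1 (a * a') (Abelianization.of b) = c1 a (Abelianization.of b) *
          c1 a' (Abelianization.of b)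
        rw [hc1, hc1, hc1, hc.left] }
  let c3 : Abelianization Q₁ →* (Abelianization Q₂ →* K) := Abelianization.lift c2
  have hc3 : ∀ a b, c3 (Abelianization.of a) (Abelianization.of b) = c a b := by
    intro a b
    have : c3 (Abelianization.of a) = c2 a := Abelianization.lift_apply_of _ _
    rw [this]
    exact hc1 a b
  let f3 : Additive (Abelianization Q₁) →+ (Additive (Abelianization Q₂) →+ Additive K) :=
    { toFun := fun a => MonoidHom.toAdditive (c3 a.toMul)
      map_zero' := by
        apply AddMonoidHom.ext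
        intro b
        show Additive.ofMul (c3 1 b.toMul) = 0
        rw [map_one]; rfl
      map_add' := by
        intro a a'
        apply AddMonoidHom.ext
        intro b
        show Additive.ofMul (c3 (a.toMul * a'.toMul) b.toMul) = _
        rw [map_mul]; rfl }
  let F := TensorProduct.liftAddHom (R := ℤ) f3 (by
    intro r m n
    rw [map_zsmul, map_zsmul]; rfl)
  refine ⟨AddMonoidHom.toMultiplicativeLeft F, ?_⟩
  intro a b
  have h1 : F (Additive.ofMul (Abelianization.of a) ⊗ₜ Additive.ofMul (Abelianization.of b)) =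
    f3 (Additive.ofMul (Abelianization.of a)) (Additive.ofMul (Abelianization.of b)) :=
    TensorProduct.liftAddHom_tmul _ _ _ _
  show (F (Additive.ofMul (Abelianization.of a) ⊗ₜ Additive.ofMul (Abelianization.of b))).toMul = _
  rw [h1]
  exact hc3 a b

end Pairing

end Cfsg.Agent.H15.Schur
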