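import Mathlib
import Cfsg.Agent.H15.Kunneth

/-! # Kuenneth formula for Schur multipliers, main theorem -/

set_option autoImplicit false

universe u v w w' w''

open scoped commutatorElement TensorProduct

namespace Cfsg.Agent.H15.Schur

theorem commutatorElement_mul_right_of_central {G : Type u} [Group G] (y x x' : G)
    (hz : ⁅y, x'⁆ ∈ Subgroup.center G) : ⁅y, x * x'⁆ = ⁅y, x⁆ * ⁅y, x'⁆ := by
  have h1 := mul_comm_of_center hz x
  calc ⁅y, x * x'⁆ = ⁅y, x⁆ * (x * ⁅y, x'⁆) * x⁻¹ := by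
        simp only [commutatorElement_def]; group
    _ = ⁅y, x⁆ * (⁅y, x'⁆ * x) * x⁻¹ := by rw [h1]
    _ = _ := by group

theorem commutatorElement_mul_left_of_central {G : Type u} [Group G] (y y' x : G)
    (hz : ⁅y', x⁆ ∈ Subgroup.center G) : ⁅y * y', x⁆ = ⁅y, x⁆ * ⁅y', x⁆ := by
  have h1 := mul_comm_of_center hz y
  have h2 := mul_comm_of_center hz ⁅y, x⁆
  calc ⁅y * y', x⁆ = (y * ⁅y', x⁆) * y⁻¹ * ⁅y, x⁆ := by
        simp only [commutatorElement_def]; group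
    _ = (⁅y', x⁆ * y) * y⁻¹ * ⁅y, x⁆ := by rw [h1]
    _ = ⁅y', x⁆ * ⁅y, x⁆ := by group
    _ = _ := by rw [h2]

theorem commutatorElement_central_right {G : Type u} [Group G] (y x z : G)
    (hz : z ∈ Subgroup.center G) : ⁅y, x * z⁆ = ⁅y, x⁆ := by
  have h1 : ⁅y, z⁆ = 1 := commutatorElement_eq_one_iff_mul_comm.mpr (mul_comm_of_center hz y)
  rw [commutatorElement_mul_right_of_central y x z (by rw [h1]; exact one_mem _), h1, mul_one]

theorem commutatorElement_central_left {G : Type u} [Group G] (y z x : G)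
    (hz : z ∈ Subgroup.center G) : ⁅y * z, x⁆ = ⁅y, x⁆ := by
  have h1 : ⁅z, x⁆ = 1 := commutatorElement_eq_one_iff_mul_comm.mpr (mul_comm_of_center hz x).symm
  rw [commutatorElement_mul_left_of_central y z x (by rw [h1]; exact one_mem _), h1, mul_one]

theorem bimul_comp {G₁ : Type u} {G₂ : Type v} {T : Type w} [Group G₁] [Group G₂] [CommGroup T]
    {Q₁ : Type w'} {Q₂ : Type w''} [Group Q₁] [Group Q₂] (σ₁ : G₁ →* Q₁) (σ₂ : G₂ →* Q₂)
    {β : Q₁ → Q₂ → T} (h : Bimul β) : Bimul (fun a b => β (σ₁ a) (σ₂ b)) := by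
  constructor
  · intro a a' b; simp only [map_mul, h.left]
  · intro a b b'; simp only [map_mul, h.right]

theorem kunneth {Q₁ : Type u} {Q₂ : Type v} [Group Q₁] [Group Q₂] [Finite Q₁] [Finite Q₂]
    {A : Type w} {B : Type w'} [CommGroup A] [CommGroup B] (hA : Cfsg.HasSchurMultiplier Q₁ A)
    (hB : Cfsg.HasSchurMultiplier Q₂ B) :
    Cfsg.HasSchurMultiplier (Q₁ × Q₂) (A × B × Ten Q₁ Q₂) := by
  constructor
  · obtain ⟨⟨Γ₁, i1, i2, σ₁, hσ₁, ⟨f₁⟩⟩, _⟩ := hA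
    obtain ⟨⟨Γ₂, j1, j2, σ₂, hσ₂, ⟨f₂⟩⟩, _⟩ := hB
    have hβ := bimul_comp σ₁ σ₂ (tpair_bimul (Q₁ := Q₁) (Q₂ := Q₂))
    have hfT : Finite (Ten Q₁ Q₂) := ten_finite
    have hl : ∀ a ∈ σ₁.ker, ∀ b : Γ₂, (tpair (σ₁ a) (σ₂ b) : Ten Q₁ Q₂) = 1 := by
      intro a ha b
      rw [MonoidHom.mem_ker.mp ha, tpair_bimul.one_left]
    refine ⟨Tw _ hβ, inferInstance, tw_finite, twProj σ₁ σ₂, ?_, ?_⟩
    · apply twProj_isStem σ₁ σ₂ hσ₁ hσ₂ hl
      · intro a b hb
        show (tpair (σ₁ a) (σ₂ b) : Ten Q₁ Q₂) = 1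
        rw [MonoidHom.mem_ker.mp hb, tpair_bimul.one_right]
      · rw [← tpair_closure]
        congr 1
        ext t
        constructor
        · rintro ⟨a, b, h⟩; exact ⟨_, _, h⟩
        · rintro ⟨a, b, h⟩
          obtain ⟨a, rfl⟩ := hσ₁.1 a
          obtain ⟨b, rfl⟩ := hσ₂.1 b
          exact ⟨a, b, h⟩
    · exact ⟨(twKerEquiv σ₁ σ₂ hl).trans (f₁.prodCongr (f₂.prodCongr (MulEquiv.refl _)))⟩
  · intro Δ _ _ τ hτ
    let φ₁ := canPres Q₁
    let φ₂ := canPres Q₂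
    have hφ₁ : Function.Surjective φ₁ := canPres_surjective Q₁
    have hφ₂ : Function.Surjective φ₂ := canPres_surjective Q₂
    obtain ⟨f₁⟩ := (hasSchurMultiplier_iff φ₁ hφ₁).mp hA
    obtain ⟨f₂⟩ := (hasSchurMultiplier_iff φ₂ hφ₂).mp hB
    let _ : CommGroup τ.ker :=
      { (inferInstance : Group τ.ker) with
        mul_comm := fun a b => Subtype.ext
          (((Subgroup.mem_center_iff.mp (hτ.2.1 a.2)) b.1).symm) }
    -- the two subgroups
    let Δ₁ := ((MonoidHom.snd Q₁ Q₂).comp τ).ker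
    let Δ₂ := ((MonoidHom.fst Q₁ Q₂).comp τ).ker
    let τ₁ : Δ₁ →* Q₁ := ((MonoidHom.fst Q₁ Q₂).comp τ).comp Δ₁.subtype
    let τ₂ : Δ₂ →* Q₂ := ((MonoidHom.snd Q₁ Q₂).comp τ).comp Δ₂.subtype
    have hτ₁ : Function.Surjective τ₁ := by
      intro q
      obtain ⟨x, hx⟩ := hτ.1 (q, 1)
      exact ⟨⟨x, by show (τ x).2 = 1; rw [hx]⟩, by show (τ x).1 = q; rw [hx]⟩
    have hτ₂ : Function.Surjective τ₂ := by
      intro q
      obtain ⟨x, hx⟩ := hτ.1 (1, q)
      exact ⟨⟨x, by show (τ x).1 = 1; rw [hx]⟩, by show (τ x).2 = q; rw [hx]⟩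
    have hc₁ : τ₁.ker ≤ Subgroup.center Δ₁ := by
      rintro ⟨x, hx⟩ h
      rw [Subgroup.mem_center_iff]
      rintro ⟨g, hg⟩
      apply Subtype.ext
      have h1 : x ∈ τ.ker := Prod.ext h hx
      exact mul_comm_of_center (hτ.2.1 h1) g
    have hc₂ : τ₂.ker ≤ Subgroup.center Δ₂ := by
      rintro ⟨x, hx⟩ h
      rw [Subgroup.mem_center_iff]
      rintro ⟨g, hg⟩
      apply Subtype.ext
      have h1 : x ∈ τ.ker := Prod.ext hx h
      exact mul_comm_of_center (hτ.2.1 h1) g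
    obtain ⟨η₁, hη₁⟩ := exists_ceLift φ₁ τ₁ hτ₁ hc₁
    obtain ⟨η₂, hη₂⟩ := exists_ceLift φ₂ τ₂ hτ₂ hc₂
    let e₁ : CE φ₁ →* Δ := Δ₁.subtype.comp η₁
    let e₂ : CE φ₂ →* Δ := Δ₂.subtype.comp η₂
    have he₁ : ∀ x, τ (e₁ x) = (pr φ₁ x, 1) := by
      intro x
      have h1 : (τ (e₁ x)).2 = 1 := (η₁ x).2
      have h2 : (τ (e₁ x)).1 = pr φ₁ x := DFunLike.congr_fun hη₁ x
      exact Prod.ext h2 h1
    have he₂ : ∀ x, τ (e₂ x) = (1, pr φ₂ x) := by
      intro x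
      have h1 : (τ (e₂ x)).1 = 1 := (η₂ x).2
      have h2 : (τ (e₂ x)).2 = pr φ₂ x := DFunLike.congr_fun hη₂ x
      exact Prod.ext h1 h2
    -- the pairing
    have hs₁ : ∀ a : Q₁, ∃ x : Δ, τ x = (a, 1) := fun a => hτ.1 _
    have hs₂ : ∀ b : Q₂, ∃ x : Δ, τ x = (1, b) := fun b => hτ.1 _
    choose s₁ hs₁ using hs₁
    choose s₂ hs₂ using hs₂
    have hcomm : ∀ (x y : Δ) (a : Q₁) (b : Q₂), τ x = (a, 1) → τ y = (1, b) → ⁅y, x⁆ ∈ τ.ker := by
      intro x y a b hx hy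
      rw [MonoidHom.mem_ker, map_commutatorElement, hx, hy, commutatorElement_eq_one_iff_mul_comm]
      ext <;> simp
    let c : Q₁ → Q₂ → τ.ker := fun a b => ⟨⁅s₂ b, s₁ a⁆, hcomm _ _ a b (hs₁ a) (hs₂ b)⟩
    have hc : ∀ (x y : Δ) (a : Q₁) (b : Q₂), τ x = (a, 1) → τ y = (1, b) → (c a b).1 = ⁅y, x⁆ := by
      intro x y a b hx hy
      have h1 : (s₁ a)⁻¹ * x ∈ τ.ker := by
        rw [MonoidHom.mem_ker, map_mul, map_inv, hs₁, hx, inv_mul_cancel]
      have h2 : (s₂ b)⁻¹ * y ∈ τ.ker := by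
        rw [MonoidHom.mem_ker, map_mul, map_inv, hs₂, hy, inv_mul_cancel]
      have h3 : x = s₁ a * ((s₁ a)⁻¹ * x) := by group
      have h4 : y = s₂ b * ((s₂ b)⁻¹ * y) := by group
      rw [h3, h4, commutatorElement_central_right _ _ _ (hτ.2.1 h1),
        commutatorElement_central_left _ _ _ (hτ.2.1 h2)]
    have hcb : Bimul c := by
      constructor
      · intro a a' b
        apply Subtype.ext
        have h1 := hc (s₁ a * s₁ a') (s₂ b) (a * a') b (by rw [map_mul, hs₁, hs₁]; ext <;> simp)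
          (hs₂ b)
        rw [h1, commutatorElement_mul_right_of_central _ _ _
          (hτ.2.1 (hcomm _ _ a' b (hs₁ a') (hs₂ b)))]
        rfl
      · intro a b b'
        apply Subtype.ext
        have h1 := hc (s₁ a) (s₂ b * s₂ b') a (b * b') (hs₁ a)
          (by rw [map_mul, hs₂, hs₂]; ext <;> simp)
        rw [h1, commutatorElement_mul_left_of_central _ _ _
          (hτ.2.1 (hcomm _ _ a b' (hs₁ a) (hs₂ b')))]
        rfl
    obtain ⟨h, hh⟩ := exists_ten_lift c hcb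
    have hβ := bimul_comp (pr φ₁) (pr φ₂) (tpair_bimul (Q₁ := Q₁) (Q₂ := Q₂))
    have hz : ∀ (t : Ten Q₁ Q₂) (g : Δ), g * (h t).1 = (h t).1 * g := fun t g =>
      mul_comm_of_center (hτ.2.1 (h t).2) g
    let Θ : Tw _ hβ →* Δ :=
      { toFun := fun x => e₁ x.fst * e₂ x.snd * (h x.thd).1
        map_one' := by
          show e₁ 1 * e₂ 1 * (h 1).1 = 1
          rw [map_one, map_one, map_one]; simp
        map_mul' := by
          intro x y
          show e₁ (x.fst * y.fst) * e₂ (x.snd * y.snd) *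
            (h (x.thd * y.thd * tpair (pr φ₁ y.fst) (pr φ₂ x.snd))).1 =
            e₁ x.fst * e₂ x.snd * (h x.thd).1 * (e₁ y.fst * e₂ y.snd * (h y.thd).1)
          rw [map_mul, map_mul, map_mul, map_mul, hh]
          have h1 := hc (e₁ y.fst) (e₂ x.snd) _ _ (he₁ y.fst) (he₂ x.snd)
          show e₁ x.fst * e₁ y.fst * (e₂ x.snd * e₂ y.snd) *
            ((h x.thd).1 * (h y.thd).1 * (c (pr φ₁ y.fst) (pr φ₂ x.snd)).1) = _
          have h2 := mul_comm_of_center (hτ.2.1 (c (pr φ₁ y.fst) (pr φ₂ x.snd)).2)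
          have h3 : e₂ x.snd * e₁ y.fst =
              (c (pr φ₁ y.fst) (pr φ₂ x.snd)).1 * (e₁ y.fst * e₂ x.snd) := by
            rw [h1, commutatorElement_def]; group
          generalize (c (pr φ₁ y.fst) (pr φ₂ x.snd)).1 = C at *
          generalize e₁ x.fst = a at *
          generalize e₁ y.fst = a' at *
          generalize e₂ x.snd = b at *
          generalize e₂ y.snd = b' at *
          have h4 := hz x.thd
          have h5 := hz y.thd
          generalize (h x.thd).1 = t at *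
          generalize (h y.thd).1 = t' at *
          calc a * a' * (b * b') * (t * t' * C) = a * (a' * b) * b' * t * t' * C := by
                simp only [mul_assoc]
            _ = C * (a * (a' * b) * b' * t * t') := by rw [h2]
            _ = (C * a) * (a' * b) * b' * t * t' := by simp only [mul_assoc]
            _ = (a * C) * (a' * b) * b' * t * t' := by rw [h2]
            _ = a * (C * (a' * b)) * b' * t * t' := by simp only [mul_assoc]
            _ = a * (b * a') * b' * t * t' := by rw [h3]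
            _ = a * b * ((a' * b') * t) * t' := by simp only [mul_assoc]
            _ = a * b * (t * (a' * b')) * t' := by rw [h4]
            _ = _ := by simp only [mul_assoc] }
    have hΘ : τ.comp Θ = twProj (pr φ₁) (pr φ₂) := by
      ext x
      · show (τ (e₁ x.fst * e₂ x.snd * (h x.thd).1)).1 = pr φ₁ x.fst
        rw [map_mul, map_mul, he₁, he₂, MonoidHom.mem_ker.mp (h x.thd).2]; simp
      · show (τ (e₁ x.fst * e₂ x.snd * (h x.thd).1)).2 = pr φ₂ x.snd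
        rw [map_mul, map_mul, he₁, he₂, MonoidHom.mem_ker.mp (h x.thd).2]; simp
    have hΘs : Function.Surjective Θ :=
      surjective_of_isStem (twProj (pr φ₁) (pr φ₂))
        (twProj_surjective _ _ (pr_surjective φ₁ hφ₁) (pr_surjective φ₂ hφ₂)) τ hτ Θ hΘ
    let k₁ : SM φ₁ →* τ.ker := (e₁.comp (SM φ₁).subtype).codRestrict τ.ker (by
      rintro ⟨x, hx⟩
      show τ (e₁ x) = 1
      rw [he₁, MonoidHom.mem_ker.mp hx.1]; rfl)
    let k₂ : SM φ₂ →* τ.ker := (e₂.comp (SM φ₂).subtype).codRestrict τ.ker (by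
      rintro ⟨x, hx⟩
      show τ (e₂ x) = 1
      rw [he₂, MonoidHom.mem_ker.mp hx.1]; rfl)
    refine ⟨(k₁.comp f₁.toMonoidHom).coprod ((k₂.comp f₂.toMonoidHom).coprod h), ?_⟩
    intro z
    have h1 : z.1 ∈ commutator Δ := hτ.2.2 z.2
    rw [← commutator_map_of_surjective Θ hΘs] at h1
    obtain ⟨x, hx, hxz⟩ := h1
    have h2 : x.fst ∈ commutator (CE φ₁) := commutator_map_le' twFst x hx
    have h3 : x.snd ∈ commutator (CE φ₂) := commutator_map_le' twSnd x hx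
    have h4 : τ (Θ x) = (pr φ₁ x.fst, pr φ₂ x.snd) := DFunLike.congr_fun hΘ x
    have h5 : τ (Θ x) = 1 := by rw [hxz]; exact z.2
    rw [h5] at h4
    have h6 : pr φ₁ x.fst = 1 := (congrArg Prod.fst h4).symm
    have h7 : pr φ₂ x.snd = 1 := (congrArg Prod.snd h4).symm
    refine ⟨(f₁.symm ⟨x.fst, h6, h2⟩, f₂.symm ⟨x.snd, h7, h3⟩, x.thd), ?_⟩
    apply Subtype.ext
    show (e₁ (f₁ (f₁.symm ⟨x.fst, h6, h2⟩)).1) * ((e₂ (f₂ (f₂.symm ⟨x.snd, h7, h3⟩)).1) *
      (h x.thd).1) = z.1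
    rw [f₁.apply_symm_apply, f₂.apply_symm_apply, ← mul_assoc, ← hxz]
    rfl

end Cfsg.Agent.H15.Schur
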