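import Mathlib
import Cfsg.Agent.H15.Kunneth2

/-! # Schur multipliers of abelian groups -/

set_option autoImplicit false

universe u v w w' w''

open scoped commutatorElement TensorProduct

namespace Cfsg.Agent.H15.Schur

theorem isStem_equiv_comp {Γ : Type u} {G : Type v} {G' : Type w} [Group Γ] [Group G] [Group G']
    (σ : Γ →* G) (e : G ≃* G') (h : Cfsg.IsStemExtension σ) :
    Cfsg.IsStemExtension (e.toMonoidHom.comp σ) := by
  have hk : (e.toMonoidHom.comp σ).ker = σ.ker := by
    ext x
    constructor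
    · intro hx
      have h1 : e (σ x) = 1 := hx
      exact (MulEquiv.map_eq_one_iff e).mp h1
    · intro hx
      show e (σ x) = 1
      rw [MonoidHom.mem_ker.mp hx, map_one]
  refine ⟨e.surjective.comp h.1, ?_, ?_⟩
  · rw [hk]; exact h.2.1
  · rw [hk]; exact h.2.2

theorem ker_equiv_comp {Γ : Type u} {G : Type v} {G' : Type w} [Group Γ] [Group G] [Group G']
    (σ : Γ →* G) (e : G ≃* G') : (e.toMonoidHom.comp σ).ker = σ.ker := by
  ext x
  constructor
  · intro hx
    have h1 : e (σ x) = 1 := hx
    exact (MulEquiv.map_eq_one_iff e).mp h1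
  · intro hx
    show e (σ x) = 1
    rw [MonoidHom.mem_ker.mp hx, map_one]

/-- the multiplier only depends on the isomorphism type of the group -/
theorem hasSchurMultiplier_of_equiv {Q : Type u} {Q' : Type v} [Group Q] [Group Q'] [Finite Q]
    (e : Q ≃* Q') {A : Type w} [CommGroup A] (h : Cfsg.HasSchurMultiplier Q A) :
    Cfsg.HasSchurMultiplier Q' A := by
  have : Finite Q' := Finite.of_equiv _ e.toEquiv
  obtain ⟨f⟩ := (hasSchurMultiplier_iff (canPres Q) (canPres_surjective Q)).mp h
  constructor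
  · obtain ⟨⟨Γ, i1, i2, σ, hσ, ⟨g⟩⟩, _⟩ := h
    obtain ⟨Γ', j1, j2, ⟨k⟩⟩ := exists_univ.{u, v} Γ
    refine ⟨Γ', j1, j2, e.toMonoidHom.comp (σ.comp k.toMonoidHom),
      isStem_equiv_comp _ e (isStem_comp_equiv σ k hσ), ?_⟩
    rw [ker_equiv_comp]
    exact ⟨(kerCompEquiv σ k).trans g⟩
  · intro Γ _ _ σ hσ
    have h1 : Cfsg.IsStemExtension (e.symm.toMonoidHom.comp σ) := isStem_equiv_comp σ e.symm hσ
    obtain ⟨η, hη⟩ := exists_ceLift (canPres Q) _ h1.1 h1.2.1
    have h2 := smMap_surjective (canPres Q) (canPres_surjective Q) _ h1 η hη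
    have h3 := ker_equiv_comp σ e.symm
    refine ⟨(MulEquiv.subgroupCongr h3).toMonoidHom.comp ((smMap (canPres Q) _ η hη).comp f.toMonoidHom), ?_⟩
    exact (MulEquiv.subgroupCongr h3).surjective.comp (h2.comp f.surjective)

theorem cyclic_trivial (G : Type u) [Group G] [Finite G] [IsCyclic G] :
    Cfsg.HasCyclicSchurMultiplier G 1 := by
  rw [hasCyclic_one_iff]
  intro Γ _ _ σ hσ
  have h1 : ∀ a b : Γ, a * b = b * a := by
    have := MonoidHom.isMulCommutative_of_isCyclic_of_ker_le_center σ hσ.2.1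
    exact fun a b => mul_comm' a b
  rw [Subgroup.eq_bot_iff_forall]
  intro x hx
  have h2 := hσ.2.2 hx
  have h3 : commutator Γ = ⊥ := by
    rw [commutator_def, Subgroup.commutator_eq_bot_iff_le_centralizer]
    intro a _
    rw [Subgroup.mem_centralizer_iff]
    intro b _
    exact h1 _ _
  rw [h3] at h2
  simpa using h2

theorem ten_subsingleton {Q₁ : Type u} {Q₂ : Type v} [Group Q₁] [Group Q₂]
    [Finite Q₁] [Finite Q₂]
    (hcop : Nat.Coprime (Nat.card (Abelianization Q₁)) (Nat.card (Abelianization Q₂))) :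
    Subsingleton (Ten Q₁ Q₂) := by
  have key : ∀ x : Ten Q₁ Q₂, x = 1 := by
    intro x
    have hx : x ∈ Subgroup.closure {t : Ten Q₁ Q₂ | ∃ a b, tpair a b = t} := by
      rw [tpair_closure]; trivial
    have h1 : Subgroup.closure {t : Ten Q₁ Q₂ | ∃ a b, tpair a b = t} ≤ ⊥ := by
      rw [Subgroup.closure_le]
      rintro _ ⟨a, b, rfl⟩
      show tpair a b = 1
      unfold tpair
      set a' := Additive.ofMul (Abelianization.of a)
      set b' := Additive.ofMul (Abelianization.of b)
      have h2 : Nat.card (Abelianization Q₁) • a' = 0 := by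
        have := pow_card_eq_one' (x := Abelianization.of a)
        exact this
      have h3 : Nat.card (Abelianization Q₂) • b' = 0 := by
        have := pow_card_eq_one' (x := Abelianization.of b)
        exact this
      have h4 : (Nat.card (Abelianization Q₁) : ℤ) • (a' ⊗ₜ[ℤ] b') = 0 := by
        rw [TensorProduct.smul_tmul', natCast_zsmul, h2, TensorProduct.zero_tmul]
      have h5 : (Nat.card (Abelianization Q₂) : ℤ) • (a' ⊗ₜ[ℤ] b') = 0 := by
        rw [← TensorProduct.tmul_smul, natCast_zsmul, h3, TensorProduct.tmul_zero]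
      have h6 := Nat.gcd_eq_gcd_ab (Nat.card (Abelianization Q₁)) (Nat.card (Abelianization Q₂))
      rw [Nat.coprime_iff_gcd_eq_one.mp hcop] at h6
      have h7 : a' ⊗ₜ[ℤ] b' = 0 := by
        calc a' ⊗ₜ[ℤ] b' = (1 : ℤ) • (a' ⊗ₜ[ℤ] b') := (one_smul _ _).symm
          _ = 0 := by
            rw [show (1 : ℤ) = ((1 : ℕ) : ℤ) by norm_num, h6, add_smul, mul_comm, mul_smul, h4,
              smul_zero, mul_comm, mul_smul, h5, smul_zero, add_zero]
      show Multiplicative.ofAdd (a' ⊗ₜ[ℤ] b') = 1
      rw [h7]; rfl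
    simpa using h1 hx
  exact ⟨fun x y => (key x).trans (key y).symm⟩

theorem kunneth_coprime {Q₁ : Type u} {Q₂ : Type v} [Group Q₁] [Group Q₂] [Finite Q₁] [Finite Q₂]
    {A : Type w} {B : Type w'} [CommGroup A] [CommGroup B] (hA : Cfsg.HasSchurMultiplier Q₁ A)
    (hB : Cfsg.HasSchurMultiplier Q₂ B)
    (hcop : Nat.Coprime (Nat.card (Abelianization Q₁)) (Nat.card (Abelianization Q₂))) :
    Cfsg.HasSchurMultiplier (Q₁ × Q₂) (A × B) := by
  have h1 := kunneth hA hB
  have h2 := ten_subsingleton hcop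
  refine hasSchurMultiplier_congr ?_ h1
  exact
    { toFun := fun x => (x.1, x.2.1)
      invFun := fun y => (y.1, y.2, 1)
      left_inv := fun x => Prod.ext rfl (Prod.ext rfl (Subsingleton.elim _ _))
      right_inv := fun y => rfl
      map_mul' := fun x y => rfl }

theorem ten_cyclic (m n : ℕ) [NeZero m] [NeZero n] (hnm : n ∣ m) :
    Nonempty (Ten (Multiplicative (ZMod m)) (Multiplicative (ZMod n)) ≃* Multiplicative (ZMod n)) := by
  let c : Multiplicative (ZMod m) → Multiplicative (ZMod n) → Multiplicative (ZMod n) :=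
    fun a b => Multiplicative.ofAdd (ZMod.castHom hnm (ZMod n) a.toAdd * b.toAdd)
  have hc : Bimul c := by
    constructor
    · intro a a' b
      show Multiplicative.ofAdd (ZMod.castHom hnm (ZMod n) (a.toAdd + a'.toAdd) * b.toAdd) =
        Multiplicative.ofAdd _ * Multiplicative.ofAdd _
      rw [map_add, add_mul, ofAdd_add]
    · intro a b b'
      show Multiplicative.ofAdd (ZMod.castHom hnm (ZMod n) a.toAdd * (b.toAdd + b'.toAdd)) =
        Multiplicative.ofAdd _ * Multiplicative.ofAdd _
      rw [mul_add, ofAdd_add]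
  obtain ⟨f, hf⟩ := exists_ten_lift c hc
  have hfs : Function.Surjective f := by
    intro b
    refine ⟨tpair (Multiplicative.ofAdd 1) b, ?_⟩
    rw [hf]
    show Multiplicative.ofAdd (ZMod.castHom hnm (ZMod n) 1 * b.toAdd) = b
    rw [map_one, one_mul]; rfl
  have hfT : Finite (Ten (Multiplicative (ZMod m)) (Multiplicative (ZMod n))) := ten_finite
  let g : Ten (Multiplicative (ZMod m)) (Multiplicative (ZMod n)) :=
    tpair (Multiplicative.ofAdd 1) (Multiplicative.ofAdd 1)
  have hbm := tpair_bimul (Q₁ := Multiplicative (ZMod m)) (Q₂ := Multiplicative (ZMod n))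
  have hpl : ∀ (a : Multiplicative (ZMod m)) (b : Multiplicative (ZMod n)) (k : ℕ),
      tpair (a ^ k) b = (tpair a b) ^ k := by
    intro a b k
    induction k with
    | zero => rw [pow_zero, pow_zero, hbm.one_left]
    | succ k ih => rw [pow_succ, pow_succ, hbm.left, ih]
  have hpr : ∀ (a : Multiplicative (ZMod m)) (b : Multiplicative (ZMod n)) (k : ℕ),
      tpair a (b ^ k) = (tpair a b) ^ k := by
    intro a b k
    induction k with
    | zero => rw [pow_zero, pow_zero, hbm.one_right]
    | succ k ih => rw [pow_succ, pow_succ, hbm.right, ih]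
  have hgen : ∀ x : Ten (Multiplicative (ZMod m)) (Multiplicative (ZMod n)),
      x ∈ Subgroup.zpowers g := by
    intro x
    have hx : x ∈ Subgroup.closure {t : Ten (Multiplicative (ZMod m)) (Multiplicative (ZMod n)) |
      ∃ a b, tpair a b = t} := by rw [tpair_closure]; trivial
    refine (Subgroup.closure_le _).mpr ?_ hx
    rintro _ ⟨a, b, rfl⟩
    have ha : a = (Multiplicative.ofAdd (1 : ZMod m)) ^ (ZMod.val a.toAdd) := by
      rw [← ofAdd_nsmul, nsmul_eq_mul, mul_one, ZMod.natCast_zmod_val]; rfl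
    have hb : b = (Multiplicative.ofAdd (1 : ZMod n)) ^ (ZMod.val b.toAdd) := by
      rw [← ofAdd_nsmul, nsmul_eq_mul, mul_one, ZMod.natCast_zmod_val]; rfl
    show tpair a b ∈ Subgroup.zpowers g
    rw [ha, hb, hpl, hpr]
    exact pow_mem (pow_mem (Subgroup.mem_zpowers g) _) _
  have hgn : g ^ n = 1 := by
    show (tpair (Multiplicative.ofAdd 1) (Multiplicative.ofAdd 1)) ^ n = _
    rw [← hpr, ← ofAdd_nsmul, nsmul_eq_mul, mul_one, ZMod.natCast_self]
    exact hbm.one_right _
  have hcard : Nat.card (Ten (Multiplicative (ZMod m)) (Multiplicative (ZMod n))) ≤ n := by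
    rw [← orderOf_eq_card_of_forall_mem_zpowers hgen]
    exact Nat.le_of_dvd (Nat.pos_of_ne_zero (NeZero.ne n)) (orderOf_dvd_of_pow_eq_one hgn)
  have hcard2 : Nat.card (Multiplicative (ZMod n)) = n := Nat.card_zmod n
  have h3 := Nat.card_le_card_of_surjective f hfs
  have h4 : Nat.card (Ten (Multiplicative (ZMod m)) (Multiplicative (ZMod n))) =
    Nat.card (Multiplicative (ZMod n)) := le_antisymm (by rw [hcard2]; exact hcard) h3
  exact ⟨MulEquiv.ofBijective f ((Nat.bijective_iff_surjective_and_card f).mpr ⟨hfs, h4⟩)⟩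

theorem multiplier_prod_cyclic (m n : ℕ) [NeZero m] [NeZero n] (hnm : n ∣ m) :
    Cfsg.HasCyclicSchurMultiplier (Multiplicative (ZMod m) × Multiplicative (ZMod n)) n := by
  have h1 := kunneth (cyclic_trivial (Multiplicative (ZMod m)))
    (cyclic_trivial (Multiplicative (ZMod n)))
  obtain ⟨e⟩ := ten_cyclic m n hnm
  refine hasSchurMultiplier_congr ?_ h1
  have hs : Unique (Multiplicative (ZMod 1)) := inferInstance
  exact
    { toFun := fun x => e x.2.2
      invFun := fun y => (1, 1, e.symm y)
      left_inv := fun x => by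
        ext
        · exact congrArg _ (Subsingleton.elim _ _)
        · exact congrArg _ (Subsingleton.elim _ _)
        · exact e.symm_apply_apply _
      right_inv := fun y => e.apply_symm_apply _
      map_mul' := fun x y => map_mul e _ _ }

/-- pull back of stem extensions to abelian groups -/
theorem exists_stem_pullback {G : Type u} [CommGroup G] [Finite G] {Q : Type v} [Group Q]
    (f : G →* Q) (hf : Function.Surjective f) {Δ : Type w} [Group Δ] [Finite Δ] (τ : Δ →* Q)
    (hτ : Cfsg.IsStemExtension τ) :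
    ∃ (Γ : Type u) (_ : Group Γ) (_ : Finite Γ) (σ : Γ →* G), Cfsg.IsStemExtension σ ∧
      Nonempty (σ.ker ≃* τ.ker) := by
  let P : Subgroup (G × Δ) := (f.comp (MonoidHom.fst G Δ)).eqLocus (τ.comp (MonoidHom.snd G Δ))
  let π : P →* G := (MonoidHom.fst G Δ).comp P.subtype
  let π₂ : P →* Δ := (MonoidHom.snd G Δ).comp P.subtype
  have hP : ∀ x : P, f x.1.1 = τ x.1.2 := fun x => x.2
  have hπ₂ : Function.Surjective π₂ := by
    intro d
    obtain ⟨g, hg⟩ := hf (τ d)
    exact ⟨⟨(g, d), hg⟩, rfl⟩
  have hst : Cfsg.IsStemExtension π := by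
    refine ⟨?_, ?_, ?_⟩
    · intro g
      obtain ⟨d, hd⟩ := hτ.1 (f g)
      exact ⟨⟨(g, d), hd.symm⟩, rfl⟩
    · rintro x hx
      have h1 : x.1.1 = 1 := hx
      have h2 : x.1.2 ∈ τ.ker := by
        rw [MonoidHom.mem_ker, ← hP, h1, map_one]
      rw [Subgroup.mem_center_iff]
      intro g
      apply Subtype.ext
      apply Prod.ext
      · exact mul_comm _ _
      · exact mul_comm_of_center (hτ.2.1 h2) g.1.2
    · intro x hx
      have h1 : x.1.1 = 1 := hx
      have h2 : x.1.2 ∈ τ.ker := by
        rw [MonoidHom.mem_ker, ← hP, h1, map_one]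
      have h3 := hτ.2.2 h2
      rw [← commutator_map_of_surjective π₂ hπ₂] at h3
      obtain ⟨y, hy, hyx⟩ := h3
      have h4 : y.1.1 = 1 := by
        have h5 := commutator_map_le π y hy
        rw [show commutator G = ⊥ by
          rw [commutator_def, Subgroup.commutator_eq_bot_iff_le_centralizer]
          intro a _
          rw [Subgroup.mem_centralizer_iff]
          intro b _
          exact mul_comm _ _] at h5
        exact Subgroup.mem_bot.mp h5
      have h6 : y = x := by
        apply Subtype.ext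
        apply Prod.ext
        · rw [h4, h1]
        · exact hyx
      rw [← h6]; exact hy
  obtain ⟨Γ', j1, j2, ⟨k⟩⟩ := exists_univ.{max u w, u} P
  refine ⟨Γ', j1, j2, π.comp k.toMonoidHom, isStem_comp_equiv π k hst, ?_⟩
  refine ⟨(kerCompEquiv π k).trans ?_⟩
  exact
    { toFun := fun x => ⟨x.1.1.2, by
        have h1 : x.1.1.1 = 1 := x.2
        rw [MonoidHom.mem_ker, ← hP, h1, map_one]⟩
      invFun := fun y => ⟨⟨(1, y.1), by
        show f 1 = τ y.1
        rw [map_one]; exact (MonoidHom.mem_ker.mp y.2).symm⟩, rfl⟩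
      left_inv := fun x => by
        apply Subtype.ext
        apply Subtype.ext
        apply Prod.ext
        · exact (show x.1.1.1 = 1 from x.2).symm
        · rfl
      right_inv := fun y => rfl
      map_mul' := fun x y => rfl }

theorem exists_surj_of_not_cyclic {G : Type u} [CommGroup G] [Finite G] (h : ¬ IsCyclic G) :
    ∃ (p : ℕ) (_ : p.Prime) (f : G →* Multiplicative (ZMod p) × Multiplicative (ZMod p)),
      Function.Surjective f := by
  classical
  obtain ⟨ι, hι, n, hn, ⟨e⟩⟩ := CommGroup.equiv_prod_multiplicative_zmod_of_finite G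
  by_cases hcop : ∀ i j, i ≠ j → Nat.Coprime (n i) (n j)
  · exfalso
    apply h
    rw [IsCyclic.iff_exponent_eq_card]
    have h1 : Monoid.exponent G = Monoid.exponent ((i : ι) → Multiplicative (ZMod (n i))) :=
      Monoid.exponent_eq_of_mulEquiv e
    rw [h1, Monoid.exponent_pi, Nat.card_congr e.toEquiv, Nat.card_pi]
    have h2 : ∀ i, Monoid.exponent (Multiplicative (ZMod (n i))) = n i := by
      intro i
      rw [IsCyclic.exponent_eq_card]
      exact Nat.card_zmod _
    have h3 : ∀ i, Nat.card (Multiplicative (ZMod (n i))) = n i := fun i => Nat.card_zmod _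
    simp only [h2, h3]
    apply Finset.lcm_eq_prod
    intro i _ j _ hij
    exact hcop i j hij
  · push Not at hcop
    obtain ⟨i, j, hij, hc⟩ := hcop
    obtain ⟨p, hp, hpi, hpj⟩ := Nat.Prime.not_coprime_iff_dvd.mp hc
    refine ⟨p, hp, ?_⟩
    let gi : Multiplicative (ZMod (n i)) →* Multiplicative (ZMod p) :=
      AddMonoidHom.toMultiplicative (ZMod.castHom hpi (ZMod p)).toAddMonoidHom
    let gj : Multiplicative (ZMod (n j)) →* Multiplicative (ZMod p) :=
      AddMonoidHom.toMultiplicative (ZMod.castHom hpj (ZMod p)).toAddMonoidHom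
    have hgi : Function.Surjective gi := ZMod.castHom_surjective hpi
    have hgj : Function.Surjective gj := ZMod.castHom_surjective hpj
    refine ⟨((gi.comp (Pi.evalMonoidHom _ i)).prod (gj.comp (Pi.evalMonoidHom _ j))).comp
      e.toMonoidHom, ?_⟩
    rintro ⟨a, b⟩
    obtain ⟨a, rfl⟩ := hgi a
    obtain ⟨b, rfl⟩ := hgj b
    let x : (i : ι) → Multiplicative (ZMod (n i)) :=
      Function.update (Function.update 1 i a) j b
    refine ⟨e.symm x, ?_⟩
    show (gi (e (e.symm x) i), gj (e (e.symm x) j)) = _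
    rw [e.apply_symm_apply]
    have h1 : x i = a := by simp [x, Function.update_of_ne hij]
    have h2 : x j = b := by simp [x]
    rw [h1, h2]

end Cfsg.Agent.H15.Schur
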