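import Mathlib
import Cfsg.Agent.H15.StemRed

/-! # Schur multipliers of order two -/

set_option autoImplicit false

namespace Cfsg.Agent.H15.PExtN

open Cfsg Cfsg.Agent.H15.SchurTr

universe u v

/-- reduction to kernels of prime order -/
theorem exists_pext' {G : Type v} [Group G] {Γ : Type u} [Group Γ] [Finite Γ] (σ : Γ →* G)
    (hst : Cfsg.IsStemExtension σ) (p : ℕ) [hp : Fact p.Prime] (h2 : p ∣ Nat.card σ.ker) :
    ∃ (M : Subgroup Γ) (_ : M.Normal) (τ : Γ ⧸ M →* G) (z : Γ ⧸ M), PExt p τ z ∧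
      (∀ x : Γ, τ (QuotientGroup.mk x) = σ x) ∧ z ∈ commutator (Γ ⧸ M) := by
  classical
  obtain ⟨hsurj, hc, hcomm⟩ := hst
  let K := σ.ker
  let _ : CommGroup K :=
    { (inferInstance : Group K) with
      mul_comm := fun a b => Subtype.ext (((Subgroup.mem_center_iff.mp (hc a.2)) b.1).symm) }
  obtain ⟨e⟩ := Cfsg.Agent.H15.Schur.dual_equiv K
  have hcard : p ∣ Nat.card (K →* ℂˣ) := by rw [Nat.card_congr e.toEquiv]; exact h2
  have hfin : Finite (K →* ℂˣ) := Finite.of_equiv _ e.symm.toEquiv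
  obtain ⟨lam, hlam⟩ := exists_prime_orderOf_dvd_card' p hcard
  have hlp : ∀ k : K, lam k ^ p = 1 := by
    intro k
    have h1 : lam ^ p = 1 := by rw [← hlam]; exact pow_orderOf_eq_one _
    have h3 := DFunLike.congr_fun h1 k
    exact h3
  obtain ⟨⟨k, hk⟩, hk1⟩ : ∃ k : K, lam k ≠ 1 := by
    by_contra hcon
    push Not at hcon
    have : lam = 1 := MonoidHom.ext hcon
    rw [this, orderOf_one] at hlam
    exact hp.out.one_lt.ne hlam
  let M : Subgroup Γ := lam.ker.map K.subtype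
  have hMK : M ≤ K := Subgroup.map_subtype_le _
  have hMn : M.Normal := by
    constructor
    intro x hx g
    have h1 := (Subgroup.mem_center_iff.mp (hc (hMK hx))) g
    rw [h1, mul_inv_cancel_right]
    exact hx
  have hM : ∀ x (hx : x ∈ K), x ∈ M ↔ lam ⟨x, hx⟩ = 1 := by
    intro x hx
    constructor
    · rintro ⟨y, hy, rfl⟩
      exact hy
    · intro h; exact ⟨⟨x, hx⟩, h, rfl⟩
  have hkM : k ∉ M := fun h => hk1 ((hM k hk).mp h)
  have hprim : IsPrimitiveRoot (lam ⟨k, hk⟩) p := by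
    have h3 : orderOf (lam ⟨k, hk⟩) = p := orderOf_eq_prime (hlp _) hk1
    rw [← h3]; exact IsPrimitiveRoot.orderOf _
  have hne : NeZero p := ⟨hp.out.ne_zero⟩
  refine ⟨M, hMn, QuotientGroup.lift M σ hMK, QuotientGroup.mk k, ⟨?_, ?_, ?_, ?_⟩, fun _ => rfl, ?_⟩
  · intro g
    obtain ⟨x, rfl⟩ := hsurj g
    exact ⟨QuotientGroup.mk x, rfl⟩
  · apply orderOf_eq_prime
    · rw [← QuotientGroup.mk_pow, QuotientGroup.eq_one_iff, hM _ (K.pow_mem hk p)]
      have : (⟨k ^ p, K.pow_mem hk p⟩ : K) = ⟨k, hk⟩ ^ p := rfl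
      rw [this, map_pow, hlp]
    · intro h0
      exact hkM ((QuotientGroup.eq_one_iff k).mp h0)
  · intro x
    induction x using QuotientGroup.induction_on with
    | H x =>
      rw [← QuotientGroup.mk_mul, ← QuotientGroup.mk_mul, (Subgroup.mem_center_iff.mp (hc hk)) x]
  · intro x
    induction x using QuotientGroup.induction_on with
    | H x =>
      show σ x = 1 ↔ _
      constructor
      · intro hx
        obtain ⟨i, -, hi⟩ := hprim.eq_pow_of_mem_rootsOfUnity (ξ := lam ⟨x, hx⟩) (by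
          rw [mem_rootsOfUnity]; exact hlp _)
        refine ⟨(i : ℤ), ?_⟩
        show (QuotientGroup.mk k : Γ ⧸ M) ^ (i : ℤ) = _
        rw [zpow_natCast, ← QuotientGroup.mk_pow, QuotientGroup.eq,
          hM _ (K.mul_mem (K.inv_mem (K.pow_mem hk i)) hx)]
        have : (⟨(k ^ i)⁻¹ * x, K.mul_mem (K.inv_mem (K.pow_mem hk i)) hx⟩ : K) =
          (⟨k, hk⟩ ^ i)⁻¹ * ⟨x, hx⟩ := rfl
        rw [this, map_mul, map_inv, map_pow, hi, inv_mul_cancel]
      · rintro ⟨i, hi⟩
        have hi' : (QuotientGroup.mk k : Γ ⧸ M) ^ i = QuotientGroup.mk x := hi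
        rw [← QuotientGroup.mk_zpow, QuotientGroup.eq] at hi'
        have h4 : (k ^ i)⁻¹ * x ∈ K := hMK hi'
        have h5 := K.mul_mem (K.zpow_mem hk i) h4
        rwa [show k ^ i * ((k ^ i)⁻¹ * x) = x by group] at h5
  · have h1 : (commutator Γ).map (QuotientGroup.mk' M) = commutator (Γ ⧸ M) := by
      rw [commutator_def, Subgroup.map_commutator, commutator_def,
        Subgroup.map_top_of_surjective _ (QuotientGroup.mk'_surjective _)]
    rw [← h1]
    exact ⟨k, hcomm hk, rfl⟩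

/-- quotient of a stem extension by a subgroup of the kernel -/
theorem stem_quot {G : Type v} [Group G] {Γ : Type u} [Group Γ] (σ : Γ →* G) (hst : Cfsg.IsStemExtension σ)
    (N : Subgroup Γ) [hN : N.Normal] (hNK : N ≤ σ.ker) :
    Cfsg.IsStemExtension (QuotientGroup.lift N σ hNK) := by
  obtain ⟨hsurj, hc, hcomm⟩ := hst
  have hker : ∀ x : Γ, QuotientGroup.lift N σ hNK (QuotientGroup.mk x) = 1 → x ∈ σ.ker := fun x hx => hx
  refine ⟨?_, ?_, ?_⟩
  · intro g
    obtain ⟨x, rfl⟩ := hsurj g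
    exact ⟨QuotientGroup.mk x, rfl⟩
  · intro x hx
    induction x using QuotientGroup.induction_on with
    | H x =>
      rw [Subgroup.mem_center_iff]
      intro g
      induction g using QuotientGroup.induction_on with
      | H g =>
        rw [← QuotientGroup.mk_mul, ← QuotientGroup.mk_mul, (Subgroup.mem_center_iff.mp (hc (hker x hx))) g]
  · intro x hx
    induction x using QuotientGroup.induction_on with
    | H x =>
      have h1 : (commutator Γ).map (QuotientGroup.mk' N) = commutator (Γ ⧸ N) := by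
        rw [commutator_def, Subgroup.map_commutator, commutator_def,
          Subgroup.map_top_of_surjective _ (QuotientGroup.mk'_surjective _)]
      rw [← h1]
      exact ⟨x, hcomm (hker x hx), rfl⟩

/-- upper bound two for the multiplier -/
theorem card_ker_le_two {G : Type v} [Group G] [Finite G]
    (hodd : ∀ p : ℕ, p.Prime → p ≠ 2 → p ^ 2 ∣ Nat.card G → ∀ (E : Type u) [Group E] [Finite E]
      (τ : E →* G) (z : E), PExt p τ z → z ∉ commutator E)
    (t t1 t2 g1 g2 g3 : G) (ht : t * t = 1) (hcm : t1 * t2 = t2 * t1)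
    (h1 : g1 * t = t1 * g1) (h2 : g2 * t = t2 * g2) (h3 : g3 * t = t1 * t2 * g3)
    (htwo : ∀ (E : Type u) [Group E] [Finite E] (τ : E →* G) (z : E), PExt 2 τ z → PExt.LS τ t →
      z ∉ commutator E)
    {Γ : Type u} [Group Γ] [Finite Γ] (σ : Γ →* G) (hst : Cfsg.IsStemExtension σ) :
    Nat.card σ.ker ≤ 2 := by
  classical
  -- the kernel is a 2-group
  have hp2 : ∀ p : ℕ, p.Prime → p ∣ Nat.card σ.ker → p = 2 := by
    intro p hp hpd
    by_contra hne
    have : Fact p.Prime := ⟨hp⟩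
    by_cases hd : p ^ 2 ∣ Nat.card G
    · obtain ⟨M, hM, τ, z, h4, h5⟩ := exists_pext σ hst p hpd
      exact hodd p hp hne hd _ τ z h4 h5
    · exact not_dvd_of_cyclic σ hst.2.1 hst.2.2 p (fun P => sylow_cyclic p hd P) hpd
  obtain ⟨x, hx⟩ := hst.1 t
  have hxK : x * x ∈ σ.ker := by rw [MonoidHom.mem_ker, map_mul, hx, ht]
  have hcen : ∀ k ∈ σ.ker, ∀ g : Γ, g * k = k * g := fun k hk => Subgroup.mem_center_iff.mp (hst.2.1 hk)
  -- generation
  have hgen : σ.ker ≤ Subgroup.zpowers (x * x) := by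
    have hNK : Subgroup.zpowers (x * x) ≤ σ.ker := by rw [Subgroup.zpowers_le]; exact hxK
    have hNn : (Subgroup.zpowers (x * x)).Normal := by
      constructor
      intro n hn g
      rw [hcen n (hNK hn) g, mul_inv_cancel_right]
      exact hn
    have hst' := stem_quot σ hst (Subgroup.zpowers (x * x)) hNK
    set σ' := QuotientGroup.lift (Subgroup.zpowers (x * x)) σ hNK with hσ'
    by_contra hcon
    have hne : Nat.card σ'.ker ≠ 1 := by
      intro h0
      apply hcon
      intro k hk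
      have h4 : σ'.ker = ⊥ := Subgroup.eq_bot_of_card_eq _ h0
      have h5 : (QuotientGroup.mk k : Γ ⧸ Subgroup.zpowers (x * x)) ∈ σ'.ker := hk
      rw [h4, Subgroup.mem_bot, QuotientGroup.eq_one_iff] at h5
      exact h5
    obtain ⟨p, hp, hpd⟩ := Nat.exists_prime_and_dvd hne
    have hcard : Nat.card σ'.ker ∣ Nat.card σ.ker := by
      have hs : Function.Surjective ((QuotientGroup.mk' (Subgroup.zpowers (x * x))).subgroupMap σ.ker) :=
        MonoidHom.subgroupMap_surjective _ _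
      have h6 : σ.ker.map (QuotientGroup.mk' (Subgroup.zpowers (x * x))) = σ'.ker := by
        ext y
        constructor
        · rintro ⟨k, hk, rfl⟩; exact hk
        · intro hy
          induction y using QuotientGroup.induction_on with
          | H y => exact ⟨y, hy, rfl⟩
      rw [← h6]
      exact Subgroup.card_dvd_of_surjective _ hs
    have hp' := hp2 p hp (hpd.trans hcard)
    subst hp'
    have : Fact (Nat.Prime 2) := ⟨Nat.prime_two⟩
    obtain ⟨M, hM, τ, z, h4, h6, h7⟩ := exists_pext' σ' hst' 2 hpd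
    refine htwo _ τ z h4 ?_ h7
    have h8 : τ (QuotientGroup.mk (QuotientGroup.mk x)) = t := by rw [h6]; exact hx
    rw [← h8]
    apply h4.LS_of_one
    rw [← QuotientGroup.mk_mul, ← QuotientGroup.mk_mul]
    have : (QuotientGroup.mk (x * x) : Γ ⧸ Subgroup.zpowers (x * x)) = 1 :=
      (QuotientGroup.eq_one_iff _).mpr (Subgroup.mem_zpowers _)
    rw [this]; rfl
  -- order at least four is impossible
  by_contra hcon
  push Not at hcon
  obtain ⟨a, ha⟩ : ∃ a, a = x * x := ⟨_, rfl⟩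
  have hKa : σ.ker = Subgroup.zpowers a := by
    apply le_antisymm
    · rw [ha]; exact hgen
    · rw [ha, Subgroup.zpowers_le]; exact hxK
  have hord : Nat.card σ.ker = orderOf a := by rw [hKa, Nat.card_zpowers]
  have h4 : 4 ∣ orderOf a := by
    rw [← hord]
    obtain ⟨k, hk⟩ : ∃ k, Nat.card σ.ker = 2 ^ k := by
      have : IsPGroup 2 σ.ker := by
        rw [IsPGroup.iff_card]
        have h5 : Nat.card σ.ker ≠ 0 := Nat.card_pos.ne'
        refine ⟨(Nat.card σ.ker).factorization 2, ?_⟩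
        conv_lhs => rw [← Nat.factorization_prod_pow_eq_self h5]
        have h6 : (Nat.card σ.ker).factorization.support ⊆ {2} := by
          intro q hq
          rw [Nat.support_factorization, Nat.mem_primeFactors] at hq
          rw [Finset.mem_singleton]
          exact hp2 q hq.1 hq.2.1
        rw [Finsupp.prod_of_support_subset _ h6 _ (fun i _ => pow_zero i), Finset.prod_singleton]
      exact IsPGroup.iff_card.mp this
    rw [hk] at hcon ⊢
    have h5 : 2 ≤ k := by
      by_contra h6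
      have : k = 0 ∨ k = 1 := by omega
      rcases this with rfl | rfl <;> norm_num at hcon
    exact pow_dvd_pow 2 h5
  -- the subgroup of squares
  have hM : ∀ k ∈ σ.ker, k * k ∈ Subgroup.zpowers (a * a) := by
    intro k hk
    rw [hKa] at hk
    obtain ⟨i, rfl⟩ := hk
    refine ⟨i, ?_⟩
    show (a * a) ^ i = a ^ i * a ^ i
    have : Commute a a := Commute.refl a
    exact this.mul_zpow i
  have haM : a ∉ Subgroup.zpowers (a * a) := by
    rintro ⟨i, hi⟩
    have hi' : (a * a) ^ i = a := hi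
    have h5 : a ^ (2 * i - 1) = 1 := by
      rw [zpow_sub_one, zpow_mul, zpow_two, hi', mul_inv_cancel]
    have h6 := orderOf_dvd_iff_zpow_eq_one.mpr h5
    have h7 : (4 : ℤ) ∣ 2 * i - 1 := (by exact_mod_cast h4 : (4 : ℤ) ∣ orderOf a).trans h6
    omega
  have hsqM : ∀ c ∈ σ.ker, c * c = 1 → c ∈ Subgroup.zpowers (a * a) := by
    intro c hc hc2
    rw [hKa] at hc
    obtain ⟨i, hi⟩ := hc
    have hi' : a ^ i = c := hi
    rw [← hi', ← zpow_add] at hc2
    have h6 := orderOf_dvd_iff_zpow_eq_one.mpr hc2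
    have h7 : (4 : ℤ) ∣ i + i := (by exact_mod_cast h4 : (4 : ℤ) ∣ orderOf a).trans h6
    have h8 : ∃ j, i = 2 * j := ⟨i / 2, by omega⟩
    obtain ⟨j, rfl⟩ := h8
    refine ⟨j, ?_⟩
    show (a * a) ^ j = c
    rw [← hi', zpow_mul, zpow_two]
  -- squares of lifts of conjugates of t
  have hsq : ∀ (g s : G) (y : Γ), g * t = s * g → σ y = s → ∃ m ∈ Subgroup.zpowers (a * a), y * y = a * m := by
    intro g s y hg hy
    obtain ⟨w, hw⟩ := hst.1 g
    have h5 : σ ((w * x * w⁻¹)⁻¹ * y) = 1 := by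
      rw [map_mul, map_inv, map_mul, map_mul, map_inv, hw, hx, hy, hg, mul_inv_cancel_right, inv_mul_cancel]
    have h6 : (w * x * w⁻¹)⁻¹ * y ∈ σ.ker := h5
    obtain ⟨k, hk⟩ : ∃ k, k = (w * x * w⁻¹)⁻¹ * y := ⟨_, rfl⟩
    rw [← hk] at h6
    have h7 : y = w * x * w⁻¹ * k := by rw [hk]; group
    refine ⟨k * k, hM k h6, ?_⟩
    have h8 := hcen k h6 (w * x * w⁻¹)
    calc y * y = w * x * w⁻¹ * (k * (w * x * w⁻¹)) * k := by rw [h7]; group
      _ = w * (x * x) * w⁻¹ * (k * k) := by rw [← h8]; group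
      _ = a * (k * k) := by rw [hcen _ hxK w, mul_inv_cancel_right, ha]
  obtain ⟨y, hy⟩ := hst.1 t1
  obtain ⟨w, hw⟩ := hst.1 t2
  obtain ⟨m1, hm1, e1⟩ := hsq g1 t1 y h1 hy
  obtain ⟨m2, hm2, e2⟩ := hsq g2 t2 w h2 hw
  obtain ⟨m3, hm3, e3⟩ := hsq g3 (t1 * t2) (y * w) h3 (by rw [map_mul, hy, hw])
  have haK : a ∈ σ.ker := by rw [ha]; exact hxK
  have hMK : Subgroup.zpowers (a * a) ≤ σ.ker := by
    rw [Subgroup.zpowers_le]; exact σ.ker.mul_mem haK haK
  obtain ⟨c, hc⟩ : ∃ c, c = w⁻¹ * y⁻¹ * w * y := ⟨_, rfl⟩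
  have hcK : c ∈ σ.ker := by
    rw [MonoidHom.mem_ker, hc, map_mul, map_mul, map_mul, map_inv, map_inv, hy, hw]
    have : t2⁻¹ * t1⁻¹ * t2 * t1 = (t1 * t2)⁻¹ * (t2 * t1) := by group
    rw [this, hcm, inv_mul_cancel]
  have e4 : w * y = y * w * c := by rw [hc]; group
  have hcc : c * c = 1 := by
    -- y (w w) y⁻¹ = w w
    have h5 : y⁻¹ * w * y = w * c := by
      calc y⁻¹ * w * y = y⁻¹ * (w * y) := by group
        _ = w * c := by rw [e4]; group
    have h6 : y⁻¹ * (w * w) * y = w * w := by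
      have h7 := hcen (w * w) (by rw [e2]; exact σ.ker.mul_mem haK (hMK hm2)) y⁻¹
      rw [h7]; group
    have h8 : y⁻¹ * (w * w) * y = w * w * (c * c) := by
      calc y⁻¹ * (w * w) * y = (y⁻¹ * w * y) * (y⁻¹ * w * y) := by group
        _ = w * (c * w) * c := by rw [h5]; group
        _ = w * w * (c * c) := by rw [← hcen c hcK w]; group
    rw [h6] at h8
    exact (mul_eq_left.mp h8.symm)
  have hcM := hsqM c hcK hcc
  have e5 : y * w * (y * w) = (y * y) * (w * w) * c := by
    calc y * w * (y * w) = y * (w * y) * w := by group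
      _ = y * y * w * (c * w) := by rw [e4]; group
      _ = y * y * (w * w) * c := by rw [← hcen c hcK w]; group
  rw [e3, e1, e2] at e5
  apply haM
  have h9 : a = a * m1 * (a * m2) * c * m3⁻¹ := by rw [← e5]; group
  have h10 : a * m1 * (a * m2) * c * m3⁻¹ = (a * a) * (m1 * m2 * c * m3⁻¹) := by
    rw [show a * m1 * (a * m2) = a * (m1 * a) * m2 by group, ← hcen m1 (hMK hm1) a]; group
  have hmem : (a * a) * (m1 * m2 * c * m3⁻¹) ∈ Subgroup.zpowers (a * a) :=
    (Subgroup.zpowers (a * a)).mul_mem (Subgroup.mem_zpowers _)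
    ((Subgroup.zpowers (a * a)).mul_mem ((Subgroup.zpowers (a * a)).mul_mem
      ((Subgroup.zpowers (a * a)).mul_mem hm1 hm2) hcM) ((Subgroup.zpowers (a * a)).inv_mem hm3))
  rw [← h10, ← h9] at hmem
  exact hmem

/-- the multiplier has order two -/
theorem hasCyclic_two {G : Type u} [Group G]
    (hex : ∃ (Γ : Type u) (_ : Group Γ) (_ : Finite Γ) (σ : Γ →* G), Cfsg.IsStemExtension σ ∧ Nat.card σ.ker = 2)
    (hup : ∀ (Γ : Type u) [Group Γ] [Finite Γ] (σ : Γ →* G), Cfsg.IsStemExtension σ → Nat.card σ.ker ≤ 2) :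
    Cfsg.HasCyclicSchurMultiplier G 2 := by
  have hc : Nat.card (Multiplicative (ZMod 2)) = 2 := by simp
  constructor
  · obtain ⟨Γ, _, _, σ, h1, h2⟩ := hex
    have : Fact (Nat.Prime 2) := ⟨Nat.prime_two⟩
    exact ⟨Γ, inferInstance, inferInstance, σ, h1, ⟨mulEquivOfPrimeCardEq (p := 2) h2 hc⟩⟩
  · intro Γ _ _ σ hσ
    have h1 := hup Γ σ hσ
    have h0 : 0 < Nat.card σ.ker := Nat.card_pos
    have h2 : Nat.card σ.ker = 1 ∨ Nat.card σ.ker = 2 := by omega
    rcases h2 with h2 | h2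
    · have := (Nat.card_eq_one_iff_unique.mp h2).1
      exact ⟨1, fun x => ⟨1, Subsingleton.elim _ _⟩⟩
    · have : Fact (Nat.Prime 2) := ⟨Nat.prime_two⟩
      let e := mulEquivOfPrimeCardEq (p := 2) hc h2
      exact ⟨e.toMonoidHom, e.surjective⟩

end Cfsg.Agent.H15.PExtN
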