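import Mathlib
import Cfsg.Agent.H15.SchTool3
import Cfsg.Agent.H15.StemTwo
import Cfsg.Agent.H15.T.S12t
import Cfsg.Agent.H15.T.L12x

/-! # The Schur multiplier of M12: upper bound -/

set_option autoImplicit false

namespace Cfsg.Agent.H15.SchM12

open Cfsg Cfsg.Agent.H7 Cfsg.Agent.H8 Cfsg.Agent.H15.MathCode Cfsg.Agent.H15.PExtN Cfsg.Agent.H15.T
open Cfsg.Agent.H15.SchTool

def A0 : Cd Spor.M12 := cd12 0x74d47b10a65dd8d7d509a423210c01 (by decide +kernel)
def B0 : Cd Spor.M12 := cd12 0xbae957b6289ba44b1cd0524ac18820 (by decide +kernel)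
def B1 : Cd Spor.M12 := cd12 0x8da6fac2f2a390c59ccd524a410c20 (by decide +kernel)
def B2 : Cd Spor.M12 := cd12 0xbd9f3a222da960c59cd2525c418801 (by decide +kernel)
def Gb : Cd Spor.M12 := cd12 0xb5eb3a2170795a38a8d23a5c261020 (by decide +kernel)
def Gc : Cd Spor.M12 := cd12 0x5ba93aa2d07c6412a92d39ae061062 (by decide +kernel)
def Gab : Cd Spor.M12 := cd12 0x546747b4f2aba03bad88b10a249820 (by decide +kernel)
def Gac : Cd Spor.M12 := cd12 0x395f49b552add0172c90b322049862 (by decide +kernel)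
def Gbc : Cd Spor.M12 := cd12 0x3bdc5a0d70ad8419de488b540624c4 (by decide +kernel)
def Gabc : Cd Spor.M12 := cd12 0xaad47ba6628d0c1b3983291e0941a8 (by decide +kernel)
def H0 : Cd Spor.M12 := cd12 0xbdab49ca307b9ac5a928398a418820 (by decide +kernel)
def H1 : Cd Spor.M12 := cd12 0xb5eb3a2170795a38a8d23a5c261020 (by decide +kernel)
def H2 : Cd Spor.M12 := cd12 0x89ecba18adadd3053c929b1c818440 (by decide +kernel)
def R0 : Cd Spor.M12 := cd12 0xaad47ba6628d0c1b3983291e0941a8 (by decide +kernel)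
def R1 : Cd Spor.M12 := cd12 0xbd147991d079589aada8b4a2608c40 (by decide +kernel)
def R2 : Cd Spor.M12 := cd12 0x539f35a4f0b54c389448b868093584 (by decide +kernel)
def T2 : Cd Spor.M12 := cd12 0x29df3a41d2ac50952d8db12e608062 (by decide +kernel)
def K2 : Cd Spor.M12 := cd12 0xbd147991d079589aada8b4a2608c40 (by decide +kernel)
def K3 : Cd Spor.M12 := cd12 0x8d8eaa31d2adc905cd2d798a810460 (by decide +kernel)
def X : Cd Spor.M12 := cd12 0x516aeb868d7c4445ce48b18e364120 (by decide +kernel)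
def Z : Cd Spor.M12 := cd12 0xa39679ca28aa8d07d92cb8ca268024 (by decide +kernel)
def VX : Cd Spor.M12 := cd12 0xb5eae2a62d7d20359e465226460820 (by decide +kernel)
def VZ : Cd Spor.M12 := cd12 0x51dee9a62cad0705de48b18a269020 (by decide +kernel)
def VXZ : Cd Spor.M12 := cd12 0x9d9f1bca84ab98d5a828298f010d20 (by decide +kernel)
def VXZi : Cd Spor.M12 := cd12 0x9d8f5b99e42a92172c528a2906b060 (by decide +kernel)
def X0 : Cd Spor.M12 := cd12 S12t.Y0 (by decide +kernel)
def X1 : Cd Spor.M12 := cd12 S12t.Y1 (by decide +kernel)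
def X2 : Cd Spor.M12 := cd12 S12t.Y2 (by decide +kernel)
def U0 : Cd Spor.M12 := cd12 L12x.Y0 (by decide +kernel)
def U1 : Cd Spor.M12 := cd12 L12x.Y1 (by decide +kernel)

section

variable {E : Type*} [Group E] {τ : E →* Spor.M12} {z : E}

theorem LSB (h : PExt 2 τ z) : PExt.LS τ (toG B0) := by
  refine h.LS_pure (a := toG B0) (b := toG B1) (c := toG B2) ?_ ?_ ?_ ?_
    (toG Gb) (toG Gc) (toG Gab) (toG Gac) (toG Gbc) (toG Gabc) ?_ ?_ ?_ ?_ ?_ ?_
  · exact wqG [B0, B1] [B1, B0] (by decide +kernel)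
  · exact wqG [B0, B2] [B2, B0] (by decide +kernel)
  · exact wqG [B1, B2] [B2, B1] (by decide +kernel)
  · exact wqG [B0, B0] [] (by decide +kernel)
  · exact wqG [Gb, B0] [B1, Gb] (by decide +kernel)
  · exact wqG [Gc, B0] [B2, Gc] (by decide +kernel)
  · rw [mul_assoc]; exact wqG [Gab, B0] [B0, B1, Gab] (by decide +kernel)
  · rw [mul_assoc]; exact wqG [Gac, B0] [B0, B2, Gac] (by decide +kernel)
  · rw [mul_assoc]; exact wqG [Gbc, B0] [B1, B2, Gbc] (by decide +kernel)
  · rw [mul_assoc, mul_assoc]; exact wqG [Gabc, B0] [B0, B1, B2, Gabc] (by decide +kernel)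

theorem two [Finite E] (h : PExt 2 τ z) (hA : PExt.LS τ (toG A0)) : z ∉ commutator E := by
  have hB := LSB h
  obtain ⟨x0, hx0⟩ := h.surj (toG X0)
  obtain ⟨x1, hx1⟩ := h.surj (toG X1)
  obtain ⟨x2, hx2⟩ := h.surj (toG X2)
  have i0 : x0 * x0 = 1 := h.LS_conj hA (g := toG H0) (k' := toG X0)
    (wqG [H0, A0] [X0, H0] (by decide +kernel)) _ hx0
  have i1 : x1 * x1 = 1 := h.LS_conj hB (g := toG H1) (k' := toG X1)
    (wqG [H1, B0] [X1, H1] (by decide +kernel)) _ hx1
  have i2 : x2 * x2 = 1 := h.LS_conj hA (g := toG H2) (k' := toG X2)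
    (wqG [H2, A0] [X2, H2] (by decide +kernel)) _ hx2
  have r0 : (x0 * (x1 * x2)) ^ 4 = 1 := by
    have := h.LS_conj hB (g := toG R0) (k' := (toG X0 * (toG X1 * toG X2)) * (toG X0 * (toG X1 * toG X2)))
      (by simp only [mul_assoc]; exact wqG [R0, B0] [X0, X1, X2, X0, X1, X2, R0] (by decide +kernel))
      (x0 * (x1 * x2) * (x0 * (x1 * x2))) (by simp only [map_mul, hx0, hx1, hx2])
    rw [← this]; simp only [pow_succ, pow_zero, one_mul, mul_assoc]
  have r1 : (x0 * (x1 * (x2 * x1))) ^ 2 = 1 := by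
    have := h.LS_conj hA (g := toG R1) (k' := toG X0 * (toG X1 * (toG X2 * toG X1)))
      (by simp only [mul_assoc]; exact wqG [R1, A0] [X0, X1, X2, X1, R1] (by decide +kernel))
      (x0 * (x1 * (x2 * x1))) (by simp only [map_mul, hx0, hx1, hx2])
    rw [pow_two]; exact this
  have r2 : (x0 * x2) ^ 2 = 1 := by
    have := h.LS_conj hB (g := toG R2) (k' := toG X0 * toG X2)
      (by simp only [mul_assoc]; exact wqG [R2, B0] [X0, X2, R2] (by decide +kernel))
      (x0 * x2) (by simp only [map_mul, hx0, hx2])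
    rw [pow_two]; exact this
  have j0 : x0⁻¹ = x0 := inv_eq_iff_mul_eq_one.mpr i0
  have j1 : x1⁻¹ = x1 := inv_eq_iff_mul_eq_one.mpr i1
  have j2 : x2⁻¹ = x2 := inv_eq_iff_mul_eq_one.mpr i2
  let s : ℕ → E := fun l => if l = 0 then x0 else if l = 1 then x1 else if l = 2 then x2 else 1
  have s0 : s 0 = x0 := rfl
  have s1 : s 1 = x1 := rfl
  have s2 : s 2 = x2 := rfl
  have hinv : ∀ l, s l = (s l)⁻¹ := by
    intro l
    show (if l = 0 then x0 else if l = 1 then x1 else if l = 2 then x2 else 1) =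
      (if l = 0 then x0 else if l = 1 then x1 else if l = 2 then x2 else 1)⁻¹
    split_ifs
    · exact j0.symm
    · exact j1.symm
    · exact j2.symm
    · exact inv_one.symm
  have hr2 : ∀ p ∈ S12t.rels2, ((p.1.map s).prod) ^ p.2 = 1 := by
    intro p hp
    simp only [S12t.rels2, List.mem_cons, List.not_mem_nil, or_false] at hp
    rcases hp with rfl | rfl | rfl
    · simpa only [List.map_cons, List.map_nil, List.prod_cons, List.prod_nil, mul_one, s0, s1, s2] using r0
    · simpa only [List.map_cons, List.map_nil, List.prod_cons, List.prod_nil, mul_one, s0, s1, s2] using r1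
    · simpa only [List.map_cons, List.map_nil, List.prod_cons, List.prod_nil, mul_one, s0, s1, s2] using r2
  obtain ⟨-, hup⟩ := S12t.upper s hinv hr2
  have hlow : 64 ≤ Nat.card ((letterGroup s 3).map τ) := by
    apply card_map_subtype
    have hm : ∀ l < 3, (τ (s l) : Equiv.Perm GolayPt) ∈ ((letterGroup s 3).map τ).map Spor.M12.subtype :=
      fun l hl => ⟨τ (s l), ⟨s l, Subgroup.subset_closure ⟨l, hl, rfl⟩, rfl⟩, rfl⟩
    apply S12t.lower
    · have := hm 0 (by norm_num); rwa [s0, hx0] at this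
    · have := hm 1 (by norm_num); rwa [s1, hx1] at this
    · have := hm 2 (by norm_num); rwa [s2, hx2] at this
  obtain ⟨hinj, hcard⟩ := compl_of_cards τ _ 64 hup hlow
  exact h.not_mem_of_compl Nat.prime_two _ hinj
    (index_coprime _ 64 1485 2 hcard H28.card_M12 (by norm_num) (by norm_num))

theorem three [Finite E] (h : PExt 3 τ z) : z ∉ commutator E := by
  have real : ∀ (x : E) (g u : Spor.M12), τ x = u → u ^ 3 = 1 → u * (g * u) = g → x ^ 3 = 1 := by
    intro x g u hx h3 hg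
    obtain ⟨w, hw⟩ := h.surj g
    refine h.pow_eq_one_of_real Nat.prime_three (by norm_num) (by rw [hx]; exact h3) (g := w) ?_
    rw [hw, hx, mul_inv_eq_iff_eq_mul, eq_inv_mul_iff_mul_eq]
    exact hg
  obtain ⟨x, hx⟩ := h.surj (toG U0)
  obtain ⟨y, hy⟩ := h.surj (toG U1)
  have y2 : (toG U1)⁻¹ = toG U1 * toG U1 := by
    rw [inv_eq_iff_mul_eq_one]
    exact wqG [U1, U1, U1] [] (by decide +kernel)
  have x3 : x ^ 3 = 1 := real x (toG VX) (toG U0) hx (pwG U0 3 (by decide +kernel))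
    (wqG [U0, VX, U0] [VX] (by decide +kernel))
  have y3 : y ^ 3 = 1 := real y (toG VZ) (toG U1) hy (pwG U1 3 (by decide +kernel))
    (wqG [U1, VZ, U1] [VZ] (by decide +kernel))
  have xy3 : (x * y) ^ 3 = 1 := real (x * y) (toG VXZ) (toG U0 * toG U1) (by rw [map_mul, hx, hy])
    (by simp only [pow_succ, pow_zero, one_mul, mul_assoc]; exact wqG [U0, U1, U0, U1, U0, U1] [] (by decide +kernel))
    (by simp only [mul_assoc]; exact wqG [U0, U1, VXZ, U0, U1] [VXZ] (by decide +kernel))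
  have xy3' : (x * y⁻¹) ^ 3 = 1 := real (x * y⁻¹) (toG VXZi) (toG U0 * (toG U1 * toG U1))
    (by rw [map_mul, map_inv, hx, hy, y2])
    (by simp only [pow_succ, pow_zero, one_mul, mul_assoc]; exact wqG [U0, U1, U1, U0, U1, U1, U0, U1, U1] [] (by decide +kernel))
    (by simp only [mul_assoc]; exact wqG [U0, U1, U1, VXZi, U0, U1, U1] [VXZi] (by decide +kernel))
  obtain ⟨-, hup⟩ := card_le_27 x y x3 y3 xy3 xy3'
  have hmap : (Subgroup.closure {x, y}).map τ = Subgroup.closure {toG U0, toG U1} := by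
    rw [MonoidHom.map_closure, Set.image_pair, hx, hy]
  have hlow : 27 ≤ Nat.card ((Subgroup.closure {x, y}).map τ) := by
    rw [hmap]
    apply card_map_subtype
    apply L12x.lower
    · exact ⟨toG U0, Subgroup.subset_closure (Set.mem_insert _ _), rfl⟩
    · exact ⟨toG U1, Subgroup.subset_closure (Set.mem_insert_of_mem _ rfl), rfl⟩
  obtain ⟨hinj, hcard⟩ := compl_of_cards τ _ 27 hup hlow
  exact h.not_mem_of_compl Nat.prime_three _ hinj
    (index_coprime _ 27 3520 3 hcard H28.card_M12 (by norm_num) (by norm_num))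

end

theorem upper (Γ : Type) [Group Γ] [Finite Γ] (σ : Γ →* Spor.M12) (hσ : Cfsg.IsStemExtension σ) :
    Nat.card σ.ker ≤ 2 := by
  refine card_ker_le_two ?_ (toG A0) (toG A0) (toG T2) 1 (toG K2) (toG K3) ?_ ?_ ?_ ?_ ?_ ?_ σ hσ
  · intro p hp hp2 hd E _ _ τ z h
    rw [H28.card_M12] at hd
    rcases two_or_three (N := 95040) (a := 6) (b := 3) (m := 55) (by norm_num) (by norm_num) (by norm_num)
      (by decide +kernel) hp hd with h1 | h1
    · exact absurd h1 hp2
    · subst h1; exact three h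
  · exact wqG [A0, A0] [] (by decide +kernel)
  · exact wqG [A0, T2] [T2, A0] (by decide +kernel)
  · rw [one_mul, mul_one]
  · exact wqG [K2, A0] [T2, K2] (by decide +kernel)
  · rw [mul_assoc]; exact wqG [K3, A0] [A0, T2, K3] (by decide +kernel)
  · intro E _ _ τ z h hA
    exact two h hA

end Cfsg.Agent.H15.SchM12
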