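import Mathlib
import Cfsg.Agent.H15.SchM12
import Cfsg.Agent.H15.T.M12h

/-! # The double cover of M12 -/

set_option autoImplicit false

namespace Cfsg.Agent.H15.M12Cover

open Cfsg Cfsg.Agent.H7 Cfsg.Agent.H15.SchTool Cfsg.Agent.H15.MathCode
open scoped Pointwise

/-- the dodecad -/
def DL : List ℕ := [0, 1, 2, 3, 4, 6, 8, 9, 12, 13, 16, 18]
/-- the complement -/
def EL : List ℕ := [5, 7, 10, 11, 14, 15, 17, 19, 20, 21, 22, 23]

/-- matrix entry -/
def hb (r c : ℕ) : Bool := HB.testBit (24 * r + c)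

/-- lift check -/
def ckL (c m : ℕ) : Bool :=
  DL.all fun r => EL.all fun s =>
    Bool.xor (hb (papp c r) (papp c s)) (Bool.xor (hb r s) (Bool.xor (m.testBit r) (m.testBit s))) == false

/-- bit to residue -/
def bz (b : Bool) : ZMod 2 := if b then 1 else 0

theorem bz_xor (a b : Bool) : bz (Bool.xor a b) = bz a + bz b := by
  cases a <;> cases b <;> decide

/-- matrix entries -/
def hz (x y : GolayPt) : ZMod 2 := bz (hb (gidx x) (gidx y))
/-- sign function of a mask -/
def ez (m : ℕ) (x : GolayPt) : ZMod 2 := bz (m.testBit (gidx x))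

theorem mem_DL (x : GolayPt) (hx : x ∈ Spor.squareDodecad) : gidx x ∈ DL := by
  have h1 : gidx x < 24 := gidx_lt x
  have h2 : H28.sqMask.testBit (gidx x) = true := by
    rw [H28.squareDodecad_eq, ← gpt_gidx x, gpt_mem_toSet h1] at hx
    exact hx
  have : ∀ i < 24, H28.sqMask.testBit i = true → i ∈ DL := by decide +kernel
  exact this _ h1 h2

theorem mem_EL (x : GolayPt) (hx : x ∉ Spor.squareDodecad) : gidx x ∈ EL := by
  have h1 : gidx x < 24 := gidx_lt x
  have h2 : ¬ H28.sqMask.testBit (gidx x) = true := by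
    rw [H28.squareDodecad_eq, ← gpt_gidx x, gpt_mem_toSet h1] at hx
    exact hx
  have : ∀ i < 24, ¬ H28.sqMask.testBit i = true → i ∈ EL := by decide +kernel
  exact this _ h1 h2

theorem M12_mem (g : Spor.M12) (x : GolayPt) :
    (g : Equiv.Perm GolayPt) x ∈ Spor.squareDodecad ↔ x ∈ Spor.squareDodecad := by
  have h : (g : Equiv.Perm GolayPt) • Spor.squareDodecad = Spor.squareDodecad := g.2.2
  have h2 := Finset.smul_mem_smul_finset_iff (a := (g : Equiv.Perm GolayPt)) (b := x) (s := Spor.squareDodecad)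
  rw [h] at h2
  exact h2

/-- the double cover -/
@[ext] structure SE where
  /-- permutation -/
  g : Spor.M12
  /-- signs -/
  e : GolayPt → ZMod 2
  /-- compatibility -/
  ok : ∀ x ∈ Spor.squareDodecad, ∀ y ∉ Spor.squareDodecad,
    hz ((g : Equiv.Perm GolayPt) x) ((g : Equiv.Perm GolayPt) y) = hz x y + e x + e y

theorem two_z (a : ZMod 2) : a + a = 0 := by revert a; decide

/-- product -/
def mulSE (a b : SE) : SE where
  g := a.g * b.g
  e := fun x => b.e x + a.e ((b.g : Equiv.Perm GolayPt) x)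
  ok := by
    intro x hx y hy
    have h1 := a.ok _ ((M12_mem b.g x).2 hx) _ (fun h => hy ((M12_mem b.g y).1 h))
    have h2 := b.ok x hx y hy
    show hz ((a.g : Equiv.Perm GolayPt) ((b.g : Equiv.Perm GolayPt) x))
      ((a.g : Equiv.Perm GolayPt) ((b.g : Equiv.Perm GolayPt) y)) = _
    rw [h1, h2]; ring

/-- inverse -/
def invSE (a : SE) : SE where
  g := a.g⁻¹
  e := fun x => a.e (((a.g⁻¹ : Spor.M12) : Equiv.Perm GolayPt) x)
  ok := by
    intro x hx y hy
    have h1 := a.ok _ ((M12_mem a.g⁻¹ x).2 hx) _ (fun h => hy ((M12_mem a.g⁻¹ y).1 h))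
    have e1 : ∀ x : GolayPt, (a.g : Equiv.Perm GolayPt) (((a.g⁻¹ : Spor.M12) : Equiv.Perm GolayPt) x) = x := by
      intro x
      show (a.g : Equiv.Perm GolayPt) ((a.g : Equiv.Perm GolayPt)⁻¹ x) = x
      simp
    rw [e1, e1] at h1
    rw [h1]
    have h2 := two_z (a.e (((a.g⁻¹ : Spor.M12) : Equiv.Perm GolayPt) x))
    have h3 := two_z (a.e (((a.g⁻¹ : Spor.M12) : Equiv.Perm GolayPt) y))
    linear_combination (-1 : ZMod 2) * h2 - h3

/-- group structure -/
instance instGroupSE : Group SE :=
  { mul := mulSE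
    one := ⟨1, fun _ => 0, fun x _ y _ => by simp⟩
    inv := invSE
    mul_assoc := by
      intro a b c
      apply SE.ext
      · exact mul_assoc a.g b.g c.g
      · funext x
        show c.e x + (b.e _ + a.e _) = (c.e x + b.e _) + a.e _
        rw [add_assoc]; rfl
    one_mul := by
      intro a
      apply SE.ext
      · exact one_mul a.g
      · funext x; exact add_zero _
    mul_one := by
      intro a
      apply SE.ext
      · exact mul_one a.g
      · funext x; exact zero_add _
    inv_mul_cancel := by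
      intro a
      apply SE.ext
      · exact inv_mul_cancel a.g
      · funext x
        show a.e x + a.e (((a.g : Equiv.Perm GolayPt)⁻¹) ((a.g : Equiv.Perm GolayPt) x)) = 0
        have h : (a.g : Equiv.Perm GolayPt)⁻¹ ((a.g : Equiv.Perm GolayPt) x) = x := by simp
        rw [h]
        exact two_z _ }

theorem mul_g (a b : SE) : (a * b).g = a.g * b.g := rfl
theorem mul_e (a b : SE) (x : GolayPt) : (a * b).e x = b.e x + a.e ((b.g : Equiv.Perm GolayPt) x) := rfl
theorem one_g : (1 : SE).g = 1 := rfl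
theorem one_e (x : GolayPt) : (1 : SE).e x = 0 := rfl

/-- projection -/
def prj : SE →* Spor.M12 where
  toFun := SE.g
  map_one' := rfl
  map_mul' _ _ := rfl

instance instFiniteSE : Finite SE :=
  Finite.of_injective (fun a : SE => (a.g, a.e)) fun a b h =>
    SE.ext (congrArg Prod.fst h) (congrArg Prod.snd h)

/-- the central element -/
def cz : SE := ⟨1, fun _ => 1, fun x _ y _ => by
  have := two_z 1
  show hz x y = _
  linear_combination (-1 : ZMod 2) * this⟩

theorem cz_ne : cz ≠ 1 := by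
  intro h
  have := congrFun (congrArg SE.e h) none
  exact absurd this (by decide)

theorem zero_mem : (gpt 0) ∈ Spor.squareDodecad := by
  rw [H28.squareDodecad_eq, gpt_mem_toSet (by norm_num)]; decide +kernel

theorem none_not_mem : (gpt 23) ∉ Spor.squareDodecad := by
  rw [H28.squareDodecad_eq, gpt_mem_toSet (by norm_num)]; decide +kernel

theorem ker_eq (a : SE) (h : prj a = 1) : a = 1 ∨ a = cz := by
  have hg : a.g = 1 := h
  have h1 : ∀ x ∈ Spor.squareDodecad, ∀ y ∉ Spor.squareDodecad, a.e x = a.e y := by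
    intro x hx y hy
    have h2 := a.ok x hx y hy
    rw [hg] at h2
    have h3 : hz x y = hz x y + a.e x + a.e y := h2
    have h4 := two_z (a.e y)
    linear_combination (-1 : ZMod 2) * h3 - h4
  have h2 : ∀ x, a.e x = a.e (gpt 0) := by
    intro x
    by_cases hx : x ∈ Spor.squareDodecad
    · rw [h1 x hx _ none_not_mem, h1 _ zero_mem _ none_not_mem]
    · rw [h1 _ zero_mem x hx]
  have h3 : ∀ t : ZMod 2, t = 0 ∨ t = 1 := by decide
  rcases h3 (a.e (gpt 0)) with h4 | h4
  · left
    apply SE.ext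
    · exact hg
    · funext x; rw [h2 x, h4]; rfl
  · right
    apply SE.ext
    · exact hg
    · funext x; rw [h2 x, h4]; rfl

theorem card_ker : Nat.card prj.ker = 2 := by
  have h1 : prj.ker = Subgroup.zpowers cz := by
    apply le_antisymm
    · intro a ha
      rcases ker_eq a ha with rfl | rfl
      · exact Subgroup.one_mem _
      · exact Subgroup.mem_zpowers _
    · rw [Subgroup.zpowers_le]; rfl
  rw [h1, Nat.card_zpowers]
  apply orderOf_eq_prime
  · rw [pow_two]
    apply SE.ext
    · exact mul_one _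
    · funext x; exact two_z 1
  · exact cz_ne

theorem ker_central : prj.ker ≤ Subgroup.center SE := by
  intro a ha
  rw [Subgroup.mem_center_iff]
  intro b
  rcases ker_eq a ha with rfl | rfl
  · rw [mul_one, one_mul]
  · apply SE.ext
    · show b.g * 1 = 1 * b.g
      rw [mul_one, one_mul]
    · funext x
      exact add_comm (1 : ZMod 2) (b.e x)

/-- lift of a checked pair -/
theorem lift_spec {c m : ℕ} (hc : isPermCode c = true) (hm : mkPerm c ∈ Spor.M12) (h : ckL c m = true) :
    ∀ x ∈ Spor.squareDodecad, ∀ y ∉ Spor.squareDodecad,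
      hz (mkPerm c x) (mkPerm c y) = hz x y + ez m x + ez m y := by
  intro x hx y hy
  have h1 := mem_DL x hx
  have h2 := mem_EL y hy
  have ex : gidx (mkPerm c x) = papp c (gidx x) := by
    conv_lhs => rw [← gpt_gidx x, mkPerm_gpt hc (gidx_lt x)]
    rw [gidx_gpt (papp_lt hc (gidx_lt x))]
  have ey : gidx (mkPerm c y) = papp c (gidx y) := by
    conv_lhs => rw [← gpt_gidx y, mkPerm_gpt hc (gidx_lt y)]
    rw [gidx_gpt (papp_lt hc (gidx_lt y))]
  unfold ckL at h
  rw [List.all_eq_true] at h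
  have h3 := h _ h1
  rw [List.all_eq_true] at h3
  have h4 := congrArg bz (eq_of_beq (h3 _ h2))
  rw [bz_xor, bz_xor, bz_xor] at h4
  unfold hz ez
  rw [ex, ey]
  have h5 : bz false = 0 := rfl
  rw [h5] at h4
  have h6 := two_z (bz (hb (gidx x) (gidx y)))
  have h7 := two_z (bz (m.testBit (gidx x)))
  have h8 := two_z (bz (m.testBit (gidx y)))
  linear_combination h4 - h6 - h7 - h8

/-- lifted element -/
noncomputable def lf (c m : ℕ) (h : (ck12 c && ckL c m) = true) : SE :=
  ⟨⟨mkPerm c, (cd12_aux (by rw [Bool.and_eq_true] at h; exact h.1)).2⟩, ez m,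
    lift_spec (cd12_aux (by rw [Bool.and_eq_true] at h; exact h.1)).1
      (cd12_aux (by rw [Bool.and_eq_true] at h; exact h.1)).2 (by rw [Bool.and_eq_true] at h; exact h.2)⟩

theorem mem_range {c m : ℕ} (h1 : ck12 c = true) (h2 : ckL c m = true) :
    ∃ hm : mkPerm c ∈ Spor.M12, (⟨mkPerm c, hm⟩ : Spor.M12) ∈ prj.range :=
  ⟨(cd12_aux h1).2, lf c m (by rw [h1, h2]; rfl), rfl⟩

/-- table entry check -/
def ckT (k j : ℕ) (p : ℕ × ℕ) : Bool :=
  Nat.beq (papp p.1 k) j && ((List.range k).all (fun i => Nat.beq (papp p.1 i) i) && (ck12 p.1 && ckL p.1 p.2))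

theorem step (k : ℕ) (hk : k < 5) (tab : List (ℕ × ℕ))
    (htab : DL.all (fun j => Nat.ble (j + 1) k || tab.any (ckT k j)) = true)
    (ih : ∀ g : Spor.M12, (∀ i < k + 1, (g : Equiv.Perm GolayPt) (gpt i) = gpt i) → g ∈ prj.range) :
    ∀ g : Spor.M12, (∀ i < k, (g : Equiv.Perm GolayPt) (gpt i) = gpt i) → g ∈ prj.range := by
  intro g hg
  have hkD : gpt k ∈ Spor.squareDodecad := by
    rw [H28.squareDodecad_eq, gpt_mem_toSet (by omega)]
    have : ∀ k < 5, H28.sqMask.testBit k = true := by decide +kernel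
    exact this k hk
  have h1 := mem_DL _ ((M12_mem g _).2 hkD)
  set j := gidx ((g : Equiv.Perm GolayPt) (gpt k)) with hj
  have hjl : j < 24 := gidx_lt _
  have hgj : (g : Equiv.Perm GolayPt) (gpt k) = gpt j := by rw [hj, gpt_gidx]
  rw [List.all_eq_true] at htab
  have h2 := htab j h1
  rw [Bool.or_eq_true] at h2
  rcases h2 with h2 | h2
  · exfalso
    have h3 := Nat.le_of_ble_eq_true h2
    have h4 := hg j (by omega)
    rw [← h4] at hgj
    have h5 := (g : Equiv.Perm GolayPt).injective hgj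
    have h6 := congrArg gidx h5
    rw [gidx_gpt (by omega), gidx_gpt (by omega)] at h6
    omega
  · rw [List.any_eq_true] at h2
    obtain ⟨⟨c, m⟩, -, h3⟩ := h2
    unfold ckT at h3
    rw [Bool.and_eq_true, Bool.and_eq_true, Bool.and_eq_true, List.all_eq_true] at h3
    obtain ⟨h4, h5, h6, h7⟩ := h3
    obtain ⟨hm, hr⟩ := mem_range h6 h7
    have hp := (cd12_aux h6).1
    have h8 : mkPerm c (gpt k) = gpt j := by
      rw [mkPerm_gpt hp (by omega), Nat.eq_of_beq_eq_true h4]
    have h9 : ∀ i < k, mkPerm c (gpt i) = gpt i := by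
      intro i hi
      rw [mkPerm_gpt hp (by omega), Nat.eq_of_beq_eq_true (h5 i (List.mem_range.2 hi))]
    have h10 : (⟨mkPerm c, hm⟩ : Spor.M12)⁻¹ * g ∈ prj.range := by
      apply ih
      intro i hi
      show (mkPerm c)⁻¹ ((g : Equiv.Perm GolayPt) (gpt i)) = gpt i
      rw [Equiv.Perm.inv_eq_iff_eq]
      rcases Nat.lt_or_ge i k with h | h
      · rw [hg i h, h9 i h]
      · have : i = k := by omega
        subst this
        rw [hgj, h8]
    have h11 := prj.range.mul_mem hr h10
    rwa [mul_inv_cancel_left] at h11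

theorem surj : Function.Surjective prj := by
  rw [← MonoidHom.range_eq_top, eq_top_iff]
  intro g _
  have h5 : ∀ g : Spor.M12, (∀ i < 5, (g : Equiv.Perm GolayPt) (gpt i) = gpt i) → g ∈ prj.range := by
    intro g hg
    have : g = 1 := by
      apply Subtype.ext
      apply H28.M12_fix g.2 (fun i : Fin 5 => (i : ℕ)) (fun i => by omega) Fin.val_injective
      · decide +kernel
      · intro i; exact hg i i.2
    rw [this]; exact prj.range.one_mem
  have h4 := step 4 (by norm_num) (tabs.getD 4 []) (by decide +kernel) h5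
  have h3 := step 3 (by norm_num) (tabs.getD 3 []) (by decide +kernel) h4
  have h2 := step 2 (by norm_num) (tabs.getD 2 []) (by decide +kernel) h3
  have h1 := step 1 (by norm_num) (tabs.getD 1 []) (by decide +kernel) h2
  have h0 := step 0 (by norm_num) (tabs.getD 0 []) (by decide +kernel) h1
  exact h0 g (fun i hi => absurd hi (Nat.not_lt_zero i))

/-- sign check of the commutator -/
def ckZ (c m d n : ℕ) : Bool :=
  (List.range 24).all fun i =>
    Bool.xor (Bool.xor (n.testBit i) (m.testBit (papp d i)))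
      (Bool.xor (m.testBit i) (n.testBit (papp c i)))

theorem cz_mem : cz ∈ commutator SE := by
  obtain ⟨ha1, ha2⟩ : ck12 pa.1 = true ∧ ckL pa.1 pa.2 = true := by decide +kernel
  obtain ⟨hb1, hb2⟩ : ck12 pb.1 = true ∧ ckL pb.1 pb.2 = true := by decide +kernel
  obtain ⟨a, hag, hae⟩ : ∃ a : SE, (a.g : Equiv.Perm GolayPt) = mkPerm pa.1 ∧ a.e = ez pa.2 :=
    ⟨lf pa.1 pa.2 (by rw [ha1, ha2]; rfl), rfl, rfl⟩
  obtain ⟨b, hbg, hbe⟩ : ∃ b : SE, (b.g : Equiv.Perm GolayPt) = mkPerm pb.1 ∧ b.e = ez pb.2 :=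
    ⟨lf pb.1 pb.2 (by rw [hb1, hb2]; rfl), rfl, rfl⟩
  have hpa := (cd12_aux ha1).1
  have hpb := (cd12_aux hb1).1
  have hcomm : a.g * b.g = b.g * a.g := by
    apply Subtype.ext
    show (a.g : Equiv.Perm GolayPt) * (b.g : Equiv.Perm GolayPt) = (b.g : Equiv.Perm GolayPt) * (a.g : Equiv.Perm GolayPt)
    rw [hag, hbg, ← mkPerm_pmul hpa hpb (isPermCode_pmul hpa hpb),
      ← mkPerm_pmul hpb hpa (isPermCode_pmul hpb hpa)]
    have : Nat.beq (pmul pa.1 pb.1) (pmul pb.1 pa.1) = true := by decide +kernel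
    rw [Nat.eq_of_beq_eq_true this]
  have hz : a * b = cz * (b * a) := by
    apply SE.ext
    · rw [mul_g, mul_g, mul_g, hcomm]
      exact (one_mul _).symm
    · funext x
      rw [mul_e, mul_e, mul_e, hae, hbe, hag, hbg]
      have hck : ckZ pa.1 pa.2 pb.1 pb.2 = true := by decide +kernel
      unfold ckZ at hck
      rw [List.all_eq_true] at hck
      have h1 := hck (gidx x) (List.mem_range.2 (gidx_lt x))
      have h2 := congrArg bz h1
      rw [bz_xor, bz_xor, bz_xor] at h2
      have ex : ∀ {c : ℕ}, isPermCode c = true → gidx (mkPerm c x) = papp c (gidx x) := by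
        intro c hc
        conv_lhs => rw [← gpt_gidx x, mkPerm_gpt hc (gidx_lt x)]
        rw [gidx_gpt (papp_lt hc (gidx_lt x))]
      unfold ez
      rw [ex hpa, ex hpb]
      have h3 : bz true = 1 := rfl
      rw [h3] at h2
      show _ = _ + (1 : ZMod 2)
      have h4 := two_z (bz (Nat.testBit pa.2 (gidx x)))
      have h5 := two_z (bz (Nat.testBit pb.2 (papp pa.1 (gidx x))))
      linear_combination h2 - h4 - h5
  have h1 : cz = a * b * a⁻¹ * b⁻¹ := by
    rw [hz]; group
  rw [h1]
  exact Subgroup.commutator_mem_commutator (Subgroup.mem_top a) (Subgroup.mem_top b)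

theorem stem : IsStemExtension prj := by
  refine ⟨surj, ker_central, ?_⟩
  intro a ha
  rcases ker_eq a ha with rfl | rfl
  · exact Subgroup.one_mem _
  · exact cz_mem

theorem schur : HasCyclicSchurMultiplier Spor.M12 2 :=
  PExtN.hasCyclic_two ⟨SE, inferInstance, inferInstance, prj, stem, card_ker⟩
    fun Γ _ _ σ hσ => SchM12.upper Γ σ hσ

end Cfsg.Agent.H15.M12Cover
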