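import Cfsg.Agent.S1611

/-!
# The triple cover of `A₆` inside the monomial group of the hexacode
-/

set_option autoImplicit false
set_option linter.unusedSectionVars false
set_option maxHeartbeats 1000000

namespace Cfsg.Agent.H15.M9

open Cfsg Cfsg.Agent.S1611

section
variable {K : Type} [Field K] [Fintype K]

abbrev W6 (K : Type) [Field K] := (Fin 6 → Kˣ) ⋊[(mulAutArrow : Equiv.Perm (Fin 6) →* MulAut (Fin 6 → Kˣ))] Equiv.Perm (Fin 6)

instance : Finite (W6 K) := Finite.of_equiv _ (SemidirectProduct.equivProd (N := Fin 6 → Kˣ) (G := Equiv.Perm (Fin 6))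
  (φ := mulAutArrow)).symm

theorem mul_left' (a b : W6 K) : (a * b).left = fun i => a.left i * b.left (a.right.symm i) := rfl

def E0s (ω : K) : Submonoid (W6 K) where
  carrier := {w | pres ω w.right w.left}
  one_mem' := fun x hx => by
    have : monomialMap 1 (fun _ => 1) x = x := by
      funext p; show ((1 : Kˣ) : K) * x p = x p; rw [Units.val_one, one_mul]
    change monomialMap 1 (fun _ => 1) x ∈ _
    rw [this]; exact hx
  mul_mem' := by
    intro a b ha hb x hx
    change monomialMap (a.right * b.right) (fun i => a.left i * b.left (a.right.symm i)) x ∈ _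
    rw [← mono_comp]
    exact ha _ (hb _ hx)

/-- the monomial group of the hexacode -/
def E0 (ω : K) : Subgroup (W6 K) :=
  { E0s ω with
    inv_mem' := by
      intro w hw
      have h1 : w⁻¹ ∈ Subgroup.zpowers w := Subgroup.inv_mem _ (Subgroup.mem_zpowers w)
      rw [← IsOfFinOrder.mem_powers_iff_mem_zpowers (isOfFinOrder_of_finite w)] at h1
      obtain ⟨n, hn⟩ := h1
      have h2 : w ^ n ∈ E0s ω := pow_mem hw n
      rw [← hn]
      exact h2 }

theorem mem_E0 {ω : K} {w : W6 K} : w ∈ E0 ω ↔ pres ω w.right w.left := Iff.rfl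

/-- constants -/
def kap : Kˣ →* W6 K := SemidirectProduct.inl.comp (Pi.constMonoidHom (Fin 6) Kˣ)

theorem kap_left (u : Kˣ) : (kap u : W6 K).left = fun _ => u := rfl
theorem kap_right (u : Kˣ) : (kap u : W6 K).right = 1 := rfl

theorem kap_comm (u : Kˣ) (w : W6 K) : kap u * w = w * kap u := by
  apply SemidirectProduct.ext
  · funext i
    change u * w.left ((1 : Equiv.Perm (Fin 6)).symm i) = w.left i * u
    rw [mul_comm]; rfl
  · change 1 * w.right = w.right * 1
    rw [one_mul, mul_one]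

theorem kap_mem (ω : K) (u : Kˣ) : kap u ∈ E0 ω := by
  intro x hx
  have : monomialMap 1 (fun _ => u) x = (u : K) • x := by
    funext p; rfl
  change monomialMap 1 (fun _ => u) x ∈ _
  rw [this]
  exact Submodule.smul_mem _ _ hx

/-- the monomial map as a linear map -/
def mlin (σ : Equiv.Perm (Fin 6)) (c : Fin 6 → Kˣ) : (Fin 6 → K) →ₗ[K] (Fin 6 → K) where
  toFun := monomialMap σ c
  map_add' x y := by funext p; simp [monomialMap, mul_add]
  map_smul' r x := by funext p; simp [monomialMap]; ring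

theorem pres_of {ω : K} {σ : Equiv.Perm (Fin 6)} {c : Fin 6 → Kˣ}
    (h1 : monomialMap σ c ![ω, ω ^ 2, ω ^ 2, ω, ω ^ 2, ω] ∈ hexacode K ω)
    (h2 : monomialMap σ c ![ω ^ 2, ω, ω, ω ^ 2, ω ^ 2, ω] ∈ hexacode K ω)
    (h3 : monomialMap σ c ![ω ^ 2, ω, ω ^ 2, ω, ω, ω ^ 2] ∈ hexacode K ω) : pres ω σ c := by
  have h : hexacode K ω ≤ (hexacode K ω).comap (mlin σ c) := by
    unfold hexacode
    rw [Submodule.span_le]
    intro x hx
    simp only [Set.mem_insert_iff, Set.mem_singleton_iff] at hx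
    rcases hx with rfl | rfl | rfl
    · exact h1
    · exact h2
    · exact h3
  intro x hx
  exact h hx

def s1 : Equiv.Perm (Fin 6) := Equiv.addRight 2
def s2 : Equiv.Perm (Fin 6) := Equiv.swap 0 2 * Equiv.swap 2 4

theorem s1_symm : ∀ i, s1.symm i = ![4, 5, 0, 1, 2, 3] i := by decide
theorem s2_symm : ∀ i, s2.symm i = ![4, 1, 0, 3, 2, 5] i := by decide
theorem s12 : s1 * s2 = s2 * s1 := by decide
theorem s1_alt : s1 ∈ alternatingGroup (Fin 6) := Equiv.Perm.mem_alternatingGroup.2 (by decide +kernel)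
theorem s2_alt : s2 ∈ alternatingGroup (Fin 6) := Equiv.Perm.mem_alternatingGroup.2 (by decide +kernel)

variable {ω : K} {u : Kˣ}

def c2 (u : Kˣ) : Fin 6 → Kˣ := ![1, u ^ 2, u, 1, u ^ 2, u]

theorem r_mem (ω : K) : ![ω, ω ^ 2, ω ^ 2, ω, ω ^ 2, ω] ∈ hexacode K ω ∧ ![ω ^ 2, ω, ω, ω ^ 2, ω ^ 2, ω] ∈ hexacode K ω ∧
    ![ω ^ 2, ω, ω ^ 2, ω, ω, ω ^ 2] ∈ hexacode K ω :=
  ⟨Submodule.subset_span (by simp), Submodule.subset_span (by simp), Submodule.subset_span (by simp)⟩

theorem pres1 (ω : K) : pres ω s1 (fun _ => 1) := by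
  obtain ⟨q1, q2, q3⟩ := r_mem ω
  refine pres_of ?_ ?_ ?_
  · convert q2 using 1
    funext i
    change ((1 : Kˣ) : K) * _ = _
    rw [s1_symm]
    fin_cases i <;> simp
  · convert q3 using 1
    funext i
    change ((1 : Kˣ) : K) * _ = _
    rw [s1_symm]
    fin_cases i <;> simp
  · convert q1 using 1
    funext i
    change ((1 : Kˣ) : K) * _ = _
    rw [s1_symm]
    fin_cases i <;> simp

theorem pres2 (hu : (u : K) = ω) (h3 : ω ^ 3 = 1) : pres ω s2 (c2 u) := by
  obtain ⟨q1, q2, q3⟩ := r_mem ω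
  have h4 : ω ^ 4 = ω := by rw [pow_succ, h3, one_mul]
  have h5 : ω ^ 5 = ω ^ 2 := by rw [pow_succ, h4]; ring
  refine pres_of ?_ ?_ ?_
  · convert q3 using 1
    funext i
    change ((c2 u i : Kˣ) : K) * _ = _
    rw [s2_symm]
    fin_cases i <;> simp [c2, hu] <;> ring_nf <;> simp [h3, h4, h5]
  · convert Submodule.smul_mem _ ω q1 using 1
    funext i
    change ((c2 u i : Kˣ) : K) * _ = _
    rw [s2_symm]
    fin_cases i <;> simp [c2, hu] <;> ring_nf <;> simp [h3, h4, h5]
  · convert Submodule.smul_mem _ (ω ^ 2) q2 using 1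
    funext i
    change ((c2 u i : Kˣ) : K) * _ = _
    rw [s2_symm]
    fin_cases i <;> simp [c2, hu] <;> ring_nf <;> simp [h3, h4, h5]

def e1 : W6 K := ⟨fun _ => 1, s1⟩
def e2 (u : Kˣ) : W6 K := ⟨c2 u, s2⟩

theorem e12 (hu : u ^ 3 = 1) : e1 * e2 u = kap (u ^ 2) * (e2 u * e1) := by
  have h4 : u ^ 4 = u := by rw [pow_succ, hu, one_mul]
  apply SemidirectProduct.ext
  · funext i
    change 1 * c2 u (s1.symm i) = u ^ 2 * (c2 u ((1 : Equiv.Perm (Fin 6)).symm i) * 1)
    rw [s1_symm]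
    change 1 * c2 u (![4, 5, 0, 1, 2, 3] i) = u ^ 2 * (c2 u i * 1)
    fin_cases i <;> simp [c2, ← pow_add, ← pow_succ, hu, h4]
  · change s1 * s2 = 1 * (s2 * s1)
    rw [one_mul, s12]
end

end Cfsg.Agent.H15.M9
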