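import Cfsg.Agent.H15.M9a
import Cfsg.Agent.S0254
import Cfsg.Prelude.Def_KGroupFacts

/-!
# A stem extension of `SL₂(9)` with kernel of order three
-/

set_option autoImplicit false
set_option linter.unusedSectionVars false
set_option maxHeartbeats 1000000

namespace Cfsg.Agent.H15.M9

open Cfsg Cfsg.Agent.S1611

universe u

open scoped commutatorElement

theorem exists_K : ∃ (K : Type) (_ : Field K) (_ : Fintype K) (_ : DecidableEq K) (ω : K), Fintype.card K = 4 ∧ ω ^ 2 + ω + 1 = 0 ∧ ω ^ 3 = 1 := by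
  classical
  haveI : Fact (Nat.Prime 2) := ⟨Nat.prime_two⟩
  haveI : Fintype (GaloisField 2 2) := Fintype.ofFinite _
  have hc : Fintype.card (GaloisField 2 2) = 4 := by
    rw [← Nat.card_eq_fintype_card, GaloisField.card 2 2 (by norm_num)]
    norm_num
  obtain ⟨ω, hω0, hω1⟩ : ∃ ω : GaloisField 2 2, ω ≠ 0 ∧ ω ≠ 1 := by
    by_contra hcon
    push Not at hcon
    have h1 : (Finset.univ : Finset (GaloisField 2 2)) ⊆ {0, 1} := by
      intro x _
      by_cases hx : x = 0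
      · simp [hx]
      · simp [hcon x hx]
    have h2 := Finset.card_le_card h1
    rw [Finset.card_univ, hc] at h2
    have h3 : ({0, 1} : Finset (GaloisField 2 2)).card ≤ 2 := Finset.card_le_two
    omega
  have h3 : ω ^ 3 = 1 := by
    have := FiniteField.pow_card_sub_one_eq_one ω hω0
    rw [hc] at this
    exact this
  have h2 : (ω - 1) * (ω ^ 2 + ω + 1) = 0 := by
    have : (ω - 1) * (ω ^ 2 + ω + 1) = ω ^ 3 - 1 := by ring
    rw [this, h3, sub_self]
  refine ⟨GaloisField 2 2, inferInstance, inferInstance, inferInstance, ω, hc, ?_, h3⟩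
  exact (mul_eq_zero.1 h2).resolve_left (sub_ne_zero.2 hω1)

theorem exists_stem {F : Type u} [Field F] [Fintype F] (hF : Fintype.card F = 9) :
    ∃ (Γ : Type u) (_ : Group Γ) (_ : Finite Γ) (σ : Γ →* Matrix.SpecialLinearGroup (Fin 2) F),
      Cfsg.IsStemExtension σ ∧ Nat.card σ.ker = 3 := by
  classical
  obtain ⟨K, iK, iF, iD, ω, hK, hω, hω3⟩ := exists_K
  obtain ⟨e⟩ := S0254.result (F := F) hF
  obtain ⟨-, hdiag, hset⟩ := S1611.result K hK ω hω
  let θ : Matrix.SpecialLinearGroup (Fin 2) F →* Equiv.Perm (Fin 6) :=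
    (alternatingGroup (Fin 6)).subtype.comp (e.toMonoidHom.comp (QuotientGroup.mk' _))
  have hθA : ∀ g, θ g ∈ alternatingGroup (Fin 6) := fun g => (e (QuotientGroup.mk' _ g)).2
  have hθs : ∀ s ∈ alternatingGroup (Fin 6), ∃ g, θ g = s := by
    intro s hs
    obtain ⟨y, hy⟩ := e.surjective ⟨s, hs⟩
    obtain ⟨g, hg⟩ := QuotientGroup.mk'_surjective _ y
    refine ⟨g, ?_⟩
    change ((e (QuotientGroup.mk' _ g) : alternatingGroup (Fin 6)) : Equiv.Perm (Fin 6)) = s
    rw [hg, hy]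
  have hθk : ∀ g, θ g = 1 → g ^ 2 = 1 := by
    intro g hg
    have h1 : e (QuotientGroup.mk' _ g) = 1 := Subtype.ext hg
    rw [map_eq_one_iff e e.injective] at h1
    have h2 : g ∈ Subgroup.center (Matrix.SpecialLinearGroup (Fin 2) F) := (QuotientGroup.eq_one_iff _).1 h1
    obtain ⟨r, hr, hrg⟩ := Matrix.SpecialLinearGroup.mem_center_iff.1 h2
    apply Subtype.ext
    rw [Matrix.SpecialLinearGroup.coe_pow, ← hrg, ← map_pow]
    rw [Fintype.card_fin] at hr
    rw [hr, map_one]; rfl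
  let Γ : Subgroup (Matrix.SpecialLinearGroup (Fin 2) F × W6 K) :=
    ((E0 ω).comap (MonoidHom.snd _ _)) ⊓ ((θ.comp (MonoidHom.fst _ _)).eqLocus (SemidirectProduct.rightHom.comp (MonoidHom.snd _ _)))
  have hΓ : ∀ (g : Matrix.SpecialLinearGroup (Fin 2) F) (w : W6 K), (g, w) ∈ Γ ↔ w ∈ E0 ω ∧ θ g = w.right := fun g w => Iff.rfl
  let σ : Γ →* Matrix.SpecialLinearGroup (Fin 2) F := (MonoidHom.fst _ _).comp Γ.subtype
  have hσ : ∀ x : Γ, σ x = (x : Matrix.SpecialLinearGroup (Fin 2) F × W6 K).1 := fun x => rfl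
  haveI : Finite (Matrix.SpecialLinearGroup (Fin 2) F) := inferInstance
  haveI : Finite Γ := inferInstance
  -- the kernel
  have hkm : ∀ v : Kˣ, ((1 : Matrix.SpecialLinearGroup (Fin 2) F), kap v) ∈ Γ := fun v => (hΓ _ _).2 ⟨kap_mem ω v, by rw [map_one]; rfl⟩
  let ι : Kˣ →* Γ := MonoidHom.mk' (fun v => ⟨(1, kap v), hkm v⟩) (by
    intro a b
    apply Subtype.ext
    apply Prod.ext
    · exact (one_mul 1).symm
    · exact map_mul kap a b)
  have hker : ∀ x : Γ, σ x = 1 → ∃ v, x = ι v := by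
    rintro ⟨⟨g, w⟩, hx⟩ h
    have hg : g = 1 := h
    subst hg
    obtain ⟨h1, h2⟩ := (hΓ _ _).1 hx
    rw [map_one] at h2
    have h3 : pres ω 1 w.left := by
      have := mem_E0.1 h1
      rwa [← h2] at this
    have h4 := hdiag w.left h3
    refine ⟨w.left 0, Subtype.ext (Prod.ext rfl ?_)⟩
    apply SemidirectProduct.ext
    · funext i
      exact h4 i 0
    · exact h2.symm
  have hι : Function.Injective ι := by
    intro a b h
    have h1 : (kap a : W6 K) = kap b := congrArg (fun x : Γ => (x : Matrix.SpecialLinearGroup (Fin 2) F × W6 K).2) h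
    have h2 := congrFun (congrArg SemidirectProduct.left h1) 0
    exact h2
  have hrange : σ.ker = ι.range := by
    ext x
    constructor
    · intro h
      obtain ⟨v, hv⟩ := hker x h
      exact ⟨v, hv.symm⟩
    · rintro ⟨v, rfl⟩
      rfl
  have hcardU : Nat.card Kˣ = 3 := by
    rw [Nat.card_units, Nat.card_eq_fintype_card, hK]
  refine ⟨Γ, inferInstance, inferInstance, σ, ⟨?_, ?_, ?_⟩, ?_⟩
  · intro g
    have h1 : θ g ∈ {σ : Equiv.Perm (Fin 6) | ∃ c : Fin 6 → Kˣ, (∀ x ∈ Cfsg.hexacode K ω, Cfsg.monomialMap σ c x ∈ Cfsg.hexacode K ω)} := by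
      rw [hset]; exact hθA g
    obtain ⟨c, hc⟩ := h1
    exact ⟨⟨(g, ⟨c, θ g⟩), (hΓ _ _).2 ⟨hc, rfl⟩⟩, rfl⟩
  · intro x hx
    obtain ⟨v, rfl⟩ := hker x hx
    rw [Subgroup.mem_center_iff]
    rintro ⟨⟨g, w⟩, hy⟩
    apply Subtype.ext
    apply Prod.ext
    · change g * 1 = 1 * g
      rw [mul_one, one_mul]
    · exact (kap_comm v w).symm
  · -- the commutator
    have hω0 : ω ≠ 0 := by rintro rfl; norm_num at hω3
    obtain ⟨u, hu⟩ : ∃ u : Kˣ, (u : K) = ω := ⟨Units.mk0 ω hω0, rfl⟩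
    have hu3 : u ^ 3 = 1 := by
      apply Units.ext
      rw [Units.val_pow_eq_pow_val, hu, hω3]; rfl
    have hu1 : u ^ 2 ≠ 1 := by
      intro h
      have h1 : u = 1 := by
        have : u ^ 3 = u ^ 2 * u := by rw [pow_succ]
        rw [hu3, h, one_mul] at this
        exact this.symm
      have h2 : ω = 1 := by rw [← hu, h1]; rfl
      rw [h2] at hω
      have h3 : (3 : K) = 0 := by linear_combination hω
      have h4 : (2 : K) = 0 := by
        have h5 : (4 : K) = 0 := by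
          have := FiniteField.cast_card_eq_zero K
          rw [hK] at this
          exact_mod_cast this
        have h6 : (2 : K) * 2 = 0 := by linear_combination h5
        rcases mul_eq_zero.1 h6 with h | h <;> exact h
      exact one_ne_zero (α := K) (by linear_combination h3 - h4)
    obtain ⟨g1, hg1⟩ := hθs s1 s1_alt
    obtain ⟨g2, hg2⟩ := hθs s2 s2_alt
    let γ1 : Γ := ⟨(g1, H15.M9.e1), (hΓ _ _).2 ⟨pres1 ω, hg1⟩⟩
    let γ2 : Γ := ⟨(g2, H15.M9.e2 u), (hΓ _ _).2 ⟨pres2 hu hω3, hg2⟩⟩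
    have hm : θ (g1 * g2 * (g2 * g1)⁻¹) = 1 := by
      rw [map_mul, map_mul, map_inv, map_mul, hg1, hg2, s12, mul_inv_cancel]
    have hm2 := hθk _ hm
    have hcm : γ1 * γ2 * (γ2 * γ1)⁻¹ ∈ commutator Γ := by
      have h1 := Subgroup.commutator_mem_commutator (Subgroup.mem_top γ1) (Subgroup.mem_top γ2)
      have h2 : γ1 * γ2 * (γ2 * γ1)⁻¹ = ⁅γ1, γ2⁆ := by rw [commutatorElement_def]; group
      rw [h2]; exact h1
    have h4 : (γ1 * γ2 * (γ2 * γ1)⁻¹) ^ 4 = ι (u ^ 2) := by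
      apply Subtype.ext
      apply Prod.ext
      · change (g1 * g2 * (g2 * g1)⁻¹) ^ 4 = 1
        have : (g1 * g2 * (g2 * g1)⁻¹) ^ 4 = ((g1 * g2 * (g2 * g1)⁻¹) ^ 2) ^ 2 := by rw [← pow_mul]
        rw [this, hm2, one_pow]
      · change (H15.M9.e1 * H15.M9.e2 u * (H15.M9.e2 u * H15.M9.e1)⁻¹) ^ 4 = kap (u ^ 2)
        rw [e12 hu3, mul_inv_cancel_right, ← map_pow]
        congr 1
        calc (u ^ 2) ^ 4 = u ^ 2 * (u ^ 3) ^ 2 := by rw [← pow_mul, ← pow_mul, ← pow_add]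
          _ = u ^ 2 := by rw [hu3, one_pow, mul_one]
    intro x hx
    obtain ⟨v, rfl⟩ := hker x hx
    haveI : Fact (Nat.Prime 3) := ⟨Nat.prime_three⟩
    obtain ⟨k, hk⟩ := Subgroup.mem_zpowers_iff.1 (mem_zpowers_of_prime_card hcardU hu1 (g' := v))
    rw [← hk, map_zpow, ← h4]
    exact Subgroup.zpow_mem _ (Subgroup.pow_mem _ hcm 4) k
  · rw [hrange, ← hcardU]
    exact (Nat.card_congr (MonoidHom.ofInjective hι).toEquiv).symm

end Cfsg.Agent.H15.M9
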