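import Cfsg.Agent.H12.StemRes
import Cfsg.Agent.H12.SL2Stem
import Cfsg.Agent.H15.StemTwo

/-!
# Stem extensions of `SL₂(9)`: the upper bound
-/

set_option autoImplicit false
set_option linter.unusedSectionVars false
set_option maxHeartbeats 1000000

namespace Cfsg.Agent.H15.M9

open Cfsg Cfsg.Agent.H15 Cfsg.Agent.H15.PExtN Subgroup

universe u v

open scoped commutatorElement

/-- stem extensions of an abelian group generated by two elements, one of them of order dividing `n` -/
theorem stem_two_gen {E : Type u} {H : Type v} [Group E] [Finite E] [Group H] (σ : E →* H) (hst : Cfsg.IsStemExtension σ)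
    (hab : ∀ a b : H, a * b = b * a) (a b : H) (hgen : closure ({a, b} : Set H) = ⊤) (n : ℕ) (hn : 0 < n) (ha : a ^ n = 1) :
    Nat.card σ.ker ≤ n := by
  obtain ⟨hs, hc, hk⟩ := hst
  obtain ⟨x, hx⟩ := hs a
  obtain ⟨y, hy⟩ := hs b
  have hcen : ∀ g h : E, ⁅g, h⁆ ∈ center E := by
    intro g h
    apply hc
    rw [MonoidHom.mem_ker, map_commutatorElement, commutatorElement_eq_one_iff_mul_comm]
    exact hab _ _
  obtain ⟨c, hcdef⟩ : ∃ c, c = ⁅x, y⁆ := ⟨_, rfl⟩
  have hcc : c ∈ center E := by rw [hcdef]; exact hcen x y
  have hZ : (zpowers c).Normal := by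
    constructor
    intro z hz g
    obtain ⟨k, rfl⟩ := mem_zpowers_iff.1 hz
    have h1 : c ^ k ∈ center E := zpow_mem hcc k
    rw [mem_center_iff.1 h1 g, mul_inv_cancel_right]
    exact zpow_mem (mem_zpowers c) k
  -- the quotient is abelian
  have hgenE : closure ({x, y} ∪ (σ.ker : Set E)) = ⊤ := by
    rw [eq_top_iff]
    intro g _
    have h1 : σ g ∈ closure ({a, b} : Set H) := by rw [hgen]; trivial
    have h2 : closure ({a, b} : Set H) = (closure ({x, y} : Set E)).map σ := by
      rw [MonoidHom.map_closure, Set.image_pair, hx, hy]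
    rw [h2] at h1
    obtain ⟨g', hg', hgg⟩ := h1
    have h3 : g = g' * (g'⁻¹ * g) := by group
    rw [h3]
    refine mul_mem (closure_mono Set.subset_union_left hg') (subset_closure (Or.inr ?_))
    change σ (g'⁻¹ * g) = 1
    rw [map_mul, map_inv, hgg, inv_mul_cancel]
  have hq : ∀ g h : E, (QuotientGroup.mk' (zpowers c) g) * (QuotientGroup.mk' (zpowers c) h) =
      (QuotientGroup.mk' (zpowers c) h) * (QuotientGroup.mk' (zpowers c) g) := by
    have hS : ∀ s ∈ ({x, y} ∪ (σ.ker : Set E) : Set E), ∀ t ∈ ({x, y} ∪ (σ.ker : Set E) : Set E),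
        (QuotientGroup.mk' (zpowers c) s) * (QuotientGroup.mk' (zpowers c) t) =
          (QuotientGroup.mk' (zpowers c) t) * (QuotientGroup.mk' (zpowers c) s) := by
      have hxy : (QuotientGroup.mk' (zpowers c) x) * (QuotientGroup.mk' (zpowers c) y) =
          (QuotientGroup.mk' (zpowers c) y) * (QuotientGroup.mk' (zpowers c) x) := by
        rw [← commutatorElement_eq_one_iff_mul_comm, ← map_commutatorElement, ← hcdef]
        exact (QuotientGroup.eq_one_iff c).2 (mem_zpowers c)
      have hkc : ∀ s ∈ σ.ker, ∀ t : E, s * t = t * s := fun s hs' t => (mem_center_iff.1 (hc hs') t).symm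
      intro s hs' t ht
      rcases hs' with (rfl | rfl) | hs'
      · rcases ht with (rfl | rfl) | ht
        · rfl
        · exact hxy
        · rw [← map_mul, ← map_mul, hkc t ht]
      · rcases ht with (rfl | rfl) | ht
        · exact hxy.symm
        · rfl
        · rw [← map_mul, ← map_mul, hkc t ht]
      · rw [← map_mul, ← map_mul, hkc s hs']
    have h1 : ∀ g : E, ∀ t ∈ ({x, y} ∪ (σ.ker : Set E) : Set E),
        (QuotientGroup.mk' (zpowers c) g) * (QuotientGroup.mk' (zpowers c) t) =
          (QuotientGroup.mk' (zpowers c) t) * (QuotientGroup.mk' (zpowers c) g) := by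
      intro g t ht
      have hg : g ∈ closure ({x, y} ∪ (σ.ker : Set E)) := by rw [hgenE]; trivial
      induction hg using closure_induction with
      | mem s hs' => exact hS s hs' t ht
      | one => rw [map_one, one_mul, mul_one]
      | mul p q _ _ hp hq => rw [map_mul, mul_assoc, hq, ← mul_assoc, hp, mul_assoc]
      | inv p _ hp =>
        rw [map_inv]
        have : Commute (QuotientGroup.mk' (zpowers c) p) (QuotientGroup.mk' (zpowers c) t) := hp
        exact this.inv_left.eq
    intro g h
    have hh : h ∈ closure ({x, y} ∪ (σ.ker : Set E)) := by rw [hgenE]; trivial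
    induction hh using closure_induction with
    | mem s hs' => exact h1 g s hs'
    | one => rw [map_one, one_mul, mul_one]
    | mul p q _ _ hp hq => rw [map_mul, ← mul_assoc, hp, mul_assoc, hq, mul_assoc]
    | inv p _ hp =>
      rw [map_inv]
      have : Commute (QuotientGroup.mk' (zpowers c) g) (QuotientGroup.mk' (zpowers c) p) := hp
      exact this.inv_right.eq
  have hcomm : commutator E ≤ zpowers c := by
    rw [_root_.commutator_def, commutator_le]
    intro g _ h _
    rw [← QuotientGroup.eq_one_iff]
    change QuotientGroup.mk' (zpowers c) ⁅g, h⁆ = 1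
    rw [map_commutatorElement, commutatorElement_eq_one_iff_mul_comm]
    exact hq g h
  have hcn : c ^ n = 1 := by
    -- `[x, y] ^ n = [x ^ n, y]`
    have h1 : ∀ k : ℕ, x ^ k * y = c ^ k * y * x ^ k := by
      intro k
      induction k with
      | zero => simp
      | succ k ih =>
        have h2 : x * y = c * y * x := by rw [hcdef, commutatorElement_def]; group
        have h3 : ∀ g : E, g * c = c * g := fun g => mem_center_iff.1 hcc g
        have h4 : x ^ k * c = c * x ^ k := h3 _
        calc x ^ (k + 1) * y = x ^ k * (x * y) := by rw [pow_succ, mul_assoc]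
          _ = (x ^ k * c) * y * x := by rw [h2]; group
          _ = c * (x ^ k * y) * x := by rw [h4]; group
          _ = c * (c ^ k * y * x ^ k) * x := by rw [ih]
          _ = c ^ (k + 1) * y * x ^ (k + 1) := by rw [pow_succ' c, pow_succ x]; group
    have h2 : x ^ n ∈ center E := by
      apply hc
      rw [MonoidHom.mem_ker, map_pow, hx, ha]
    have h3 := h1 n
    have h4 := mem_center_iff.1 h2 y
    rw [← h4] at h3
    have h5 : c ^ n * (y * x ^ n) = 1 * (y * x ^ n) := by rw [one_mul, ← mul_assoc]; exact h3.symm
    exact mul_right_cancel h5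
  have h1 : Nat.card σ.ker ≤ Nat.card (zpowers c) := Subgroup.card_le_of_le (hk.trans hcomm)
  rw [Nat.card_zpowers] at h1
  exact h1.trans (Nat.le_of_dvd hn (orderOf_dvd_of_pow_eq_one hcn))

end Cfsg.Agent.H15.M9
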