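import Cfsg.Agent.H15.M9c

/-!
# Stem extensions of `SL₂(9)`: the upper bound, continued
-/

set_option autoImplicit false
set_option linter.unusedSectionVars false
set_option maxHeartbeats 1000000

namespace Cfsg.Agent.H15.M9

open Cfsg Cfsg.Agent.H15 Cfsg.Agent.H15.PExtN Subgroup Cfsg.Agent.H12.SLS Cfsg.Agent

universe u v

theorem two_gen {H : Type v} [Group H] (hc : Nat.card H = 9) (h3 : ∀ a : H, a ^ 3 = 1) :
    ∃ a b : H, closure ({a, b} : Set H) = ⊤ := by
  haveI : Finite H := Nat.finite_of_card_ne_zero (by rw [hc]; norm_num)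
  haveI : Nontrivial H := (Finite.one_lt_card_iff_nontrivial).1 (by rw [hc]; norm_num)
  obtain ⟨a, ha⟩ := exists_ne (1 : H)
  have hoa : orderOf a = 3 := by
    haveI : Fact (Nat.Prime 3) := ⟨Nat.prime_three⟩
    exact orderOf_eq_prime (h3 a) ha
  obtain ⟨b, hb⟩ : ∃ b : H, b ∉ zpowers a := by
    by_contra hcon
    push Not at hcon
    have h1 : zpowers a = ⊤ := by rw [eq_top_iff]; intro x _; exact hcon x
    have h2 : Nat.card (zpowers a) = 9 := by rw [h1, Subgroup.card_top, hc]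
    rw [Nat.card_zpowers, hoa] at h2
    norm_num at h2
  refine ⟨a, b, ?_⟩
  have h1 : zpowers a ≤ closure ({a, b} : Set H) := by
    rw [zpowers_le]; exact subset_closure (by simp)
  have h2 : b ∈ closure ({a, b} : Set H) := subset_closure (by simp)
  have h4 := card_subgroup_dvd_card (closure ({a, b} : Set H))
  rw [hc] at h4
  have h5 := Subgroup.card_dvd_of_le h1
  rw [Nat.card_zpowers, hoa] at h5
  have h6 : Nat.card (closure ({a, b} : Set H)) ≠ 3 := by
    intro h6
    have h7 : zpowers a = closure ({a, b} : Set H) := by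
      apply Subgroup.eq_of_le_of_card_ge h1
      rw [Nat.card_zpowers, hoa, h6]
    rw [← h7] at h2
    exact hb h2
  have h7 : Nat.card (closure ({a, b} : Set H)) = 9 := by
    have h8 : Nat.card (closure ({a, b} : Set H)) ≤ 9 := Nat.le_of_dvd (by norm_num) h4
    interval_cases h : Nat.card (closure ({a, b} : Set H)) <;> omega
  exact Subgroup.eq_top_of_card_eq _ (by rw [h7, hc])

theorem upper {F : Type u} [Field F] [Fintype F] (hF : Fintype.card F = 9) (Γ : Type u) [Group Γ] [Finite Γ]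
    (σ : Γ →* Matrix.SpecialLinearGroup (Fin 2) F) (hst : Cfsg.IsStemExtension σ) :
    Nat.card σ.ker = 1 ∨ Nat.card σ.ker = 3 := by
  classical
  obtain ⟨p, hpc⟩ := CharP.exists F
  obtain ⟨n, hp, hn⟩ := FiniteField.card F p
  have hp3 : p = 3 := by
    have h1 : p ∣ 3 ^ 2 := by
      rw [hF] at hn
      have : (3 ^ 2 : ℕ) = p ^ (n : ℕ) := by rw [← hn]; norm_num
      rw [this]
      exact dvd_pow_self p n.2.ne'
    exact (Nat.prime_dvd_prime_iff_eq hp Nat.prime_three).1 (hp.dvd_of_dvd_pow h1)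
  subst hp3
  haveI : Fact (Nat.Prime 3) := ⟨Nat.prime_three⟩
  have hprime : ∀ l : ℕ, l.Prime → l ≠ 3 → ¬ l ∣ Nat.card σ.ker := by
    intro l hl hl3 hdvd
    haveI : Fact l.Prime := ⟨hl⟩
    obtain ⟨M, hM, τ, z, h, -, hz⟩ := exists_pext' σ hst l hdvd
    have hst' : Cfsg.IsStemExtension τ := by
      refine ⟨h.surj, ?_, ?_⟩
      · intro x hx
        obtain ⟨k, rfl⟩ := mem_zpowers_iff.1 ((h.ker x).1 hx)
        exact zpow_mem (mem_center_iff.2 h.cent) k
      · intro x hx
        obtain ⟨k, rfl⟩ := mem_zpowers_iff.1 ((h.ker x).1 hx)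
        exact zpow_mem hz k
    apply H12.SLS.stem_ne 3 l hl3 τ hst'
    have : τ.ker = zpowers z := by
      ext x
      exact h.ker x
    rw [this, Nat.card_zpowers, h.ord]
  have hcop : (Nat.card σ.ker).Coprime (UU F).index := by
    apply H12.coprime_of_prime_free Nat.card_pos.ne'
    intro l hl h1
    apply hprime l hl
    rintro rfl
    rw [UU_index, hF] at h1
    omega
  obtain ⟨h1, h2⟩ := H12.stem_restrict σ hst (UU F) hcop
  have hab : ∀ a b : UU F, a * b = b * a := by
    rintro ⟨_, x, rfl⟩ ⟨_, y, rfl⟩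
    apply Subtype.ext
    change nn x * nn y = nn y * nn x
    rw [← nn_add, ← nn_add, add_comm]
  have h3 : ∀ a : UU F, a ^ 3 = 1 := by
    rintro ⟨_, x, rfl⟩
    apply Subtype.ext
    change (nn x) ^ 3 = 1
    rw [pow_succ, pow_two, ← nn_add, ← nn_add]
    have : x + x + x = 0 := by
      have h4 : (3 : F) = 0 := by exact_mod_cast CharP.cast_eq_zero F 3
      linear_combination x * h4
    rw [this, nn_zero]
  obtain ⟨a, b, hgen⟩ := two_gen (H := UU F) (by rw [card_UU, hF]) h3
  have h4 := stem_two_gen _ h1 hab a b hgen 3 (by norm_num) (h3 a)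
  rw [h2] at h4
  have h5 : 0 < Nat.card σ.ker := Nat.card_pos
  have h6 := hprime 2 Nat.prime_two (by norm_num)
  omega

theorem hasCyclic_three {G : Type u} [Group G]
    (hex : ∃ (Γ : Type u) (_ : Group Γ) (_ : Finite Γ) (σ : Γ →* G), Cfsg.IsStemExtension σ ∧ Nat.card σ.ker = 3)
    (hup : ∀ (Γ : Type u) [Group Γ] [Finite Γ] (σ : Γ →* G), Cfsg.IsStemExtension σ → Nat.card σ.ker = 1 ∨ Nat.card σ.ker = 3) :
    Cfsg.HasCyclicSchurMultiplier G 3 := by
  have hc : Nat.card (Multiplicative (ZMod 3)) = 3 := by simp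
  constructor
  · obtain ⟨Γ, _, _, σ, h1, h2⟩ := hex
    have : Fact (Nat.Prime 3) := ⟨Nat.prime_three⟩
    exact ⟨Γ, inferInstance, inferInstance, σ, h1, ⟨mulEquivOfPrimeCardEq (p := 3) h2 hc⟩⟩
  · intro Γ _ _ σ hσ
    rcases hup Γ σ hσ with h2 | h2
    · have := (Nat.card_eq_one_iff_unique.mp h2).1
      exact ⟨1, fun x => ⟨1, Subsingleton.elim _ _⟩⟩
    · have : Fact (Nat.Prime 3) := ⟨Nat.prime_three⟩
      let e := mulEquivOfPrimeCardEq (p := 3) hc h2
      exact ⟨e.toMonoidHom, e.surjective⟩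

end Cfsg.Agent.H15.M9
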