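import Cfsg.Agent.H15.OInv4
import Cfsg.Agent.H22.Poincare

/-!
# Involutions of Chevalley groups in odd characteristic: the length generating function of `WT`
-/

set_option autoImplicit false
set_option linter.unusedSectionVars false

namespace Cfsg.Agent.H15.OInv

open Cfsg.Agent.H6 Cfsg.Lie Cfsg.Agent.H22 Cfsg.Agent.H15.Chev
open scoped Matrix

/-- dot product of lists -/
def dotl : List ℤ → List ℤ → ℤ
  | a :: c, b :: x => a * b + dotl c x
  | _, _ => 0

/-- guided search for the vectors of `WT` -/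
def srch (j : ℕ) (RL : List (List (List ℤ))) (fin : List (List ℤ)) : ℕ → List ℤ → Bool
  | 0, x => fin.contains x
  | (f + 1), x => (if x.length = j then [-1, 1] else [-2, 0, 2]).all fun a =>
      !((RL.getD x.length []).all fun c => decide (-2 ≤ dotl c (x ++ [a])) && decide (dotl c (x ++ [a]) ≤ 2)) ||
        srch j RL fin f (x ++ [a])

theorem dotl_eq_sum : ∀ (c x : List ℤ), dotl c x = ∑ k ∈ Finset.range c.length, c.getD k 0 * x.getD k 0 := by
  intro c
  induction c with
  | nil => intro x; simp [dotl]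
  | cons a c ih =>
    intro x
    cases x with
    | nil => simp [dotl]
    | cons b x =>
      rw [dotl, ih, List.length_cons, Finset.sum_range_succ']
      simp only [List.getD_cons_succ, List.getD_cons_zero]
      ring

variable {D : ChevalleyDatum} {N : ℕ} {η : ℕ → ℕ → ℤ} {rc : ℕ → ℕ → ℤ} {F : Type*} [Field F]
variable (hG : Good D N η rc)

include hG

theorem pvec_length (k : ℕ) (w : hG.W) : (pvec hG k w).length = D.rank := by simp [pvec]

theorem pvec_getD (k : ℕ) (w : hG.W) (m : Fin D.rank) : (pvec hG k w).getD m 0 = rc (w.1 (hG.sr m)) k := by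
  rw [List.getD_eq_getElem _ _ (by rw [pvec_length]; exact m.2)]
  simp [pvec]

/-- the `k`-coordinate of `w r` through the vector of `w` -/
theorem rc_pvec {k : ℕ} (hk : k < D.rank) (w : hG.W) (r : Fin D.nroots) :
    rc (w.1 r) k = ∑ m ∈ Finset.range D.rank, rc r m * (pvec hG k w).getD m 0 := by
  rw [hG.rc_W w r k hk, Finset.sum_range]
  refine Finset.sum_congr rfl fun m _ => ?_
  rw [pvec_getD]

theorem mem_WT_iff {j : ℕ} (hj : j < D.rank) (w : hG.W) : w ∈ WT hG j ↔
    ∀ m : Fin D.rank, Even ((pvec hG j w).getD m 0 - (if (m : ℕ) = j then 1 else 0)) := by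
  constructor
  · intro hw m
    rw [pvec_getD]
    have h1 := hw (hG.sr m)
    have h2 : rc (hG.sr m) j = if (m : ℕ) = j then 1 else 0 := by
      change rc (D.simple m) j = _
      rw [hG.rc_simple m m.2 j hj]
      simp only [eq_comm]
    rw [h2] at h1
    rw [Int.even_sub]
    exact h1
  · intro h r
    rw [rc_pvec hG hj w r]
    have h1 : (∑ m ∈ Finset.range D.rank, rc r m * (pvec hG j w).getD m 0) - rc r j =
        ∑ m ∈ Finset.range D.rank, rc r m * ((pvec hG j w).getD m 0 - (if m = j then 1 else 0)) := by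
      simp only [mul_sub]
      rw [Finset.sum_sub_distrib]
      congr 1
      simp [hj]
    have h2 : Even ((∑ m ∈ Finset.range D.rank, rc r m * (pvec hG j w).getD m 0) - rc r j) := by
      rw [h1]
      apply Finset.sum_induction _ Even (fun a b => Even.add) Even.zero
      intro m hm
      exact (h ⟨m, Finset.mem_range.1 hm⟩).mul_left _
    rw [Int.even_sub] at h2
    exact h2

theorem srch_sound {j : ℕ} (hj : j < D.rank) (hb : ∀ r < D.nroots, -2 ≤ rc r j ∧ rc r j ≤ 2)
    {RL : List (List (List ℤ))} {fin : List (List ℤ)}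
    (hRL : ∀ n < D.rank, ∀ c ∈ RL.getD n [], c.length ≤ n + 1 ∧ ∃ r < D.nroots, ∀ k < D.rank, rc r k = c.getD k 0)
    {w : hG.W} (hw : w ∈ WT hG j) : ∀ (f : ℕ) (x : List ℤ), x.length + f = D.rank → x = (pvec hG j w).take x.length →
    srch j RL fin f x = true → pvec hG j w ∈ fin := by
  have hlen := pvec_length hG j w
  intro f
  induction f with
  | zero =>
    intro x hx hxw h
    simp only [srch, List.contains_iff_mem] at h
    rw [show x.length = (pvec hG j w).length by omega, List.take_length] at hxw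
    rw [← hxw]; exact h
  | succ f ih =>
    intro x hx hxw h
    simp only [srch, List.all_eq_true, Bool.or_eq_true, Bool.not_eq_true', List.all_eq_false, Bool.and_eq_true,
      decide_eq_true_eq] at h
    have hxl : x.length < D.rank := by omega
    set a := (pvec hG j w).getD x.length 0 with ha
    have hab : -2 ≤ a ∧ a ≤ 2 := by
      have := pvec_getD hG j w ⟨x.length, hxl⟩
      change (pvec hG j w).getD x.length 0 = _ at this
      rw [ha, this]
      exact hb _ (w.1 _).2
    have hap := (mem_WT_iff hG hj w).1 hw ⟨x.length, hxl⟩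
    change Even (a - (if x.length = j then 1 else 0)) at hap
    have hxa : x ++ [a] = (pvec hG j w).take (x ++ [a]).length := by
      rw [List.length_append, List.length_singleton, List.take_add_one, ← hxw, ha]
      congr 1
      rw [List.getD_eq_getElem?_getD]
      rw [List.getElem?_eq_getElem (by omega)]
      simp
    have h1 := h a (by
      split_ifs with h5
      · rw [if_pos h5] at hap
        obtain ⟨b, hb'⟩ := hap
        have : a = -1 ∨ a = 1 := by omega
        rcases this with h | h <;> rw [h] <;> simp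
      · rw [if_neg h5] at hap
        obtain ⟨b, hb'⟩ := hap
        have : a = -2 ∨ a = 0 ∨ a = 2 := by omega
        rcases this with h | h | h <;> rw [h] <;> simp)
    rcases h1 with ⟨c, hc, hcc⟩ | h1
    · exfalso
      apply hcc
      obtain ⟨hcl, r, hr, hrc⟩ := hRL _ hxl c hc
      have h2 : dotl c (x ++ [a]) = rc (w.1 ⟨r, hr⟩) j := by
        rw [rc_pvec hG hj, dotl_eq_sum]
        have h3 : ∑ m ∈ Finset.range D.rank, rc r m * (pvec hG j w).getD m 0 =
            ∑ m ∈ Finset.range c.length, rc r m * (pvec hG j w).getD m 0 := by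
          symm
          apply Finset.sum_subset
          · intro m hm
            rw [Finset.mem_range] at hm ⊢
            omega
          · intro m hm hm'
            rw [Finset.mem_range] at hm hm'
            rw [hrc m hm, List.getD_eq_default _ _ (by omega), zero_mul]
        change _ = ∑ m ∈ Finset.range D.rank, rc r m * (pvec hG j w).getD m 0
        rw [h3]
        refine Finset.sum_congr rfl fun m hm => ?_
        rw [Finset.mem_range] at hm
        rw [hrc m (by omega)]
        congr 1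
        rw [hxa, List.getD_eq_getElem?_getD, List.getD_eq_getElem?_getD, List.getElem?_take, if_pos (by
          rw [List.length_append, List.length_singleton]; omega)]
      rw [h2]
      exact hb _ (w.1 _).2
    · exact ih (x ++ [a]) (by rw [List.length_append, List.length_singleton]; omega) hxa h1

theorem pvec_wp {A : List (List ℤ)} (hA : ∀ i < D.rank, ∀ j < D.rank, D.cartan i (D.simple j) = (A.getD i []).getD j 0)
    (hAl : ∀ i < D.rank, (A.getD i []).length = D.rank) {k : ℕ} (hk : k < D.rank) :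
    ∀ (L : List ℕ), (∀ i ∈ L, i < D.rank) → ∃ w : hG.W, pvec hG k w = L.foldl (fun c i => pact A i c) (punit D.rank k) := by
  intro L
  induction L using List.reverseRecOn with
  | nil => intro _; exact ⟨1, pvec_one hG k hk⟩
  | append_singleton L i ih =>
    intro hL
    obtain ⟨w, hw⟩ := ih fun j hj => hL j (by simp [hj])
    refine ⟨w * hG.s ⟨i, hL i (by simp)⟩, ?_⟩
    rw [pvec_mul_s hG hA hAl hk, hw, List.foldl_append]
    rfl

/-- `u` minimal in its coset keeps the positive roots of `J` positive under `u⁻¹` -/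
theorem inv_pos_of_min {J : List ℕ} {j : ℕ} (hIJ : ∀ i, i ∈ J ↔ i < D.rank ∧ i ≠ j) {u : hG.W}
    (hmin : ∀ v ∈ Wn hG J, len hG.s u ≤ len hG.s (v * u)) {s : Fin D.nroots} (hs : N ≤ (s : ℕ)) (hsj : rc s j = 0) :
    N ≤ ((u⁻¹).1 s : ℕ) := by
  have h1 : ∀ i : Fin D.rank, (i : ℕ) ≠ j → N ≤ ((u⁻¹).1 (hG.sr i) : ℕ) := by
    intro i hi
    by_contra hcon
    push Not at hcon
    rw [hG.lt_iff_len, ← hG.genInv.len_inv, mul_inv_rev, inv_inv, hG.genInv.inv_eq, hG.genInv.len_inv] at hcon
    have := hmin (hG.s i) (Subgroup.subset_closure ⟨i, (hIJ i).2 ⟨i.2, hi⟩, rfl⟩)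
    omega
  by_contra hcon
  push Not at hcon
  have h2 := hG.rc_neg_root ((u⁻¹).1 s).2 hcon
  have h3 : ∀ k < D.rank, rc ((u⁻¹).1 s) k = 0 := by
    intro k hk
    refine le_antisymm (h2 k hk) ?_
    rw [hG.rc_W (u⁻¹) s k hk]
    apply Finset.sum_nonneg
    intro m _
    by_cases hm : (m : ℕ) = j
    · rw [hm, hsj, zero_mul]
    · exact mul_nonneg (hG.rc_pos s s.2 hs m m.2) (hG.rc_pos _ ((u⁻¹).1 (hG.sr m)).2 (h1 m hm) k hk)
  have h4 : (u⁻¹).1 s = hG.ngf ((u⁻¹).1 s) := by
    apply Fin.ext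
    apply hG.rc_inj ((u⁻¹).1 s).2 (hG.ngf ((u⁻¹).1 s)).2
    intro k hk
    change _ = rc (D.neg _) k
    rw [hG.rc_neg k hk _ ((u⁻¹).1 s).2, h3 k hk, neg_zero]
  have h5 := (hG.ngf_lt_iff ((u⁻¹).1 s)).not
  rw [← h4] at h5
  omega

theorem lt_mul {J : List ℕ} {j : ℕ} (hj : j < D.rank) (hIJ : ∀ i, i ∈ J ↔ i < D.rank ∧ i ≠ j) {u : hG.W} (huT : u ∈ WT hG j)
    (hmin : ∀ v ∈ Wn hG J, len hG.s u ≤ len hG.s (v * u)) {v : hG.W} (hv : v ∈ Wn hG J) :
    lt hG j (v * u) = (Finset.univ.filter fun r : Fin D.nroots => N ≤ (r : ℕ) ∧ Even (rc r j) ∧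
      (∑ m ∈ Finset.range D.rank, rc r m * (pvec hG j u).getD m 0) < 0).card + len hG.s v := by
  classical
  have hjJ : j ∉ J := fun h => ((hIJ j).1 h).2 rfl
  have hvj : ∀ r : Fin D.nroots, rc (v.1 r) j = rc r j := rc_Wn hG hj hjJ hv
  have hpos := fun {s : Fin D.nroots} => inv_pos_of_min hG hIJ hmin (s := s)
  have huu : ∀ r : Fin D.nroots, (u⁻¹).1 (u.1 r) = r := fun r => Equiv.symm_apply_apply u.1 r
  have huu' : ∀ r : Fin D.nroots, u.1 ((u⁻¹).1 r) = r := fun r => Equiv.apply_symm_apply u.1 r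
  -- sign of `u r`
  have hneg : ∀ r : Fin D.nroots, N ≤ (r : ℕ) → ((u.1 r : ℕ) < N ↔ rc (u.1 r) j < 0) := by
    intro r hr
    constructor
    · intro h
      refine lt_of_le_of_ne (hG.rc_neg_root (u.1 r).2 h j hj) ?_
      intro h0
      have h1 : N ≤ (hG.ngf (u.1 r) : ℕ) := by
        by_contra hcon
        push Not at hcon
        have := (hG.ngf_lt_iff _).1 hcon
        omega
      have h2 := hpos h1 (by
        change rc (D.neg _) j = 0
        rw [hG.rc_neg j hj _ (u.1 r).2, h0, neg_zero])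
      rw [hG.W_neg, huu] at h2
      have := (hG.ngf_lt_iff r).2 hr
      omega
    · intro h
      by_contra hcon
      push Not at hcon
      have := hG.rc_pos _ (u.1 r).2 hcon j hj
      omega
  have hA : (Finset.univ.filter fun r : Fin D.nroots => N ≤ (r : ℕ) ∧ Even (rc r j) ∧
      (∑ m ∈ Finset.range D.rank, rc r m * (pvec hG j u).getD m 0) < 0) =
      Finset.univ.filter fun r : Fin D.nroots => N ≤ (r : ℕ) ∧ Even (rc r j) ∧ (u.1 r : ℕ) < N := by
    ext r
    simp only [Finset.mem_filter, Finset.mem_univ, true_and]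
    constructor
    · rintro ⟨h1, h2, h3⟩
      exact ⟨h1, h2, (hneg r h1).2 (by rw [rc_pvec hG hj]; exact h3)⟩
    · rintro ⟨h1, h2, h3⟩
      exact ⟨h1, h2, by rw [← rc_pvec hG hj]; exact (hneg r h1).1 h3⟩
  rw [hA, hG.len_eq_card_invs, lt]
  have hsplit : ((hG.invs (v * u)).filter fun r : Fin D.nroots => Even (rc r j)) =
      (Finset.univ.filter fun r : Fin D.nroots => N ≤ (r : ℕ) ∧ Even (rc r j) ∧ (u.1 r : ℕ) < N) ∪
      (hG.invs v).image (fun s => (u⁻¹).1 s) := by
    ext r
    simp only [Finset.mem_filter, Finset.mem_union, Finset.mem_univ, true_and, hG.mem_invs, Finset.mem_image]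
    constructor
    · rintro ⟨⟨h1, h2⟩, h3⟩
      change (v.1 (u.1 r) : ℕ) < N at h2
      by_cases h4 : (u.1 r : ℕ) < N
      · exact Or.inl ⟨h1, h3, h4⟩
      · exact Or.inr ⟨u.1 r, ⟨by omega, h2⟩, huu r⟩
    · rintro (⟨h1, h2, h3⟩ | ⟨s, ⟨h1, h2⟩, rfl⟩)
      · refine ⟨⟨h1, ?_⟩, h2⟩
        change (v.1 (u.1 r) : ℕ) < N
        by_contra hcon
        push Not at hcon
        have h4 := hG.rc_pos _ (v.1 (u.1 r)).2 hcon j hj
        rw [hvj] at h4
        have := (hneg r h1).1 h3
        omega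
      · have h3 : rc s j = 0 := by
          refine le_antisymm ?_ (hG.rc_pos _ s.2 h1 j hj)
          rw [← hvj]
          exact hG.rc_neg_root (v.1 s).2 h2 j hj
        refine ⟨⟨hpos h1 h3, ?_⟩, ?_⟩
        · change (v.1 (u.1 ((u⁻¹).1 s)) : ℕ) < N
          rw [huu']; exact h2
        · rw [← huT, huu', h3]; exact Even.zero
  rw [hsplit, Finset.card_union_of_disjoint, Finset.card_image_of_injective _ (u⁻¹).1.injective]
  rw [Finset.disjoint_left]
  intro r h1 h2
  simp only [Finset.mem_filter, Finset.mem_univ, true_and, hG.mem_invs, Finset.mem_image] at h1 h2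
  obtain ⟨s, ⟨h3, h4⟩, rfl⟩ := h2
  rw [huu'] at h1
  omega

/-- **the coset step** -/
theorem wt_step {A : List (List ℤ)} (hA : ∀ i < D.rank, ∀ j < D.rank, D.cartan i (D.simple j) = (A.getD i []).getD j 0)
    (hAl : ∀ i < D.rank, (A.getD i []).length = D.rank) {I J : List ℕ} {j : ℕ} (hj : j < D.rank)
    (hI : ∀ i, i ∈ I ↔ i < D.rank) (hIJ : ∀ i, i ∈ J ↔ i < D.rank ∧ i ≠ j)
    (hb : ∀ r < D.nroots, -2 ≤ rc r j ∧ rc r j ≤ 2)
    {RL : List (List (List ℤ))} {C : List (List ℤ × List ℕ × ℕ)}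
    (hRL : ∀ n < D.rank, ∀ c ∈ RL.getD n [], c.length ≤ n + 1 ∧ ∃ r < D.nroots, ∀ k < D.rank, rc r k = c.getD k 0)
    (hS : srch j RL (C.map Prod.fst) D.rank [] = true) (hnd : (C.map Prod.fst).Nodup)
    (hC1 : ∀ x ∈ C, (∀ i ∈ x.2.1, i < D.rank) ∧ x.2.1.foldl (fun c i => pact A i c) (punit D.rank j) = x.1)
    (hC2 : ∀ x ∈ C, ∀ m < D.rank, Even (x.1.getD m 0 - (if m = j then 1 else 0)))
    (hC3 : ∀ x ∈ C, ((List.range' N N).filter fun r => decide (rc r j % 2 = 0) &&
      decide ((∑ m ∈ Finset.range D.rank, rc r m * x.1.getD m 0) < 0)).length = x.2.2)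
    {R : Type*} [CommRing R] (q : R) :
    (∑ᶠ w ∈ WT hG j, q ^ lt hG j w) =
      ((C.map fun x => x.2.2).map fun e => q ^ e).sum * ∑ᶠ w ∈ (Wn hG J : Set hG.W), q ^ len hG.s w := by
  classical
  have : Fintype hG.W := Fintype.ofFinite _
  have hjJ : j ∉ J := fun h => ((hIJ j).1 h).2 rfl
  have hWI : ∀ w : hG.W, w ∈ Wn hG I := by
    intro w; rw [Wn_top hG fun i hi => (hI i).2 hi]; exact Subgroup.mem_top _
  have hmemfin : ∀ w ∈ WT hG j, pvec hG j w ∈ C.map Prod.fst := by
    intro w hw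
    exact srch_sound hG hj hb hRL hw D.rank [] (by simp) (by simp) hS
  -- one coset
  have hF : ∀ x ∈ C, (∑ w ∈ Finset.univ.filter (fun w : hG.W => w ∈ WT hG j ∧ pvec hG j w = x.1), q ^ lt hG j w) =
      q ^ x.2.2 * ∑ w ∈ Finset.univ.filter (fun w : hG.W => w ∈ Wn hG J), q ^ len hG.s w := by
    intro x hx
    obtain ⟨w0, hw0⟩ := pvec_wp hG hA hAl hj x.2.1 (hC1 x hx).1
    rw [(hC1 x hx).2] at hw0
    have hxT : ∀ w : hG.W, pvec hG j w = x.1 → w ∈ WT hG j := by
      intro w hw
      rw [mem_WT_iff hG hj]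
      intro m
      rw [hw]
      exact hC2 x hx m m.2
    obtain ⟨u, hu, hum⟩ : ∃ u : hG.W, pvec hG j u = x.1 ∧ ∀ w : hG.W, pvec hG j w = x.1 → len hG.s u ≤ len hG.s w := by
      obtain ⟨u, hu, hm⟩ := Set.Finite.exists_minimalFor (fun v : hG.W => len hG.s v) {w : hG.W | pvec hG j w = x.1}
        (Set.toFinite _) ⟨w0, hw0⟩
      refine ⟨u, hu, fun v hv => ?_⟩
      by_contra hcon
      push Not at hcon
      have := hm hv hcon.le
      simp only at this
      omega
    have hvu : ∀ v ∈ Wn hG J, pvec hG j (v * u) = x.1 := by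
      intro v hv
      rw [← hu, pvec_eq_iff]
      intro k
      exact rc_Wn hG hj hjJ hv _
    have hmin : ∀ v ∈ Wn hG J, len hG.s u ≤ len hG.s (v * u) := fun v hv => hum _ (hvu v hv)
    have he : (Finset.univ.filter fun r : Fin D.nroots => N ≤ (r : ℕ) ∧ Even (rc r j) ∧
        (∑ m ∈ Finset.range D.rank, rc r m * (pvec hG j u).getD m 0) < 0).card = x.2.2 := by
      rw [← hC3 x hx, hu, ← List.toFinset_card_of_nodup ((List.nodup_range').filter _)]
      rw [← Finset.card_map (f := (⟨fun r : Fin D.nroots => (r : ℕ), fun a b h => Fin.ext h⟩ : Fin D.nroots ↪ ℕ))]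
      congr 1
      ext r
      have hn := hG.nroots_eq
      simp only [Finset.mem_map, Finset.mem_filter, Finset.mem_univ, true_and, Function.Embedding.coeFn_mk, List.mem_toFinset,
        List.mem_filter, List.mem_range'_1, Bool.and_eq_true, decide_eq_true_eq]
      constructor
      · rintro ⟨a, ⟨h1, h2, h3⟩, rfl⟩
        refine ⟨⟨h1, ?_⟩, Int.even_iff.1 h2, h3⟩
        have := a.2
        change (a : ℕ) < N + N
        omega
      · rintro ⟨⟨h1, h2⟩, h3, h4⟩
        exact ⟨⟨r, by omega⟩, ⟨h1, Int.even_iff.2 h3, h4⟩, rfl⟩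
    rw [Finset.mul_sum]
    symm
    refine Finset.sum_bij (fun v _ => v * u) ?_ ?_ ?_ ?_
    · intro v hv
      rw [Finset.mem_filter] at hv ⊢
      exact ⟨Finset.mem_univ _, hxT _ (hvu v hv.2), hvu v hv.2⟩
    · intro a _ b _ hab
      exact mul_right_cancel hab
    · intro w hw
      rw [Finset.mem_filter] at hw
      refine ⟨w * u⁻¹, ?_, by group⟩
      rw [Finset.mem_filter]
      refine ⟨Finset.mem_univ _, ?_⟩
      apply mem_Wn_of_pvec hG hj (I := I) (fun i => by rw [hIJ, hI]) (hWI _)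
      rw [← mul_inv_cancel u]
      apply pvec_mul hG hj
      rw [hu, hw.2.2]
    · intro v hv
      rw [Finset.mem_filter] at hv
      rw [lt_mul hG hj hIJ (hxT u hu) hmin hv.2, he, pow_add]
  have e1 : (∑ᶠ w ∈ (Wn hG J : Set hG.W), q ^ len hG.s w) =
      ∑ w ∈ Finset.univ.filter (fun w : hG.W => w ∈ Wn hG J), q ^ len hG.s w := by
    rw [finsum_mem_eq_finite_toFinset_sum _ (Set.toFinite _)]
    apply Finset.sum_congr
    · ext w; simp
    · intros; rfl
  have e0 : (∑ᶠ w ∈ WT hG j, q ^ lt hG j w) = ∑ w ∈ Finset.univ.filter (fun w : hG.W => w ∈ WT hG j), q ^ lt hG j w := by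
    rw [finsum_mem_eq_finite_toFinset_sum _ (Set.toFinite _)]
    apply Finset.sum_congr
    · ext w; simp
    · intros; rfl
  have e2 : (∑ w ∈ Finset.univ.filter (fun w : hG.W => w ∈ WT hG j), q ^ lt hG j w) =
      ∑ x ∈ (C.map Prod.fst).toFinset, ∑ w ∈ Finset.univ.filter (fun w : hG.W => w ∈ WT hG j ∧ pvec hG j w = x), q ^ lt hG j w := by
    rw [← Finset.sum_fiberwise_of_maps_to (s := Finset.univ.filter (fun w : hG.W => w ∈ WT hG j))
      (t := (C.map Prod.fst).toFinset) (g := fun w => pvec hG j w)]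
    · apply Finset.sum_congr rfl
      intro x _
      rw [Finset.filter_filter]
    · intro w hw
      rw [Finset.mem_filter] at hw
      rw [List.mem_toFinset]
      exact hmemfin w hw.2
  rw [e0, e1, e2, List.sum_toFinset _ hnd, List.map_map, List.map_map]
  rw [← List.sum_map_mul_right]
  congr 1
  apply List.map_congr_left
  intro x hx
  exact hF x hx

end Cfsg.Agent.H15.OInv
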