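import Cfsg.Agent.H15.OInv5

/-!
# Involutions of Chevalley groups in odd characteristic: assembly
-/

set_option autoImplicit false
set_option linter.unusedSectionVars false

namespace Cfsg.Agent.H15.OInv

open Cfsg.Agent.H6 Cfsg.Lie Cfsg.Agent.H22 Cfsg.Agent.H15.Chev
open scoped Matrix

variable {D : ChevalleyDatum} {N : ℕ} {η : ℕ → ℕ → ℤ} {rc : ℕ → ℕ → ℤ} {F : Type*} [Field F]

/-- the centraliser in the subgroup -/
theorem card_centralizer {G : Type*} [Group G] (H : Subgroup G) (t : ↥H) :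
    Nat.card (Subgroup.centralizer ({t} : Set ↥H)) = Nat.card {g : G // g ∈ H ∧ (t : G) * g = g * t} := by
  refine Nat.card_congr ?_
  exact {
    toFun := fun g => ⟨(g : ↥H), (g : ↥H).2, by
      have := g.2
      rw [Subgroup.mem_centralizer_iff] at this
      exact congrArg Subtype.val (this t rfl)⟩
    invFun := fun g => ⟨⟨g.1, g.2.1⟩, by
      rw [Subgroup.mem_centralizer_iff]
      intro h hh
      rw [Set.mem_singleton_iff] at hh
      subst hh
      exact Subtype.ext g.2.2⟩
    left_inv := fun g => rfl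
    right_inv := fun g => rfl }

theorem card_centralizer_conj {G : Type*} [Group G] {s t : G} (h : IsConj s t) :
    Nat.card (Subgroup.centralizer ({s} : Set G)) = Nat.card (Subgroup.centralizer ({t} : Set G)) := by
  obtain ⟨c, hc⟩ := isConj_iff.1 h
  subst hc
  refine Nat.card_congr ?_
  refine {
    toFun := fun g => ⟨c * g * c⁻¹, ?_⟩
    invFun := fun g => ⟨c⁻¹ * g * c, ?_⟩
    left_inv := fun g => Subtype.ext (by simp [mul_assoc])
    right_inv := fun g => Subtype.ext (by simp [mul_assoc]) }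
  · rw [Subgroup.mem_centralizer_iff]
    rintro h rfl
    have := Subgroup.mem_centralizer_iff.1 g.2 s rfl
    calc c * s * c⁻¹ * (c * g * c⁻¹) = c * (s * g) * c⁻¹ := by group
      _ = _ := by rw [this]; group
  · rw [Subgroup.mem_centralizer_iff]
    intro x hx
    rw [Set.mem_singleton_iff] at hx
    rw [hx]
    have := Subgroup.mem_centralizer_iff.1 g.2 (c * s * c⁻¹) rfl
    calc s * (c⁻¹ * g * c) = c⁻¹ * (c * s * c⁻¹ * g) * c := by group
      _ = _ := by rw [this]; group

/-- two numbers with different `q`-parts -/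
theorem ne_of_qpart {q a b A B : ℕ} (hq : 2 ≤ q) (hab : a < b) (hA : Nat.Coprime q A) : q ^ a * A ≠ q ^ b * B := by
  intro h
  obtain ⟨c, rfl⟩ : ∃ c, b = a + (c + 1) := ⟨b - a - 1, by omega⟩
  rw [pow_add, mul_assoc] at h
  have h1 := Nat.eq_of_mul_eq_mul_left (pow_pos (by omega) a) h
  have h2 : q ∣ A := by
    rw [h1, pow_succ, mul_comm (q ^ c) q, mul_assoc]
    exact Dvd.intro _ rfl
  have h3 := Nat.Coprime.eq_one_of_dvd hA h2
  omega

theorem coprime_sub {q k : ℕ} (hq : 1 ≤ q) (hk : k ≠ 0) : Nat.Coprime q (q ^ k - 1) := by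
  have h1 : 1 ≤ q ^ k := Nat.one_le_pow _ _ hq
  have h2 : Nat.Coprime (q ^ k) (q ^ k - 1) := by
    have := (Nat.coprime_self_add_left (m := q ^ k - 1) (n := 1)).2 (Nat.coprime_one_left _)
    rwa [Nat.sub_add_cancel h1] at this
  exact Nat.Coprime.coprime_dvd_left (dvd_pow_self q hk) h2

variable (hG : Good D N η rc) (hE : Ext D rc)
include hG

theorem hv_ne_one (h2 : (2 : F) ≠ 0) {j : ℕ} (hj : j < D.rank) : hv D F rc (2 ^ j) ≠ 1 := by
  intro h
  unfold hv at h
  rw [← tor_one, tor_eq_iff] at h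
  have h1 := h _ (hG.simple_lt j hj)
  rw [hG.chr_simple _ hj] at h1
  unfold cv at h1
  rw [Nat.testBit_two_pow_self, if_pos rfl] at h1
  have h3 : (-1 : F) = 1 := by
    have := congrArg (fun x : Fˣ => (x : F)) h1
    simpa using this
  apply h2
  linear_combination (-1 : F) * h3

theorem card_cS_pos {j m : ℕ} (h : ((List.range' N N).filter fun r => decide (rc r j % 2 = 0)).length = m) :
    Nat.card (cS rc j (posS D N)) = m := by
  classical
  rw [← h, ← List.toFinset_card_of_nodup ((List.nodup_range').filter _)]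
  have h1 : (cS rc j (posS D N)) = (((List.range' N N).filter fun r => decide (rc r j % 2 = 0)).toFinset : Set ℕ) := by
    ext r
    have hn := hG.nroots_eq
    simp only [cS, posS, Set.mem_ofPred_eq, List.coe_toFinset, List.mem_filter, List.mem_range'_1, decide_eq_true_eq]
    constructor
    · rintro ⟨⟨h1, h2⟩, h3⟩
      exact ⟨⟨h1, by omega⟩, Int.even_iff.1 h3⟩
    · rintro ⟨⟨h1, h2⟩, h3⟩
      exact ⟨⟨h1, by omega⟩, Int.even_iff.2 h3⟩
  rw [h1, Nat.card_coe_set_eq, Set.ncard_coe_finset]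

include hE

/-- the order formula with a Poincaré product -/
theorem card_cent_of [Fintype F] (h2 : (2 : F) ≠ 0) {j : ℕ} (hj : j < D.rank) (ht : hv D F rc (2 ^ j) ∈ D.diagonalSubgroup F)
    {n m : ℕ} (hT : Nat.card (D.diagonalSubgroup F) = (Fintype.card F - 1) ^ n)
    (hm : ((List.range' N N).filter fun r => decide (rc r j % 2 = 0)).length = m) {P : ℤ}
    (hP : (∑ᶠ w ∈ WT hG j, (Fintype.card F : ℤ) ^ lt hG j w) * ((Fintype.card F : ℤ) - 1) ^ n = P) :
    (Nat.card {g : GL D.Idx F // g ∈ D.group F ∧ hv D F rc (2 ^ j) * g = g * hv D F rc (2 ^ j)} : ℤ) =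
      (Fintype.card F : ℤ) ^ m * P := by
  classical
  have : Fintype hG.W := Fintype.ofFinite _
  have h1 : 1 ≤ Fintype.card F := Fintype.card_pos
  rw [card_cent hG hE h2 hj ht, card_cS_pos hG hm, hT, ← hP]
  rw [finsum_mem_eq_finite_toFinset_sum _ (Set.toFinite _), finsum_mem_eq_finite_toFinset_sum _ (Set.toFinite _)]
  push_cast [Nat.cast_sub h1]
  ring

end Cfsg.Agent.H15.OInv
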