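import Cfsg.Agent.H15.OInv6

/-!
# Involutions of Chevalley groups in odd characteristic: statements in the group itself
-/

set_option autoImplicit false
set_option linter.unusedSectionVars false

namespace Cfsg.Agent.H15.OInv

open Cfsg.Agent.H6 Cfsg.Lie Cfsg.Agent.H22 Cfsg.Agent.H15.Chev
open scoped Matrix

variable {D : ChevalleyDatum} {N : ℕ} {η : ℕ → ℕ → ℤ} {rc : ℕ → ℕ → ℤ} {F : Type*} [Field F]

theorem inv_props {G : Type*} [Group G] {H : Subgroup G} {u : ↥H} (h : orderOf u = 2) :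
    (u : G) * u = 1 ∧ (u : G) ≠ 1 := by
  have h1 : u ^ 2 = 1 := by rw [← h]; exact pow_orderOf_eq_one u
  have h2 : u ≠ 1 := by
    rintro rfl
    rw [orderOf_one] at h
    exact absurd h (by norm_num)
  refine ⟨?_, fun h3 => h2 (Subtype.ext h3)⟩
  have := congrArg Subtype.val h1
  rw [pow_two] at this
  exact this

theorem orderOf_two {G : Type*} [Group G] {H : Subgroup G} {t : G} (ht : t ∈ H) (h1 : t * t = 1) (h2 : t ≠ 1) :
    orderOf (⟨t, ht⟩ : ↥H) = 2 := by
  refine orderOf_eq_prime ?_ ?_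
  · apply Subtype.ext
    change t ^ 2 = 1
    rw [pow_two, h1]
  · intro h
    exact h2 (congrArg Subtype.val h)

theorem isConj_of {G : Type*} [Group G] {H : Subgroup G} {u : ↥H} {t : G} (ht : t ∈ H)
    {x : G} (hx : x ∈ H) (h : x * u * x⁻¹ = t) : IsConj u ⟨t, ht⟩ := by
  rw [isConj_iff]
  exact ⟨⟨x, hx⟩, Subtype.ext h⟩

/-- two classes with their centraliser orders -/
theorem two_classes (hG : Good D N η rc) (hE : Ext D rc) (hOD : OddData D rc) [Fintype F] (hF : Odd (Fintype.card F))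
    {M T : List ℕ} {a b : ℕ} (ha : a < D.rank) (hb : b < D.rank)
    (hM : ∀ i < D.rank, ∀ k < D.rank, (M.getD i 0).testBit k = decide (D.cartan i (D.simple k) % 2 = 1))
    (hT : ∀ v < 2 ^ D.rank, T.getD v 0 < D.rank) (hTl : ∀ v < 2 ^ D.rank, vact M (T.getD v 0) v < 2 ^ D.rank)
    {f : ℕ} (hf : ∀ v < 2 ^ D.rank, v ≠ 0 → orbchk M T [2 ^ a, 2 ^ b] f v = true)
    (hma : hv D F rc (2 ^ a) ∈ D.diagonalSubgroup F) (hmb : hv D F rc (2 ^ b) ∈ D.diagonalSubgroup F)
    {A B : ℕ} (hA : Nat.card {g : GL D.Idx F // g ∈ D.group F ∧ hv D F rc (2 ^ a) * g = g * hv D F rc (2 ^ a)} = A)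
    (hB : Nat.card {g : GL D.Idx F // g ∈ D.group F ∧ hv D F rc (2 ^ b) * g = g * hv D F rc (2 ^ b)} = B) (hAB : A ≠ B) :
    ∃ s t : ↥(D.group F), orderOf s = 2 ∧ orderOf t = 2 ∧ ¬ IsConj s t ∧
      (∀ u : ↥(D.group F), orderOf u = 2 → IsConj u s ∨ IsConj u t) ∧
      Nat.card (Subgroup.centralizer ({s} : Set ↥(D.group F))) = A ∧
      Nat.card (Subgroup.centralizer ({t} : Set ↥(D.group F))) = B := by
  have h2 := two_ne hF
  have hs := card_centralizer (D.group F) ⟨hv D F rc (2 ^ a), hG.diagonal_le hma⟩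
  have ht := card_centralizer (D.group F) ⟨hv D F rc (2 ^ b), hG.diagonal_le hmb⟩
  refine ⟨⟨hv D F rc (2 ^ a), hG.diagonal_le hma⟩, ⟨hv D F rc (2 ^ b), hG.diagonal_le hmb⟩,
    orderOf_two _ (hv_sq hG _) (hv_ne_one hG h2 ha), orderOf_two _ (hv_sq hG _) (hv_ne_one hG h2 hb), ?_, ?_, hs.trans hA, ht.trans hB⟩
  · intro hc
    have := card_centralizer_conj hc
    rw [hs, ht] at this
    exact hAB (hA.symm.trans (this.trans hB))
  · intro u hu
    obtain ⟨h3, h4⟩ := inv_props hu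
    obtain ⟨x, hx, j, hj, he⟩ := inv_class hG hE hOD hF hM hT hTl hf u.2 h3 h4
    simp only [List.mem_cons, List.not_mem_nil, or_false] at hj
    rcases hj with rfl | rfl
    · exact Or.inl (isConj_of _ hx he)
    · exact Or.inr (isConj_of _ hx he)

end Cfsg.Agent.H15.OInv
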