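import Cfsg.Agent.H15.OInv6
import Cfsg.Agent.H22.PoincF4
import Cfsg.Agent.H6.ChevExtTab
import Cfsg.Agent.H6.ChevSmith

set_option autoImplicit false
set_option maxRecDepth 100000

/-! # Tables for the odd-characteristic involutions of type F4 (generated) -/

namespace Cfsg.Agent.H15.OInv
open Cfsg.Agent.H6 Cfsg.Lie Cfsg.Agent.H22
namespace OF4

def M : List ℕ := [nat_lit 2, nat_lit 1, nat_lit 10, nat_lit 4]
def T : List ℕ := [nat_lit 0, nat_lit 0, nat_lit 1, nat_lit 0, nat_lit 2, nat_lit 0, nat_lit 2, nat_lit 1, nat_lit 0, nat_lit 3, nat_lit 3, nat_lit 3, nat_lit 3, nat_lit 2, nat_lit 1, nat_lit 2]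
def cl : List ℤ := [.negSucc (nat_lit 1), .negSucc (nat_lit 2), .negSucc (nat_lit 2), .negSucc (nat_lit 1)]
theorem hMA : ∀ i < 4, ∀ k < 4, (M.getD i 0).testBit k = decide ((PF4.A.getD i []).getD k 0 % 2 = 1) := by decide +kernel
theorem hM : ∀ i < chevF4.rank, ∀ k < chevF4.rank, (M.getD i 0).testBit k = decide (chevF4.cartan i (chevF4.simple k) % 2 = 1) := by
  intro i hi k hk
  rw [PF4.hA i hi k hk]
  exact hMA i hi k hk
theorem hT : ∀ v < 16, T.getD v 0 < 4 := by decide +kernel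
theorem hTl : ∀ v < 16, vact M (T.getD v 0) v < 16 := by decide +kernel
theorem hf : ∀ v < 16, v ≠ 0 → orbchk M T [1, 8] 7 v = true := by decide +kernel
theorem horthA : ∀ i < 4, ∀ j < 4, (PF4.A.getD i []).getD j 0 % 2 = 0 → (PF4.A.getD j []).getD i 0 % 2 = 0 → i ≠ j →
    (PF4.A.getD i []).getD j 0 = 0 := by decide +kernel
theorem hlevA : ∀ j < 4, (∑ r ∈ Finset.range 48, if cO TF4.MO r j = cl.getD j 0 then caF 4 48 TF4.CA j r else 0) % 2 = 1 := by decide +kernel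
theorem odd : OddData chevF4 (cO TF4.MO) where
  orth := by
    intro i hi j hj h1 h2 h3
    rw [PF4.hA i hi j hj] at h1 ⊢
    rw [PF4.hA j hj i hi] at h2
    exact horthA i hi j hj h1 h2 h3
  lev := by
    intro j hj
    refine ⟨cl.getD j 0, ?_⟩
    have h := hlevA j hj
    rw [← chkCartan_spec TF4.c_cartan] at h
    exact h
theorem hmA0 : ∀ m < 4, (∑ k ∈ Finset.range 4, if Nat.testBit 2 k then (PF4.A.getD k []).getD m 0 else 0) % 2 =
    if Nat.testBit (2 ^ 0) m then 1 else 0 := by decide +kernel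
theorem hm0 {F : Type*} [Field F] : hv chevF4 F (cO TF4.MO) (2 ^ 0) ∈ chevF4.diagonalSubgroup F := by
  apply hv_mem TF4.good (u := 2)
  intro m hm
  rw [← hmA0 m hm]
  congr 1
  refine Finset.sum_congr rfl fun k hk => ?_
  rw [Finset.mem_range] at hk
  rw [PF4.hA k hk m hm]
def RL0 : List (List (List ℤ)) := [[[.ofNat (nat_lit 1)]],
  [[.ofNat (nat_lit 0), .ofNat (nat_lit 1)], [.ofNat (nat_lit 1), .ofNat (nat_lit 1)]],
  [[.ofNat (nat_lit 0), .ofNat (nat_lit 0), .ofNat (nat_lit 1)], [.ofNat (nat_lit 0), .ofNat (nat_lit 1), .ofNat (nat_lit 1)], [.ofNat (nat_lit 0), .ofNat (nat_lit 2), .ofNat (nat_lit 1)], [.ofNat (nat_lit 1), .ofNat (nat_lit 1), .ofNat (nat_lit 1)], [.ofNat (nat_lit 1), .ofNat (nat_lit 2), .ofNat (nat_lit 1)], [.ofNat (nat_lit 2), .ofNat (nat_lit 2), .ofNat (nat_lit 1)]],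
  [[.ofNat (nat_lit 0), .ofNat (nat_lit 0), .ofNat (nat_lit 0), .ofNat (nat_lit 1)], [.ofNat (nat_lit 0), .ofNat (nat_lit 0), .ofNat (nat_lit 1), .ofNat (nat_lit 1)], [.ofNat (nat_lit 0), .ofNat (nat_lit 1), .ofNat (nat_lit 1), .ofNat (nat_lit 1)], [.ofNat (nat_lit 0), .ofNat (nat_lit 2), .ofNat (nat_lit 1), .ofNat (nat_lit 1)], [.ofNat (nat_lit 0), .ofNat (nat_lit 2), .ofNat (nat_lit 2), .ofNat (nat_lit 1)], [.ofNat (nat_lit 1), .ofNat (nat_lit 1), .ofNat (nat_lit 1), .ofNat (nat_lit 1)], [.ofNat (nat_lit 1), .ofNat (nat_lit 2), .ofNat (nat_lit 1), .ofNat (nat_lit 1)], [.ofNat (nat_lit 1), .ofNat (nat_lit 2), .ofNat (nat_lit 2), .ofNat (nat_lit 1)], [.ofNat (nat_lit 1), .ofNat (nat_lit 3), .ofNat (nat_lit 2), .ofNat (nat_lit 1)], [.ofNat (nat_lit 2), .ofNat (nat_lit 2), .ofNat (nat_lit 1), .ofNat (nat_lit 1)], [.ofNat (nat_lit 2), .ofNat (nat_lit 2), .ofNat (nat_lit 2), .ofNat (nat_lit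 1)], [.ofNat (nat_lit 2), .ofNat (nat_lit 3), .ofNat (nat_lit 2), .ofNat (nat_lit 1)], [.ofNat (nat_lit 2), .ofNat (nat_lit 4), .ofNat (nat_lit 2), .ofNat (nat_lit 1)], [.ofNat (nat_lit 2), .ofNat (nat_lit 4), .ofNat (nat_lit 3), .ofNat (nat_lit 1)], [.ofNat (nat_lit 2), .ofNat (nat_lit 4), .ofNat (nat_lit 3), .ofNat (nat_lit 2)]]]
def C0 : List (List ℤ × List ℕ × ℕ) := [([.ofNat (nat_lit 1), .ofNat (nat_lit 0), .ofNat (nat_lit 0), .ofNat (nat_lit 0)], [], nat_lit 0),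
  ([.negSucc (nat_lit 0), .ofNat (nat_lit 0), .ofNat (nat_lit 0), .ofNat (nat_lit 2)], [nat_lit 0, nat_lit 1, nat_lit 2, nat_lit 1, nat_lit 0], nat_lit 1),
  ([.negSucc (nat_lit 0), .ofNat (nat_lit 0), .ofNat (nat_lit 2), .negSucc (nat_lit 1)], [nat_lit 0, nat_lit 1, nat_lit 2, nat_lit 1, nat_lit 0, nat_lit 3], nat_lit 2),
  ([.negSucc (nat_lit 0), .ofNat (nat_lit 2), .negSucc (nat_lit 1), .ofNat (nat_lit 0)], [nat_lit 0, nat_lit 1, nat_lit 2, nat_lit 1, nat_lit 0, nat_lit 3, nat_lit 2], nat_lit 3),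
  ([.ofNat (nat_lit 1), .negSucc (nat_lit 1), .ofNat (nat_lit 2), .ofNat (nat_lit 0)], [nat_lit 0, nat_lit 1, nat_lit 2, nat_lit 1, nat_lit 0, nat_lit 3, nat_lit 2, nat_lit 1], nat_lit 4),
  ([.ofNat (nat_lit 1), .ofNat (nat_lit 0), .negSucc (nat_lit 1), .ofNat (nat_lit 2)], [nat_lit 0, nat_lit 1, nat_lit 2, nat_lit 1, nat_lit 0, nat_lit 3, nat_lit 2, nat_lit 1, nat_lit 2], nat_lit 5),
  ([.ofNat (nat_lit 1), .ofNat (nat_lit 0), .ofNat (nat_lit 0), .negSucc (nat_lit 1)], [nat_lit 0, nat_lit 1, nat_lit 2, nat_lit 1, nat_lit 0, nat_lit 3, nat_lit 2, nat_lit 1, nat_lit 2, nat_lit 3], nat_lit 6),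
  ([.negSucc (nat_lit 0), .ofNat (nat_lit 0), .ofNat (nat_lit 0), .ofNat (nat_lit 0)], [nat_lit 0, nat_lit 1, nat_lit 2, nat_lit 1, nat_lit 0, nat_lit 3, nat_lit 2, nat_lit 1, nat_lit 0, nat_lit 2, nat_lit 1, nat_lit 3, nat_lit 2, nat_lit 1, nat_lit 0], nat_lit 7)]
theorem hRL0 : ∀ n < 4, ∀ c ∈ RL0.getD n [], c.length ≤ n + 1 ∧ ∃ r < 48, ∀ k < 4, cO TF4.MO r k = c.getD k 0 := by decide +kernel
theorem hb0 : ∀ r < 48, -2 ≤ cO TF4.MO r 0 ∧ cO TF4.MO r 0 ≤ 2 := by decide +kernel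
theorem hS0 : srch 0 RL0 (C0.map Prod.fst) 4 [] = true := by decide +kernel
theorem hnd0 : (C0.map Prod.fst).Nodup := by decide +kernel
theorem hC10 : ∀ x ∈ C0, (∀ i ∈ x.2.1, i < 4) ∧ x.2.1.foldl (fun c i => pact PF4.A i c) (punit 4 0) = x.1 := by decide +kernel
theorem hC20 : ∀ x ∈ C0, ∀ m < 4, (x.1.getD m 0 - (if m = 0 then 1 else 0)) % 2 = 0 := by decide +kernel
theorem hC30 : ∀ x ∈ C0, ((List.range' 24 24).filter fun r => decide (cO TF4.MO r 0 % 2 = 0) &&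
      decide ((∑ m ∈ Finset.range 4, cO TF4.MO r m * x.1.getD m 0) < 0)).length = x.2.2 := by decide +kernel
theorem hE0 : ((List.range' 24 24).filter fun r => decide (cO TF4.MO r 0 % 2 = 0)).length = 16 := by decide +kernel
theorem he0 : C0.map (fun x => x.2.2) = [0, 1, 2, 3, 4, 5, 6, 7] := by decide +kernel
theorem wt0 {R : Type*} [CommRing R] (q : R) : (∑ᶠ w ∈ WT TF4.good 0, q ^ lt TF4.good 0 w) =
    (([0, 1, 2, 3, 4, 5, 6, 7] : List ℕ).map fun e => q ^ e).sum * ∑ᶠ w ∈ (Wn TF4.good [1, 2, 3] : Set TF4.good.W), q ^ len TF4.good.s w := by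
  rw [← he0]
  exact wt_step TF4.good PF4.hA PF4.hAl (I := [0, 1, 2, 3]) (J := [1, 2, 3]) (j := 0) (show 0 < 4 by decide)
    (by intro i; change _ ↔ i < 4; simp; omega) (by intro i; change _ ↔ i < 4 ∧ _; simp; omega)
    hb0 hRL0 hS0 hnd0 hC10 (fun x hx m hm => Int.even_iff.2 (hC20 x hx m hm)) hC30 q
theorem hmA3 : ∀ m < 4, (∑ k ∈ Finset.range 4, if Nat.testBit 5 k then (PF4.A.getD k []).getD m 0 else 0) % 2 =
    if Nat.testBit (2 ^ 3) m then 1 else 0 := by decide +kernel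
theorem hm3 {F : Type*} [Field F] : hv chevF4 F (cO TF4.MO) (2 ^ 3) ∈ chevF4.diagonalSubgroup F := by
  apply hv_mem TF4.good (u := 5)
  intro m hm
  rw [← hmA3 m hm]
  congr 1
  refine Finset.sum_congr rfl fun k hk => ?_
  rw [Finset.mem_range] at hk
  rw [PF4.hA k hk m hm]
abbrev RL3 := RL0
def C3 : List (List ℤ × List ℕ × ℕ) := [([.ofNat (nat_lit 0), .ofNat (nat_lit 0), .ofNat (nat_lit 0), .ofNat (nat_lit 1)], [], nat_lit 0),
  ([.ofNat (nat_lit 0), .ofNat (nat_lit 0), .ofNat (nat_lit 0), .negSucc (nat_lit 0)], [nat_lit 3, nat_lit 2, nat_lit 1, nat_lit 0, nat_lit 2, nat_lit 1, nat_lit 2, nat_lit 3, nat_lit 2, nat_lit 1, nat_lit 0, nat_lit 2, nat_lit 1, nat_lit 2, nat_lit 3], nat_lit 1)]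
theorem hRL3 : ∀ n < 4, ∀ c ∈ RL3.getD n [], c.length ≤ n + 1 ∧ ∃ r < 48, ∀ k < 4, cO TF4.MO r k = c.getD k 0 := hRL0
theorem hb3 : ∀ r < 48, -2 ≤ cO TF4.MO r 3 ∧ cO TF4.MO r 3 ≤ 2 := by decide +kernel
theorem hS3 : srch 3 RL3 (C3.map Prod.fst) 4 [] = true := by decide +kernel
theorem hnd3 : (C3.map Prod.fst).Nodup := by decide +kernel
theorem hC13 : ∀ x ∈ C3, (∀ i ∈ x.2.1, i < 4) ∧ x.2.1.foldl (fun c i => pact PF4.A i c) (punit 4 3) = x.1 := by decide +kernel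
theorem hC23 : ∀ x ∈ C3, ∀ m < 4, (x.1.getD m 0 - (if m = 3 then 1 else 0)) % 2 = 0 := by decide +kernel
theorem hC33 : ∀ x ∈ C3, ((List.range' 24 24).filter fun r => decide (cO TF4.MO r 3 % 2 = 0) &&
      decide ((∑ m ∈ Finset.range 4, cO TF4.MO r m * x.1.getD m 0) < 0)).length = x.2.2 := by decide +kernel
theorem hE3 : ((List.range' 24 24).filter fun r => decide (cO TF4.MO r 3 % 2 = 0)).length = 10 := by decide +kernel
theorem he3 : C3.map (fun x => x.2.2) = [0, 1] := by decide +kernel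
theorem wt3 {R : Type*} [CommRing R] (q : R) : (∑ᶠ w ∈ WT TF4.good 3, q ^ lt TF4.good 3 w) =
    (([0, 1] : List ℕ).map fun e => q ^ e).sum * ∑ᶠ w ∈ (Wn TF4.good [0, 1, 2] : Set TF4.good.W), q ^ len TF4.good.s w := by
  rw [← he3]
  exact wt_step TF4.good PF4.hA PF4.hAl (I := [0, 1, 2, 3]) (J := [0, 1, 2]) (j := 3) (show 3 < 4 by decide)
    (by intro i; change _ ↔ i < 4; simp; omega) (by intro i; change _ ↔ i < 4 ∧ _; simp; omega)
    hb3 hRL3 hS3 hnd3 hC13 (fun x hx m hm => Int.even_iff.2 (hC23 x hx m hm)) hC33 q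
def T0 : List (List (List ℤ)) := [[[.ofNat (nat_lit 0), .ofNat (nat_lit 0), .ofNat (nat_lit 0), .ofNat (nat_lit 1)]],
  [[.ofNat (nat_lit 0), .ofNat (nat_lit 0), .ofNat (nat_lit 1), .negSucc (nat_lit 0)]],
  [[.ofNat (nat_lit 0), .ofNat (nat_lit 1), .negSucc (nat_lit 0), .ofNat (nat_lit 0)]],
  [[.ofNat (nat_lit 1), .negSucc (nat_lit 0), .ofNat (nat_lit 1), .ofNat (nat_lit 0)]],
  [[.ofNat (nat_lit 1), .ofNat (nat_lit 0), .negSucc (nat_lit 0), .ofNat (nat_lit 1)]],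
  [[.ofNat (nat_lit 1), .ofNat (nat_lit 0), .ofNat (nat_lit 0), .negSucc (nat_lit 0)]]]
theorem c0 : pchk PF4.A 4 3 [1, 2, 3] T0 = true := by decide +kernel
theorem l0 : T0.map List.length = [1, 1, 1, 1, 1, 1] := by decide +kernel
theorem f0 {R : Type*} [CommRing R] (q : R) :
    (∑ᶠ w ∈ (Wn TF4.good [1, 2, 3] : Set TF4.good.W), q ^ len TF4.good.s w) =
      hor q [1, 1, 1, 1, 1, 1] * ∑ᶠ w ∈ (Wn TF4.good [1, 2] : Set TF4.good.W), q ^ len TF4.good.s w := by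
  rw [← l0]
  exact poinc_step TF4.good PF4.hA PF4.hAl (by decide) (by decide) (by decide) (by first | (simp; done) | (simp; omega)) c0 q

end OF4
end Cfsg.Agent.H15.OInv
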