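import Cfsg.Agent.H15.OInv6
import Cfsg.Agent.H22.PoincG2
import Cfsg.Agent.H6.ChevExtTab
import Cfsg.Agent.H6.ChevSmith

set_option autoImplicit false
set_option maxRecDepth 100000

/-! # Tables for the odd-characteristic involutions of type G2 (generated) -/

namespace Cfsg.Agent.H15.OInv
open Cfsg.Agent.H6 Cfsg.Lie Cfsg.Agent.H22
namespace OG2

def M : List ℕ := [nat_lit 2, nat_lit 1]
def T : List ℕ := [nat_lit 0, nat_lit 0, nat_lit 0, nat_lit 1]
def cl : List ℤ := [.negSucc (nat_lit 2), .negSucc (nat_lit 1)]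
theorem hMA : ∀ i < 2, ∀ k < 2, (M.getD i 0).testBit k = decide ((PG2.A.getD i []).getD k 0 % 2 = 1) := by decide +kernel
theorem hM : ∀ i < chevG2.rank, ∀ k < chevG2.rank, (M.getD i 0).testBit k = decide (chevG2.cartan i (chevG2.simple k) % 2 = 1) := by
  intro i hi k hk
  rw [PG2.hA i hi k hk]
  exact hMA i hi k hk
theorem hT : ∀ v < 4, T.getD v 0 < 2 := by decide +kernel
theorem hTl : ∀ v < 4, vact M (T.getD v 0) v < 4 := by decide +kernel
theorem hf : ∀ v < 4, v ≠ 0 → orbchk M T [2] 2 v = true := by decide +kernel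
theorem horthA : ∀ i < 2, ∀ j < 2, (PG2.A.getD i []).getD j 0 % 2 = 0 → (PG2.A.getD j []).getD i 0 % 2 = 0 → i ≠ j →
    (PG2.A.getD i []).getD j 0 = 0 := by decide +kernel
theorem hlevA : ∀ j < 2, (∑ r ∈ Finset.range 12, if cO TG2.MO r j = cl.getD j 0 then caF 2 12 TG2.CA j r else 0) % 2 = 1 := by decide +kernel
theorem odd : OddData chevG2 (cO TG2.MO) where
  orth := by
    intro i hi j hj h1 h2 h3
    rw [PG2.hA i hi j hj] at h1 ⊢
    rw [PG2.hA j hj i hi] at h2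
    exact horthA i hi j hj h1 h2 h3
  lev := by
    intro j hj
    refine ⟨cl.getD j 0, ?_⟩
    have h := hlevA j hj
    rw [← chkCartan_spec TG2.c_cartan] at h
    exact h
theorem hmA1 : ∀ m < 2, (∑ k ∈ Finset.range 2, if Nat.testBit 1 k then (PG2.A.getD k []).getD m 0 else 0) % 2 =
    if Nat.testBit (2 ^ 1) m then 1 else 0 := by decide +kernel
theorem hm1 {F : Type*} [Field F] : hv chevG2 F (cO TG2.MO) (2 ^ 1) ∈ chevG2.diagonalSubgroup F := by
  apply hv_mem TG2.good (u := 1)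
  intro m hm
  rw [← hmA1 m hm]
  congr 1
  refine Finset.sum_congr rfl fun k hk => ?_
  rw [Finset.mem_range] at hk
  rw [PG2.hA k hk m hm]
def RL1 : List (List (List ℤ)) := [[[.ofNat (nat_lit 1)]],
  [[.ofNat (nat_lit 0), .ofNat (nat_lit 1)], [.ofNat (nat_lit 1), .ofNat (nat_lit 1)], [.ofNat (nat_lit 2), .ofNat (nat_lit 1)], [.ofNat (nat_lit 3), .ofNat (nat_lit 1)], [.ofNat (nat_lit 3), .ofNat (nat_lit 2)]]]
def C1 : List (List ℤ × List ℕ × ℕ) := [([.ofNat (nat_lit 0), .ofNat (nat_lit 1)], [], nat_lit 0),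
  ([.ofNat (nat_lit 0), .negSucc (nat_lit 0)], [nat_lit 1, nat_lit 0, nat_lit 1, nat_lit 0, nat_lit 1], nat_lit 1)]
theorem hRL1 : ∀ n < 2, ∀ c ∈ RL1.getD n [], c.length ≤ n + 1 ∧ ∃ r < 12, ∀ k < 2, cO TG2.MO r k = c.getD k 0 := by decide +kernel
theorem hb1 : ∀ r < 12, -2 ≤ cO TG2.MO r 1 ∧ cO TG2.MO r 1 ≤ 2 := by decide +kernel
theorem hS1 : srch 1 RL1 (C1.map Prod.fst) 2 [] = true := by decide +kernel
theorem hnd1 : (C1.map Prod.fst).Nodup := by decide +kernel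
theorem hC11 : ∀ x ∈ C1, (∀ i ∈ x.2.1, i < 2) ∧ x.2.1.foldl (fun c i => pact PG2.A i c) (punit 2 1) = x.1 := by decide +kernel
theorem hC21 : ∀ x ∈ C1, ∀ m < 2, (x.1.getD m 0 - (if m = 1 then 1 else 0)) % 2 = 0 := by decide +kernel
theorem hC31 : ∀ x ∈ C1, ((List.range' 6 6).filter fun r => decide (cO TG2.MO r 1 % 2 = 0) &&
      decide ((∑ m ∈ Finset.range 2, cO TG2.MO r m * x.1.getD m 0) < 0)).length = x.2.2 := by decide +kernel
theorem hE1 : ((List.range' 6 6).filter fun r => decide (cO TG2.MO r 1 % 2 = 0)).length = 2 := by decide +kernel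
theorem he1 : C1.map (fun x => x.2.2) = [0, 1] := by decide +kernel
theorem wt1 {R : Type*} [CommRing R] (q : R) : (∑ᶠ w ∈ WT TG2.good 1, q ^ lt TG2.good 1 w) =
    (([0, 1] : List ℕ).map fun e => q ^ e).sum * ∑ᶠ w ∈ (Wn TG2.good [0] : Set TG2.good.W), q ^ len TG2.good.s w := by
  rw [← he1]
  exact wt_step TG2.good PG2.hA PG2.hAl (I := [0, 1]) (J := [0]) (j := 1) (show 1 < 2 by decide)
    (by intro i; change _ ↔ i < 2; simp; omega) (by intro i; change _ ↔ i < 2 ∧ _; simp; omega)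
    hb1 hRL1 hS1 hnd1 hC11 (fun x hx m hm => Int.even_iff.2 (hC21 x hx m hm)) hC31 q
def T0 : List (List (List ℤ)) := [[[.ofNat (nat_lit 1), .ofNat (nat_lit 0)]],
  [[.negSucc (nat_lit 0), .ofNat (nat_lit 3)]]]
theorem c0 : pchk PG2.A 2 0 [0] T0 = true := by decide +kernel
theorem l0 : T0.map List.length = [1, 1] := by decide +kernel
theorem f0 {R : Type*} [CommRing R] (q : R) :
    (∑ᶠ w ∈ (Wn TG2.good [0] : Set TG2.good.W), q ^ len TG2.good.s w) =
      hor q [1, 1] * ∑ᶠ w ∈ (Wn TG2.good [] : Set TG2.good.W), q ^ len TG2.good.s w := by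
  rw [← l0]
  exact poinc_step TG2.good PG2.hA PG2.hAl (by decide) (by decide) (by decide) (by first | (simp; done) | (simp; omega)) c0 q

end OG2
end Cfsg.Agent.H15.OInv
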