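import Cfsg.Agent.H15.OInv7
import Cfsg.Agent.H15.OInvG2
import Cfsg.Agent.H15.OInvF4
import Cfsg.Agent.H15.OInvE8
import Cfsg.Agent.H6.NatAux

/-!
# Involutions of Chevalley groups in odd characteristic: orders of the centralisers
-/

set_option autoImplicit false
set_option linter.unusedSectionVars false

namespace Cfsg.Agent.H15.OInv

open Cfsg.Agent.H6 Cfsg.Lie Cfsg.Agent.H22 Cfsg.Agent.H15.Chev
open scoped Matrix

variable {F : Type*} [Field F] [Fintype F]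

theorem diagF4 : Nat.card (chevF4.diagonalSubgroup F) = (Fintype.card F - 1) ^ 4 := by
  have h1 := TF4.card_diagonal (F := F) rfl
  simpa [TF4.smd, Fin.prod_univ_succ] using h1

theorem diagG2 : Nat.card (chevG2.diagonalSubgroup F) = (Fintype.card F - 1) ^ 2 := by
  have h1 := TG2.card_diagonal (F := F) rfl
  simpa [TG2.smd, Fin.prod_univ_succ] using h1

theorem diagE8 : Nat.card (chevE8.diagonalSubgroup F) = (Fintype.card F - 1) ^ 8 := by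
  have h1 := TE8.card_diagonal (F := F) rfl
  simpa [TE8.smd, Fin.prod_univ_succ] using h1

section poly
variable {R : Type*} [CommRing R] (q : R)

theorem pG2 : (∑ᶠ w ∈ WT TG2.good 1, q ^ lt TG2.good 1 w) * (q - 1) ^ 2 = (q ^ 2 - 1) ^ 2 := by
  rw [OG2.wt1, OG2.f0, poinc_nil]
  simp only [List.map_cons, List.map_nil, List.sum_cons, List.sum_nil, hor]
  push_cast
  ring

theorem pF4a : (∑ᶠ w ∈ WT TF4.good 0, q ^ lt TF4.good 0 w) * (q - 1) ^ 4 = (q ^ 2 - 1) * (q ^ 4 - 1) * (q ^ 6 - 1) * (q ^ 8 - 1) := by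
  have h1 := PF4.p2 q
  rw [OF4.wt0, OF4.f0]
  simp only [List.map_cons, List.map_nil, List.sum_cons, List.sum_nil, hor]
  push_cast
  linear_combination (q ^ 6 - 1) * (q ^ 8 - 1) * h1

theorem pF4b : (∑ᶠ w ∈ WT TF4.good 3, q ^ lt TF4.good 3 w) * (q - 1) ^ 4 = (q ^ 2 - 1) ^ 2 * (q ^ 4 - 1) * (q ^ 6 - 1) := by
  have h1 := PF4.p1 q
  rw [OF4.wt3]
  simp only [List.map_cons, List.map_nil, List.sum_cons, List.sum_nil]
  linear_combination (q ^ 2 - 1) * h1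

theorem pE8b : (∑ᶠ w ∈ WT TE8.good 7, q ^ lt TE8.good 7 w) * (q - 1) ^ 8 =
    (q ^ 2 - 1) ^ 2 * (q ^ 6 - 1) * (q ^ 8 - 1) * (q ^ 10 - 1) * (q ^ 12 - 1) * (q ^ 14 - 1) * (q ^ 18 - 1) := by
  have h1 := PE8.p1 q
  rw [OE8.wt7]
  simp only [List.map_cons, List.map_nil, List.sum_cons, List.sum_nil]
  linear_combination (q ^ 2 - 1) * h1

theorem pE8D5 : (∑ᶠ w ∈ (Wn TE8.good [1, 2, 3, 4, 5] : Set TE8.good.W), q ^ len TE8.good.s w) * (q - 1) ^ 5 =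
    (q ^ 2 - 1) * (q ^ 4 - 1) * (q ^ 6 - 1) * (q ^ 8 - 1) * (q ^ 5 - 1) := by
  have h1 := PE8.p4 q
  rw [OE8.f2]
  have e : hor q [1, 1, 1, 1, 2, 1, 1, 1, 1] = (q ^ 4 + 1) * (1 + q + q ^ 2 + q ^ 3 + q ^ 4) := by
    simp only [hor]; push_cast; ring
  rw [e]
  linear_combination (q ^ 4 + 1) * (1 + q + q ^ 2 + q ^ 3 + q ^ 4) * (q - 1) * h1

theorem pE8D6 : (∑ᶠ w ∈ (Wn TE8.good [1, 2, 3, 4, 5, 6] : Set TE8.good.W), q ^ len TE8.good.s w) * (q - 1) ^ 6 =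
    (q ^ 2 - 1) * (q ^ 4 - 1) * (q ^ 6 - 1) * (q ^ 8 - 1) * (q ^ 10 - 1) * (q ^ 6 - 1) := by
  have h1 := pE8D5 q
  rw [OE8.f1]
  have e : hor q [1, 1, 1, 1, 1, 2, 1, 1, 1, 1, 1] = (q ^ 5 + 1) * (1 + q + q ^ 2 + q ^ 3 + q ^ 4 + q ^ 5) := by
    simp only [hor]; push_cast; ring
  rw [e]
  linear_combination (q ^ 5 + 1) * (1 + q + q ^ 2 + q ^ 3 + q ^ 4 + q ^ 5) * (q - 1) * h1

theorem pE8D7 : (∑ᶠ w ∈ (Wn TE8.good [1, 2, 3, 4, 5, 6, 7] : Set TE8.good.W), q ^ len TE8.good.s w) * (q - 1) ^ 7 =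
    (q ^ 2 - 1) * (q ^ 4 - 1) * (q ^ 6 - 1) * (q ^ 8 - 1) * (q ^ 10 - 1) * (q ^ 12 - 1) * (q ^ 7 - 1) := by
  have h1 := pE8D6 q
  rw [OE8.f0]
  have e : hor q [1, 1, 1, 1, 1, 1, 2, 1, 1, 1, 1, 1, 1] = (q ^ 6 + 1) * (1 + q + q ^ 2 + q ^ 3 + q ^ 4 + q ^ 5 + q ^ 6) := by
    simp only [hor]; push_cast; ring
  rw [e]
  linear_combination (q ^ 6 + 1) * (1 + q + q ^ 2 + q ^ 3 + q ^ 4 + q ^ 5 + q ^ 6) * (q - 1) * h1

theorem pE8a : (∑ᶠ w ∈ WT TE8.good 0, q ^ lt TE8.good 0 w) * (q - 1) ^ 8 =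
    (q ^ 8 - 1) * ((q ^ 2 - 1) * (q ^ 4 - 1) * (q ^ 6 - 1) * (q ^ 8 - 1) * (q ^ 10 - 1) * (q ^ 12 - 1) * (q ^ 14 - 1)) := by
  have h1 := pE8D7 q
  rw [OE8.wt0]
  simp only [List.map_cons, List.map_nil, List.sum_cons, List.sum_nil]
  linear_combination (q ^ 8 - 1) * (q ^ 7 + 1) * h1

end poly

theorem cardG2 (hF : Odd (Fintype.card F)) :
    Nat.card {g : GL chevG2.Idx F // g ∈ chevG2.group F ∧ hv chevG2 F (cO TG2.MO) (2 ^ 1) * g = g * hv chevG2 F (cO TG2.MO) (2 ^ 1)} =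
      Fintype.card F ^ 2 * (Fintype.card F ^ 2 - 1) ^ 2 := by
  have h1 : 1 ≤ Fintype.card F := Fintype.card_pos
  have h := card_cent_of TG2.good TG2.ext (two_ne hF) (j := 1) (show 1 < 2 by decide) OG2.hm1 (n := 2) diagG2 OG2.hE1 (pG2 _)
  have e : ((Fintype.card F ^ 2 * (Fintype.card F ^ 2 - 1) ^ 2 : ℕ) : ℤ) = (Fintype.card F : ℤ) ^ 2 * ((Fintype.card F : ℤ) ^ 2 - 1) ^ 2 := by
    simp only [Nat.cast_mul, Nat.cast_pow, cast_pow_sub_one h1]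
  exact_mod_cast h.trans e.symm

theorem cardF4a (hF : Odd (Fintype.card F)) :
    Nat.card {g : GL chevF4.Idx F // g ∈ chevF4.group F ∧ hv chevF4 F (cO TF4.MO) (2 ^ 0) * g = g * hv chevF4 F (cO TF4.MO) (2 ^ 0)} =
      Fintype.card F ^ 16 * (Fintype.card F ^ 2 - 1) * (Fintype.card F ^ 4 - 1) * (Fintype.card F ^ 6 - 1) * (Fintype.card F ^ 8 - 1) := by
  have h1 : 1 ≤ Fintype.card F := Fintype.card_pos
  have h := card_cent_of TF4.good TF4.ext (two_ne hF) (j := 0) (show 0 < 4 by decide) OF4.hm0 (n := 4) diagF4 OF4.hE0 (pF4a _)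
  have e : ((Fintype.card F ^ 16 * (Fintype.card F ^ 2 - 1) * (Fintype.card F ^ 4 - 1) * (Fintype.card F ^ 6 - 1) * (Fintype.card F ^ 8 - 1) : ℕ) : ℤ) =
      (Fintype.card F : ℤ) ^ 16 * (((Fintype.card F : ℤ) ^ 2 - 1) * ((Fintype.card F : ℤ) ^ 4 - 1) * ((Fintype.card F : ℤ) ^ 6 - 1) * ((Fintype.card F : ℤ) ^ 8 - 1)) := by
    simp only [Nat.cast_mul, Nat.cast_pow, cast_pow_sub_one h1]
    ring
  exact Nat.cast_injective (R := ℤ) (h.trans e.symm)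

theorem cardF4b (hF : Odd (Fintype.card F)) :
    Nat.card {g : GL chevF4.Idx F // g ∈ chevF4.group F ∧ hv chevF4 F (cO TF4.MO) (2 ^ 3) * g = g * hv chevF4 F (cO TF4.MO) (2 ^ 3)} =
      Fintype.card F ^ 10 * (Fintype.card F ^ 2 - 1) ^ 2 * (Fintype.card F ^ 4 - 1) * (Fintype.card F ^ 6 - 1) := by
  have h1 : 1 ≤ Fintype.card F := Fintype.card_pos
  have h := card_cent_of TF4.good TF4.ext (two_ne hF) (j := 3) (show 3 < 4 by decide) OF4.hm3 (n := 4) diagF4 OF4.hE3 (pF4b _)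
  have e : ((Fintype.card F ^ 10 * (Fintype.card F ^ 2 - 1) ^ 2 * (Fintype.card F ^ 4 - 1) * (Fintype.card F ^ 6 - 1) : ℕ) : ℤ) =
      (Fintype.card F : ℤ) ^ 10 * (((Fintype.card F : ℤ) ^ 2 - 1) ^ 2 * ((Fintype.card F : ℤ) ^ 4 - 1) * ((Fintype.card F : ℤ) ^ 6 - 1)) := by
    simp only [Nat.cast_mul, Nat.cast_pow, cast_pow_sub_one h1]
    ring
  exact Nat.cast_injective (R := ℤ) (h.trans e.symm)

theorem cardE8a (hF : Odd (Fintype.card F)) :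
    Nat.card {g : GL chevE8.Idx F // g ∈ chevE8.group F ∧ hv chevE8 F (cO TE8.MO) (2 ^ 0) * g = g * hv chevE8 F (cO TE8.MO) (2 ^ 0)} =
      Fintype.card F ^ 56 * (Fintype.card F ^ 8 - 1) * ∏ i ∈ Finset.Icc 1 7, (Fintype.card F ^ (2 * i) - 1) := by
  have h1 : 1 ≤ Fintype.card F := Fintype.card_pos
  have h := card_cent_of TE8.good TE8.ext (two_ne hF) (j := 0) (show 0 < 8 by decide) OE8.hm0 (n := 8) diagE8 OE8.hE0 (pE8a _)
  have e0 : ∏ i ∈ Finset.Icc 1 7, (Fintype.card F ^ (2 * i) - 1) = (Fintype.card F ^ 2 - 1) * (Fintype.card F ^ 4 - 1) * (Fintype.card F ^ 6 - 1) *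
      (Fintype.card F ^ 8 - 1) * (Fintype.card F ^ 10 - 1) * (Fintype.card F ^ 12 - 1) * (Fintype.card F ^ 14 - 1) := by
    rw [Finset.prod_Icc_succ_top (by norm_num), Finset.prod_Icc_succ_top (by norm_num), Finset.prod_Icc_succ_top (by norm_num),
      Finset.prod_Icc_succ_top (by norm_num), Finset.prod_Icc_succ_top (by norm_num), Finset.prod_Icc_succ_top (by norm_num),
      Finset.Icc_self, Finset.prod_singleton]
  rw [e0]
  have e : ((Fintype.card F ^ 56 * (Fintype.card F ^ 8 - 1) * ((Fintype.card F ^ 2 - 1) * (Fintype.card F ^ 4 - 1) * (Fintype.card F ^ 6 - 1) *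
      (Fintype.card F ^ 8 - 1) * (Fintype.card F ^ 10 - 1) * (Fintype.card F ^ 12 - 1) * (Fintype.card F ^ 14 - 1)) : ℕ) : ℤ) =
      (Fintype.card F : ℤ) ^ 56 * (((Fintype.card F : ℤ) ^ 8 - 1) * (((Fintype.card F : ℤ) ^ 2 - 1) * ((Fintype.card F : ℤ) ^ 4 - 1) *
        ((Fintype.card F : ℤ) ^ 6 - 1) * ((Fintype.card F : ℤ) ^ 8 - 1) * ((Fintype.card F : ℤ) ^ 10 - 1) * ((Fintype.card F : ℤ) ^ 12 - 1) *
        ((Fintype.card F : ℤ) ^ 14 - 1))) := by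
    simp only [Nat.cast_mul, Nat.cast_pow, cast_pow_sub_one h1]
    ring
  exact Nat.cast_injective (R := ℤ) (h.trans e.symm)

theorem cardE8b (hF : Odd (Fintype.card F)) :
    Nat.card {g : GL chevE8.Idx F // g ∈ chevE8.group F ∧ hv chevE8 F (cO TE8.MO) (2 ^ 7) * g = g * hv chevE8 F (cO TE8.MO) (2 ^ 7)} =
      Fintype.card F ^ 64 * (Fintype.card F ^ 2 - 1) ^ 2 * (Fintype.card F ^ 6 - 1) * (Fintype.card F ^ 8 - 1) * (Fintype.card F ^ 10 - 1) *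
        (Fintype.card F ^ 12 - 1) * (Fintype.card F ^ 14 - 1) * (Fintype.card F ^ 18 - 1) := by
  have h1 : 1 ≤ Fintype.card F := Fintype.card_pos
  have h := card_cent_of TE8.good TE8.ext (two_ne hF) (j := 7) (show 7 < 8 by decide) OE8.hm7 (n := 8) diagE8 OE8.hE7 (pE8b _)
  have e : ((Fintype.card F ^ 64 * (Fintype.card F ^ 2 - 1) ^ 2 * (Fintype.card F ^ 6 - 1) * (Fintype.card F ^ 8 - 1) * (Fintype.card F ^ 10 - 1) *
        (Fintype.card F ^ 12 - 1) * (Fintype.card F ^ 14 - 1) * (Fintype.card F ^ 18 - 1) : ℕ) : ℤ) =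
      (Fintype.card F : ℤ) ^ 64 * (((Fintype.card F : ℤ) ^ 2 - 1) ^ 2 * ((Fintype.card F : ℤ) ^ 6 - 1) * ((Fintype.card F : ℤ) ^ 8 - 1) *
        ((Fintype.card F : ℤ) ^ 10 - 1) * ((Fintype.card F : ℤ) ^ 12 - 1) * ((Fintype.card F : ℤ) ^ 14 - 1) * ((Fintype.card F : ℤ) ^ 18 - 1)) := by
    simp only [Nat.cast_mul, Nat.cast_pow, cast_pow_sub_one h1]
    ring
  exact Nat.cast_injective (R := ℤ) (h.trans e.symm)

end Cfsg.Agent.H15.OInv
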