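import Cfsg.Agent.H15.OInv8
import Cfsg.Agent.S1030
import Cfsg.Agent.H5.Small

/-!
# Involutions of `G₂(q)`, `q` odd: the structure of the centraliser
-/

set_option autoImplicit false
set_option linter.unusedSectionVars false

namespace Cfsg.Agent.H15.OInv

open Cfsg.Agent.H6 Cfsg.Lie Cfsg.Agent.H22 Cfsg.Agent.H15.Chev
open scoped Matrix

section sl2
variable {F : Type*} [Field F]

theorem sl2_pm {g : Matrix.SpecialLinearGroup (Fin 2) F} (h1 : g * ux 1 = ux 1 * g) (h2 : g * uy 1 = uy 1 * g) :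
    g = 1 ∨ g = -1 := by
  have hd := sl_det g
  have e1 : (g : Matrix (Fin 2) (Fin 2) F) * (ux (1 : F) : Matrix (Fin 2) (Fin 2) F) = (ux (1 : F) : Matrix (Fin 2) (Fin 2) F) * g :=
    congrArg Subtype.val h1
  have e2 : (g : Matrix (Fin 2) (Fin 2) F) * (uy (1 : F) : Matrix (Fin 2) (Fin 2) F) = (uy (1 : F) : Matrix (Fin 2) (Fin 2) F) * g :=
    congrArg Subtype.val h2
  have f1 := congrFun (congrFun e1 0) 1
  have f2 := congrFun (congrFun e1 1) 1
  have f3 := congrFun (congrFun e2 0) 0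
  simp only [ux, uy, Matrix.mul_apply, Fin.sum_univ_two, Matrix.of_apply, Matrix.cons_val_zero, Matrix.cons_val_one,
    Matrix.cons_val', Matrix.cons_val_fin_one] at f1 f2 f3
  have g10 : (g : Matrix (Fin 2) (Fin 2) F) 1 0 = 0 := by linear_combination f2
  have g01 : (g : Matrix (Fin 2) (Fin 2) F) 0 1 = 0 := by linear_combination f3
  have g11 : (g : Matrix (Fin 2) (Fin 2) F) 1 1 = (g : Matrix (Fin 2) (Fin 2) F) 0 0 := by linear_combination -f1
  rw [g10, g01, g11] at hd
  have h3 : (g : Matrix (Fin 2) (Fin 2) F) 0 0 * (g : Matrix (Fin 2) (Fin 2) F) 0 0 = 1 := by linear_combination hd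
  rcases mul_self_eq_one_iff.1 h3 with h | h
  · left
    apply Subtype.ext
    ext i j
    fin_cases i <;> fin_cases j <;> simp [g10, g01, g11, h]
  · right
    apply Subtype.ext
    ext i j
    fin_cases i <;> fin_cases j <;> simp [g10, g01, g11, h]

variable [Fintype F]

theorem two_sl2 {G : Type*} [Group G] [Finite G] (h2 : (2 : F) ≠ 0) {t : G} (φ₁ φ₂ : Matrix.SpecialLinearGroup (Fin 2) F →* G)
    (i1 : Function.Injective φ₁) (i2 : Function.Injective φ₂) (h₁ : φ₁ (-1) = t) (h₂ : φ₂ (-1) = t)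
    (hc : ∀ x y, φ₁ x * φ₂ y = φ₂ y * φ₁ x)
    (hC : Nat.card (Subgroup.centralizer ({t} : Set G)) = Fintype.card F ^ 2 * (Fintype.card F ^ 2 - 1) ^ 2) :
    ∃ L₁ L₂ : Subgroup G, Nonempty (L₁ ≃* Matrix.SpecialLinearGroup (Fin 2) F) ∧
      Nonempty (L₂ ≃* Matrix.SpecialLinearGroup (Fin 2) F) ∧ (∀ x ∈ L₁, ∀ y ∈ L₂, x * y = y * x) ∧
      L₁ ⊓ L₂ = Subgroup.zpowers t ∧ L₁ ⊔ L₂ ≤ Subgroup.centralizer ({t} : Set G) ∧
      (L₁ ⊔ L₂).relIndex (Subgroup.centralizer ({t} : Set G)) = 2 := by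
  classical
  have hm1 : (-1 : Matrix.SpecialLinearGroup (Fin 2) F) ≠ 1 := by
    intro h
    have h3 : (-1 : F) = 1 := by
      have := congrArg (fun g : Matrix.SpecialLinearGroup (Fin 2) F => (g : Matrix (Fin 2) (Fin 2) F) 0 0) h
      simpa using this
    apply h2
    linear_combination (-1 : F) * h3
  have hpm : ∀ a b, φ₁ a = φ₂ b → a = 1 ∨ a = -1 := by
    intro a b hab
    apply sl2_pm
    · apply i1
      rw [map_mul, map_mul, hab, hc]
    · apply i1
      rw [map_mul, map_mul, hab, hc]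
  have hle : φ₁.range ⊔ φ₂.range ≤ Subgroup.centralizer ({t} : Set G) := by
    apply sup_le
    · rintro _ ⟨x, rfl⟩
      rw [Subgroup.mem_centralizer_iff]
      intro y hy
      rw [Set.mem_singleton_iff] at hy
      rw [hy, ← h₂, hc]
    · rintro _ ⟨x, rfl⟩
      rw [Subgroup.mem_centralizer_iff]
      intro y hy
      rw [Set.mem_singleton_iff] at hy
      rw [hy, ← h₁, hc]
  refine ⟨φ₁.range, φ₂.range, ⟨(MonoidHom.ofInjective i1).symm⟩, ⟨(MonoidHom.ofInjective i2).symm⟩, ?_, ?_, hle, ?_⟩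
  · rintro _ ⟨x, rfl⟩ _ ⟨y, rfl⟩
    exact hc x y
  · apply le_antisymm
    · rintro x ⟨⟨a, rfl⟩, ⟨b, hb⟩⟩
      rcases hpm a b hb.symm with rfl | rfl
      · rw [map_one]; exact one_mem _
      · rw [h₁]; exact Subgroup.mem_zpowers t
    · rw [Subgroup.zpowers_le]
      exact ⟨⟨-1, h₁⟩, ⟨-1, h₂⟩⟩
  · -- the orders
    have hcm : ∀ x y, Commute (φ₁ x) (φ₂ y) := fun x y => hc x y
    have h3 : Nat.card (φ₁.noncommCoprod φ₂ hcm).ker = 2 := by
      rw [Nat.card_eq_two_iff]
      have hk : (-1, -1) ∈ (φ₁.noncommCoprod φ₂ hcm).ker := by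
        rw [MonoidHom.mem_ker, MonoidHom.noncommCoprod_apply, h₁]
        change t * φ₂ (-1) = 1
        rw [h₂, ← h₁, ← map_mul]
        rw [neg_mul_neg, mul_one, map_one]
      refine ⟨1, ⟨(-1, -1), hk⟩, ?_, ?_⟩
      · intro h
        have h4 := congrArg (fun z => (z.1 : Matrix.SpecialLinearGroup (Fin 2) F × Matrix.SpecialLinearGroup (Fin 2) F).1) h
        exact hm1 h4.symm
      · rw [Set.eq_univ_iff_forall]
        rintro ⟨⟨a, b⟩, hab⟩
        rw [MonoidHom.mem_ker, MonoidHom.noncommCoprod_apply] at hab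
        change φ₁ a * φ₂ b = 1 at hab
        have h4 : φ₁ a = φ₂ b⁻¹ := by rw [map_inv]; exact eq_inv_of_mul_eq_one_left hab
        rcases hpm a _ h4 with rfl | rfl
        · left
          rw [map_one] at h4
          have : b⁻¹ = 1 := i2 (by rw [← h4, map_one])
          rw [inv_eq_one] at this
          subst this
          rfl
        · right
          rw [h₁, ← h₂] at h4
          have h5 := i2 h4
          have h6 : b = -1 := by
            rw [← inv_inv b, ← h5]
            rw [inv_eq_iff_mul_eq_one, neg_mul_neg, mul_one]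
          subst h6
          rfl
    have h4 : Nat.card (φ₁.range ⊔ φ₂.range : Subgroup G) * 2 = (Fintype.card F * (Fintype.card F ^ 2 - 1)) ^ 2 := by
      have h40 := Subgroup.card_mul_index (φ₁.noncommCoprod φ₂ hcm).ker
      rw [h3, Nat.card_prod, Cfsg.Agent.H5.card_SL2 (F := F) rfl, Subgroup.index_ker, MonoidHom.noncommCoprod_range] at h40
      rw [mul_comm, h40, pow_two (Fintype.card F * (Fintype.card F ^ 2 - 1))]
    have h5 := Subgroup.card_mul_index ((φ₁.range ⊔ φ₂.range).subgroupOf (Subgroup.centralizer ({t} : Set G)))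
    rw [Nat.card_congr (Subgroup.subgroupOfEquivOfLe hle).toEquiv, hC] at h5
    change Nat.card (φ₁.range ⊔ φ₂.range : Subgroup G) * (φ₁.range ⊔ φ₂.range).relIndex (Subgroup.centralizer ({t} : Set G)) = _ at h5
    have h6 : Nat.card (φ₁.range ⊔ φ₂.range : Subgroup G) ≠ 0 := Nat.card_pos.ne'
    have h7 : Nat.card (φ₁.range ⊔ φ₂.range : Subgroup G) * (φ₁.range ⊔ φ₂.range).relIndex (Subgroup.centralizer ({t} : Set G)) =
        Nat.card (φ₁.range ⊔ φ₂.range : Subgroup G) * 2 := by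
      rw [h5, h4, mul_pow]
    exact Nat.eq_of_mul_eq_mul_left (Nat.pos_of_ne_zero h6) h7

end sl2

section rank1
variable {D : ChevalleyDatum} {N : ℕ} {η : ℕ → ℕ → ℤ} {rc : ℕ → ℕ → ℤ} {F : Type*} [Field F]
variable (hG : Good D N η rc) (hE : Ext D rc)

theorem sl_w (s : F) (hs : s ≠ 0) : ((ux s * uy (-s⁻¹) * ux s : Matrix.SpecialLinearGroup (Fin 2) F) : Matrix (Fin 2) (Fin 2) F) =
    !![0, s; -s⁻¹, 0] := by
  change (ux s).1 * (uy (-s⁻¹)).1 * (ux s).1 = _
  simp only [ux, uy]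
  rw [Matrix.mul_fin_two, Matrix.mul_fin_two]
  ext i j
  fin_cases i <;> fin_cases j <;> simp [hs]

include hG hE

theorem sl2_inj (h2 : (2 : F) ≠ 0) {r : ℕ} (hr : r < D.nroots) (hne : hgr D F r (-1) ≠ 1)
    (φ : Matrix.SpecialLinearGroup (Fin 2) F →* GL D.Idx F) (hx : ∀ t, φ (ux t) = xg D F r t)
    (hy : ∀ t, φ (uy t) = xg D F (D.neg r) t) : Function.Injective φ ∧ φ (-1) = hgr D F r (-1) := by
  have hw : ∀ s : F, φ (ux s * uy (-s⁻¹) * ux s) = ngr D F r s := by
    intro s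
    rw [map_mul, map_mul, hx, hy]
    rfl
  have hm1 : φ (-1) = hgr D F r (-1) := by
    have e : (-1 : Matrix.SpecialLinearGroup (Fin 2) F) = (ux (-1) * uy (-(-1)⁻¹) * ux (-1)) * (ux (-1) * uy (-(-1)⁻¹) * ux (-1)) := by
      apply Subtype.ext
      change ((-1 : Matrix.SpecialLinearGroup (Fin 2) F) : Matrix (Fin 2) (Fin 2) F) = (ux (-1 : F) * uy (-(-1 : F)⁻¹) * ux (-1 : F)).1 * (ux (-1 : F) * uy (-(-1 : F)⁻¹) * ux (-1 : F)).1
      rw [sl_w _ (neg_ne_zero.2 one_ne_zero), Matrix.mul_fin_two]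
      ext i j
      fin_cases i <;> fin_cases j <;> simp
    rw [e, map_mul, hw]
    rfl
  refine ⟨?_, hm1⟩
  rw [injective_iff_map_eq_one]
  intro g hg
  have hd := sl_det g
  by_cases hc : (g : Matrix (Fin 2) (Fin 2) F) 1 0 = 0
  · -- upper triangular
    rw [hc, mul_zero, sub_zero] at hd
    have ha : (g : Matrix (Fin 2) (Fin 2) F) 0 0 ≠ 0 := left_ne_zero_of_mul_eq_one hd
    set a := (g : Matrix (Fin 2) (Fin 2) F) 0 0 with hadef
    set b := (g : Matrix (Fin 2) (Fin 2) F) 0 1 with hbdef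
    have hd' : (g : Matrix (Fin 2) (Fin 2) F) 1 1 = a⁻¹ := (eq_inv_of_mul_eq_one_right hd)
    have e : g = (ux a * uy (-a⁻¹) * ux a) * (ux (-1) * uy (-(-1)⁻¹) * ux (-1)) * ux (b / a) := by
      apply Subtype.ext
      change (g : Matrix (Fin 2) (Fin 2) F) = (ux a * uy (-a⁻¹) * ux a).1 * (ux (-1 : F) * uy (-(-1 : F)⁻¹) * ux (-1 : F)).1 * (ux (b / a)).1
      rw [sl_w a ha, sl_w (-1 : F) (neg_ne_zero.2 one_ne_zero)]
      simp only [ux]
      rw [Matrix.mul_fin_two, Matrix.mul_fin_two]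
      ext i j
      fin_cases i <;> fin_cases j
      · simp [← hadef]
      · simp [← hbdef]; field_simp
      · simp [hc]
      · simp [hd']
    have h3 : hgr D F r a = (xg D F r (b / a))⁻¹ := by
      rw [e, map_mul, map_mul, hw, hw, hx] at hg
      exact eq_inv_of_mul_eq_one_left hg
    have h4 : hgr D F r a * xg D F r 1 * (hgr D F r a)⁻¹ = xg D F r (a ^ 2) := by
      have h5 := hG.hgr_eq_tor (F := F) r hr (Units.mk0 a ha)
      rw [Units.val_mk0] at h5
      rw [h5, hG.tor_conj_xg (hG.isChr_pairing r _) hr, hG.pairing_self hr, mul_one]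
      congr 1
    have h6 : hgr D F r a * xg D F r 1 * (hgr D F r a)⁻¹ = xg D F r 1 := by
      rw [h3, ← hG.xg_neg, ← hG.xg_add, ← hG.xg_neg, ← hG.xg_add]
      congr 1
      ring
    have h7 : a ^ 2 = 1 := by
      rw [h4] at h6
      exact hG.xg_inj' hE hr h6
    rcases mul_self_eq_one_iff.1 (show a * a = 1 by rw [← pow_two]; exact h7) with h8 | h8
    · have h9 : hgr D F r a = 1 := by
        rw [h8]
        unfold hgr
        rw [hG.ngr_neg_one, mul_inv_cancel]
      rw [h9] at h3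
      have h10 : xg D F r (b / a) = xg D F r 0 := by
        rw [hG.xg_zero]
        exact inv_eq_one.1 h3.symm
      have h11 := hG.xg_inj' hE hr h10
      rw [h8, div_one] at h11
      apply Subtype.ext
      ext i j
      fin_cases i <;> fin_cases j
      · simpa [← hadef] using h8
      · simpa [← hbdef] using h11
      · simpa using hc
      · simp [hd', h8]
    · exfalso
      -- `h(-1)` would be unipotent
      rw [h8] at h3
      apply hne
      have h9 : hgr D F r (-1) * hgr D F r (-1) = 1 := by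
        have := hG.hgr_mul (F := F) hr (-1) (-1)
        have e1 : ((-1 : Fˣ) : F) = -1 := by push_cast; rfl
        rw [e1] at this
        rw [this]
        have e2 : ((-1 * -1 : Fˣ) : F) = 1 := by simp
        rw [e2]
        unfold hgr
        rw [hG.ngr_neg_one, mul_inv_cancel]
      rw [h3, ← hG.xg_neg, ← hG.xg_add, ← hG.xg_zero (F := F) r] at h9
      have h10 := hG.xg_inj' hE hr h9
      have h11 : b / -1 = 0 := by
        have : 2 * (b / -1) = 0 := by linear_combination (-1 : F) * h10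
        exact (mul_eq_zero.1 this).resolve_left h2
      rw [h3, h11, hG.xg_zero, inv_one]
  · exfalso
    set a := (g : Matrix (Fin 2) (Fin 2) F) 0 0 with hadef
    set b := (g : Matrix (Fin 2) (Fin 2) F) 0 1 with hbdef
    set c := (g : Matrix (Fin 2) (Fin 2) F) 1 0 with hcdef
    set d := (g : Matrix (Fin 2) (Fin 2) F) 1 1 with hddef
    have hs : (-c⁻¹) ≠ 0 := neg_ne_zero.2 (inv_ne_zero hc)
    have e : ux (-(a / c)) * g * ux (-(d / c)) = ux (-c⁻¹) * uy (-(-c⁻¹)⁻¹) * ux (-c⁻¹) := by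
      apply Subtype.ext
      rw [sl_w _ hs]
      change (ux (-(a / c))).1 * (g : Matrix (Fin 2) (Fin 2) F) * (ux (-(d / c))).1 = _
      have hgm : (g : Matrix (Fin 2) (Fin 2) F) = !![a, b; c, d] := by
        ext i j
        fin_cases i <;> fin_cases j <;> simp [hadef, hbdef, hcdef, hddef]
      rw [hgm]
      simp only [ux]
      rw [Matrix.mul_fin_two, Matrix.mul_fin_two]
      ext i j
      fin_cases i <;> fin_cases j
      · simp; field_simp; ring
      · simp
        field_simp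
        linear_combination (-1 : F) * hd
      · simp
      · simp; field_simp; ring
    have h3 : ngr D F r (-c⁻¹) = xg D F r (-(a / c) + -(d / c)) := by
      rw [← hw, ← e, map_mul, map_mul, hg, hx, hx, mul_one, hG.xg_add]
    have h4 := Cfsg.Agent.S1030.conj_all hG hE r hr (-c⁻¹) hs (1 : F)
    change ngr D F r (-c⁻¹) * xg D F r 1 * (ngr D F r (-c⁻¹))⁻¹ = _ at h4
    have h5 : ngr D F r (-c⁻¹) * xg D F r 1 * (ngr D F r (-c⁻¹))⁻¹ = xg D F r 1 := by
      rw [h3, ← hG.xg_neg, ← hG.xg_add, ← hG.xg_add]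
      congr 1
      ring
    rw [h5] at h4
    have h6 := hG.xg_inj hE hr (hG.neg_lt' hr) (one_ne_zero) h4
    exact hG.toSem.neg_ne hr h6.symm

end rank1

end Cfsg.Agent.H15.OInv
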