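import Mathlib
import Cfsg.Agent.H15.SchTool3
import Cfsg.Agent.H15.T.L11s
import Cfsg.Agent.H15.T.L11x

/-! # The Schur multiplier of M11 -/

set_option autoImplicit false

namespace Cfsg.Agent.H15.SchM11

open Cfsg Cfsg.Agent.H7 Cfsg.Agent.H8 Cfsg.Agent.H15.MathCode Cfsg.Agent.H15.PExtN Cfsg.Agent.H15.T
open Cfsg.Agent.H15.SchTool

def cS : Cd Spor.M11 := cd11 L11s.Y0 (by decide +kernel)
def cR : Cd Spor.M11 := cd11 L11s.Y1 (by decide +kernel)
def cX : Cd Spor.M11 := cd11 L11x.Y0 (by decide +kernel)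
def cZ : Cd Spor.M11 := cd11 L11x.Y1 (by decide +kernel)
def cV : Cd Spor.M11 := cd11 0x2ceb4b36295ba4c79e06522e418440 (by decide +kernel)

variable {E : Type*} [Group E] [Finite E] {τ : E →* Spor.M11} {z : E}

theorem two (h : PExt 2 τ z) : z ∉ commutator E := by
  obtain ⟨s, hs⟩ := h.surj (toG cS)
  obtain ⟨r, hr⟩ := h.surj (toG cR)
  have s2 : toG cS ^ 2 = 1 := pwG cS 2 (by decide +kernel)
  have r8 : toG cR ^ 8 = 1 := pwG cR 8 (by decide +kernel)
  have r4 : toG cR ^ 4 ≠ 1 := by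
    intro h0
    have h1 := congrArg (fun g : Spor.M11 => (g : Equiv.Perm GolayPt)) h0
    have h2 := toG_prod (List.replicate 4 cR)
    rw [List.map_replicate, List.prod_replicate] at h2
    have h3 : mkPerm (wl ((List.replicate 4 cR).map Subtype.val)) = mkPerm idc := by
      rw [mkPerm_idc, ← h2]; exact h1
    have h4 : isPermCode (wl ((List.replicate 4 cR).map Subtype.val)) = true := by decide +kernel
    have h5 := papp_eq_of_mkPerm h4 idc_perm h3 (i := 4) (by norm_num)
    revert h5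
    decide +kernel
  have hsr : toG cS * toG cR * (toG cS)⁻¹ = toG cR ^ 3 := by
    rw [mul_inv_eq_iff_eq_mul]
    simp only [pow_succ, pow_zero, one_mul, mul_assoc]
    exact wqG [cS, cR] [cR, cR, cR, cS] (by decide +kernel)
  -- relations of the lifts
  obtain ⟨e, he⟩ : ∃ e : ℤ, s * r * s⁻¹ = r ^ 3 * z ^ e := by
    apply h.eq_mul
    rw [map_mul, map_mul, map_inv, map_pow, hs, hr, hsr]
  have zz : ∀ k : ℤ, z ^ (2 * k) = 1 := by
    intro k; rw [zpow_mul, zpow_two, h.z2, one_zpow]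
  have hc : ∀ (k : ℤ) (x : E), Commute x (z ^ k) := fun k x => h.centz k x
  obtain ⟨f, hf⟩ := h.eq_zpow (x := s ^ 2) (by rw [map_pow, hs, s2])
  have r8' : r ^ 8 = 1 := by
    have h1 : s ^ 2 * r * (s ^ 2)⁻¹ = r := by
      rw [hf, ← h.centz f r, mul_inv_cancel_right]
    have h2 : s ^ 2 * r * (s ^ 2)⁻¹ = r ^ 9 := by
      calc s ^ 2 * r * (s ^ 2)⁻¹ = s * (s * r * s⁻¹) * s⁻¹ := by rw [pow_two]; group
        _ = (s * r * s⁻¹) ^ 3 * (s * z ^ e * s⁻¹) := by rw [conj_pow, he]; group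
        _ = (r ^ 3 * z ^ e) ^ 3 * z ^ e := by
            rw [he, (hc e s).eq, mul_inv_cancel_right]
        _ = r ^ 9 * z ^ (2 * (2 * e)) := by
            have h3 : (z ^ e) ^ 3 * z ^ e = z ^ (2 * (2 * e)) := by
              rw [← pow_succ, ← zpow_natCast, ← zpow_mul]
              congr 1
              push_cast; ring
            rw [(hc e (r ^ 3)).mul_pow, ← pow_mul, mul_assoc, h3]
        _ = r ^ 9 := by rw [zz, mul_one]
    rw [h1] at h2
    have h3 : r * r ^ 8 = r * 1 := by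
      rw [← pow_succ', mul_one]; exact h2.symm
    exact mul_left_cancel h3
  obtain ⟨w, hw⟩ : ∃ w, w = r ^ 2 * z ^ e := ⟨_, rfl⟩
  have w4 : w ^ 4 = 1 := by
    rw [hw, (hc e (r ^ 2)).mul_pow, ← pow_mul, ← zpow_natCast (z ^ e), ← zpow_mul,
      show e * ((4 : ℕ) : ℤ) = 2 * (2 * e) by push_cast; ring, zz, mul_one]
    exact r8'
  have hwr : Commute r w := by
    rw [hw]
    exact ((Commute.refl r).pow_right 2).mul_right (hc e r)
  have hws : s * w * s⁻¹ = w ^ 3 := by
    rw [hw, show s * (r ^ 2 * z ^ e) * s⁻¹ = (s * r * s⁻¹) ^ 2 * (s * z ^ e * s⁻¹) by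
      rw [conj_pow]; group, he, (hc e s).eq, mul_inv_cancel_right, (hc e (r ^ 3)).mul_pow,
      (hc e (r ^ 2)).mul_pow, ← pow_mul, ← pow_mul, mul_assoc, ← pow_succ]
  have hws' : s⁻¹ * w * s = w ^ 3 := by
    have h1 : s⁻¹ * w * s = (s ^ 2)⁻¹ * (s * w * s⁻¹) * s ^ 2 := by rw [pow_two]; group
    rw [h1, hws, hf, mul_assoc, ((hc f (w ^ 3))).eq, inv_mul_cancel_left]
  refine not_mem_of_comm_closure h Nat.prime_two {s, r} (Subgroup.zpowers w) ?_ ?_ ?_ ?_
  · rintro t ht n ⟨k, rfl⟩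
    rcases ht with rfl | rfl
    · constructor
      · show t * w ^ k * t⁻¹ ∈ _
        rw [← conj_zpow, hws]
        exact (Subgroup.zpowers w).zpow_mem ((Subgroup.zpowers w).pow_mem (Subgroup.mem_zpowers w) 3) k
      · show t⁻¹ * w ^ k * t ∈ _
        have : t⁻¹ * w ^ k * t = (t⁻¹ * w * t) ^ k := by
          have h3 := conj_zpow (i := k) (a := t⁻¹) (b := w)
          rw [inv_inv] at h3
          exact h3.symm
        rw [this, hws']
        exact (Subgroup.zpowers w).zpow_mem ((Subgroup.zpowers w).pow_mem (Subgroup.mem_zpowers w) 3) k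
    · constructor
      · show t * w ^ k * t⁻¹ ∈ _
        rw [(hwr.zpow_right k).eq, mul_inv_cancel_right]
        exact Subgroup.zpow_mem_zpowers w k
      · show t⁻¹ * w ^ k * t ∈ _
        rw [mul_assoc, ← (hwr.zpow_right k).eq, inv_mul_cancel_left]
        exact Subgroup.zpow_mem_zpowers w k
  · have h1 : s * r * s⁻¹ * r⁻¹ = w := by
      rw [he, hw, mul_assoc, ← ((hc e r⁻¹)).eq, ← mul_assoc, pow_succ r 2, mul_inv_cancel_right]
    rintro a (rfl | rfl) b (rfl | rfl)
    · rw [mul_inv_cancel_right, mul_inv_cancel]; exact Subgroup.one_mem _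
    · rw [h1]; exact Subgroup.mem_zpowers w
    · rw [show a * b * a⁻¹ * b⁻¹ = (b * a * b⁻¹ * a⁻¹)⁻¹ by group, h1]
      exact (Subgroup.zpowers w).inv_mem (Subgroup.mem_zpowers w)
    · rw [mul_inv_cancel_right, mul_inv_cancel]; exact Subgroup.one_mem _
  · rintro ⟨k, hk⟩
    have hk' : w ^ k = z := hk
    have h1 : (toG cR ^ 2) ^ k = 1 := by
      have := congrArg τ hk'
      rwa [map_zpow, hw, map_mul, h.tzn, mul_one, map_pow, hr, h.tz] at this
    have h2 : orderOf (toG cR ^ 2) = 4 := by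
      have : orderOf (toG cR ^ 2) = 2 ^ (1 + 1) := by
        apply orderOf_eq_prime_pow
        · rw [← pow_mul]; exact r4
        · rw [← pow_mul]; exact r8
      simpa using this
    have h3 : (4 : ℤ) ∣ k := by
      have := orderOf_dvd_iff_zpow_eq_one.mpr h1
      rw [h2] at this
      exact_mod_cast this
    obtain ⟨j, rfl⟩ := h3
    have h4 : z = 1 := by
      rw [← hk', zpow_mul]
      have : w ^ (4 : ℤ) = 1 := by exact_mod_cast w4
      rw [this, one_zpow]
    exact h.ne_one Nat.prime_two h4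
  · have hmap : (Subgroup.closure {s, r}).map τ = Subgroup.closure {toG cS, toG cR} := by
      rw [MonoidHom.map_closure, Set.image_pair, hs, hr]
    have h1 : toG cS * toG cR * (toG cS)⁻¹ ∈ Subgroup.zpowers (toG cR) := by
      rw [hsr]; exact (Subgroup.zpowers _).pow_mem (Subgroup.mem_zpowers _) 3
    have h2 : (toG cS)⁻¹ * toG cR * toG cS ∈ Subgroup.zpowers (toG cR) := by
      have : (toG cS)⁻¹ = toG cS := by
        rw [inv_eq_iff_mul_eq_one, ← pow_two]; exact s2
      rw [this] at h1 ⊢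
      exact h1
    obtain ⟨-, hle⟩ := card_le_meta (toG cS) (toG cR) 2 8 (by norm_num) (by norm_num) s2 r8 h1 h2
    have hge : 16 ≤ Nat.card (Subgroup.closure {toG cS, toG cR}) := by
      apply card_map_subtype
      apply L11s.lower
      · exact ⟨toG cS, Subgroup.subset_closure (Set.mem_insert _ _), rfl⟩
      · exact ⟨toG cR, Subgroup.subset_closure (Set.mem_insert_of_mem _ rfl), rfl⟩
    rw [hmap]
    exact index_coprime _ 16 495 2 (le_antisymm hle hge) H28.card_M11 (by norm_num) (by norm_num)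

theorem three (h : PExt 3 τ z) : z ∉ commutator E := by
  obtain ⟨x, hx⟩ := h.surj (toG cX)
  obtain ⟨y, hy⟩ := h.surj (toG cZ)
  obtain ⟨v, hv⟩ := h.surj (toG cV)
  have hc : toG cX * toG cZ = toG cZ * toG cX := wqG [cX, cZ] [cZ, cX] (by decide +kernel)
  have hx3 : toG cX ^ 3 = 1 := pwG cX 3 (by decide +kernel)
  have hy3 : toG cZ ^ 3 = 1 := pwG cZ 3 (by decide +kernel)
  have hxy : x * y = y * x := by
    refine comm_of_inv h Nat.prime_three (by norm_num) (v := v) (by rw [hx, hy, hc]) ?_ ?_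
    · rw [map_mul, map_mul, map_inv, mul_inv_eq_iff_eq_mul, hv, hx]
      exact wqG [cV, cX] [cX, cV] (by decide +kernel)
    · rw [map_mul, map_mul, map_inv, mul_inv_eq_iff_eq_mul, hv, hy, map_inv, hy, eq_inv_mul_iff_mul_eq]
      exact wqG [cZ, cV, cZ] [cV] (by decide +kernel)
  have hmap : (Subgroup.closure {x, y}).map τ = Subgroup.closure {toG cX, toG cZ} := by
    rw [MonoidHom.map_closure, Set.image_pair, hx, hy]
  obtain ⟨-, hle⟩ := card_le_9 _ _ hx3 hy3 hc
  have hge : 9 ≤ Nat.card (Subgroup.closure {toG cX, toG cZ}) := by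
    apply card_map_subtype
    apply L11x.lower
    · exact ⟨toG cX, Subgroup.subset_closure (Set.mem_insert _ _), rfl⟩
    · exact ⟨toG cZ, Subgroup.subset_closure (Set.mem_insert_of_mem _ rfl), rfl⟩
  refine h.not_mem_of_comm Nat.prime_three {x, y} ?_ ?_
  · rintro a (rfl | rfl) b (rfl | rfl)
    · rfl
    · exact hxy
    · exact hxy.symm
    · rfl
  · rw [hmap]
    exact index_coprime _ 9 880 3 (le_antisymm hle hge) H28.card_M11 (by norm_num) (by norm_num)

theorem main : Cfsg.HasCyclicSchurMultiplier ↥Cfsg.Spor.M11 1 := by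
  apply hasCyclic_one
  intro p hp hd E _ _ τ z h
  rw [H28.card_M11] at hd
  have h2 : p = 2 ∨ p = 3 :=
    two_or_three (N := 7920) (a := 4) (b := 2) (m := 55) (by norm_num) (by norm_num) (by norm_num)
      (by decide +kernel) hp hd
  rcases h2 with rfl | rfl
  · exact two h
  · exact three h

end Cfsg.Agent.H15.SchM11
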