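import Mathlib
import Cfsg.Agent.H15.StemRed
import Cfsg.Agent.H15.T.S23t
import Cfsg.Agent.H15.MathieuOut3
import Cfsg.Agent.H15.SchTool
import Cfsg.Agent.H15.T.L23x

/-! # The Schur multiplier of M23 -/

set_option autoImplicit false

namespace Cfsg.Agent.H15.SchM23

open Cfsg Cfsg.Agent.H7 Cfsg.Agent.H8 Cfsg.Agent.H15.MathCode Cfsg.Agent.H15.PExtN Cfsg.Agent.H15.T
open Cfsg.Agent.H15.SchTool

def ck (c : ℕ) : Bool := okPerm c && Nat.beq (papp c 23) 23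

theorem mem_of_ck {c : ℕ} (h : ck c = true) : mkPerm c ∈ Spor.M23 := by
  unfold ck at h
  rw [Bool.and_eq_true] at h
  rw [MathieuOut.M23_mem]
  refine ⟨mkPerm_mem_M24 h.1, ?_⟩
  have h1 := mkPerm_gpt (okPerm_isPerm h.1) (i := 23) (by norm_num)
  rw [Nat.eq_of_beq_eq_true h.2, MathieuOut.gpt23'] at h1
  exact h1

theorem perm_of_ck {c : ℕ} (h : ck c = true) : isPermCode c = true := by
  unfold ck at h
  rw [Bool.and_eq_true] at h
  exact okPerm_isPerm h.1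

noncomputable abbrev el (c : ℕ) (h : ck c = true) : ↥Spor.M23 := ⟨mkPerm c, mem_of_ck h⟩

def A : ℕ := 0xb9e086be3593a6952d94b10a618820
def B : ℕ := 0xb99b28523343aaa4b16f258a718820
def C : ℕ := 0xbc92655a2c3b9706cea47d0a818820
def Gb : ℕ := 0xbb4ef348a4a0ecc5a548ace3070820
def Gc : ℕ := 0xba4d29c0b4639446ad16a9c6f88820
def Gab : ℕ := 0xbb26723455846ca449265d1cf28c20
def Gac : ℕ := 0xba0f09d0722396f536c93562c28820
def Gbc : ℕ := 0xbae703bcac245144b6caa99d218820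
def Gabc : ℕ := 0xba4eca91d491550b216d99a2f18820
def H0 : ℕ := 0xbcc4e82223ab2877c9456d92b31020
def H1 : ℕ := 0xb9de6b42489d12c1048b50223ab9a5
def H2 : ℕ := 0xbae703bcac245144b6caa99d218820
def H01 : ℕ := 0xbbe036acf3b468600522455d2628a4
def H02 : ℕ := 0xbdab49ca307b9ac5a928398a418820
def R : ℕ := 0xb9eb44c9cb315b3541964122f08c40
def X : ℕ := 0xbbd932c223311aa754284da8b908e0
def Z : ℕ := 0xbc1532ba24198157b1283ca965b422
def V : ℕ := 0xb92956491059853795313b9561b420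

theorem okA : ck A = true := by decide +kernel
theorem okB : ck B = true := by decide +kernel
theorem okC : ck C = true := by decide +kernel
theorem okGb : ck Gb = true := by decide +kernel
theorem okGc : ck Gc = true := by decide +kernel
theorem okGab : ck Gab = true := by decide +kernel
theorem okGac : ck Gac = true := by decide +kernel
theorem okGbc : ck Gbc = true := by decide +kernel
theorem okGabc : ck Gabc = true := by decide +kernel
theorem okH0 : ck H0 = true := by decide +kernel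
theorem okH1 : ck H1 = true := by decide +kernel
theorem okH2 : ck H2 = true := by decide +kernel
theorem okH01 : ck H01 = true := by decide +kernel
theorem okH02 : ck H02 = true := by decide +kernel
theorem okR : ck R = true := by decide +kernel
theorem okX : ck X = true := by decide +kernel
theorem okZ : ck Z = true := by decide +kernel
theorem okV : ck V = true := by decide +kernel

theorem okS0 : ck S23t.Y0 = true := by decide +kernel
theorem okS1 : ck S23t.Y1 = true := by decide +kernel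
theorem okS2 : ck S23t.Y2 = true := by decide +kernel
theorem okU : ck L23x.Y0 = true := by decide +kernel
theorem okW : ck L23x.Y1 = true := by decide +kernel

/-- equality of words in the subgroup -/
theorem weq' (u v : List {c : ℕ // ck c = true})
    (h : Nat.beq (wl (u.map Subtype.val)) (wl (v.map Subtype.val)) = true) :
    (u.map fun c => el c.1 c.2).prod = (v.map fun c => el c.1 c.2).prod := by
  apply Subtype.ext
  have e : ∀ w : List {c : ℕ // ck c = true}, ((w.map fun c => el c.1 c.2).prod : Spor.M23).1 =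
      ((w.map Subtype.val).map mkPerm).prod := by
    intro w
    induction w with
    | nil => rfl
    | cons c w ih =>
      rw [List.map_cons, List.prod_cons, List.map_cons, List.map_cons, List.prod_cons, ← ih]; rfl
  have hp : ∀ w : List {c : ℕ // ck c = true}, (w.map Subtype.val).all isPermCode = true := by
    intro w
    rw [List.all_eq_true]
    intro c hc
    obtain ⟨d, -, rfl⟩ := List.mem_map.1 hc
    exact perm_of_ck d.2
  rw [e, e]
  exact weq _ _ (hp u) (hp v) h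

section two

variable {E : Type*} [Group E] {τ : E →* Spor.M23} {z : E}

theorem LSA (h : PExt 2 τ z) : PExt.LS τ (el A okA) := by
  refine h.LS_pure (a := el A okA) (b := el B okB) (c := el C okC) ?_ ?_ ?_ ?_
    (el Gb okGb) (el Gc okGc) (el Gab okGab) (el Gac okGac) (el Gbc okGbc) (el Gabc okGabc) ?_ ?_ ?_ ?_ ?_ ?_
  · simpa using weq' [⟨A, okA⟩, ⟨B, okB⟩] [⟨B, okB⟩, ⟨A, okA⟩] (by decide +kernel)
  · simpa using weq' [⟨A, okA⟩, ⟨C, okC⟩] [⟨C, okC⟩, ⟨A, okA⟩] (by decide +kernel)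
  · simpa using weq' [⟨B, okB⟩, ⟨C, okC⟩] [⟨C, okC⟩, ⟨B, okB⟩] (by decide +kernel)
  · simpa using weq' [⟨A, okA⟩, ⟨A, okA⟩] [] (by decide +kernel)
  · simpa [mul_assoc] using weq' [⟨Gb, okGb⟩, ⟨A, okA⟩] [⟨B, okB⟩, ⟨Gb, okGb⟩] (by decide +kernel)
  · simpa [mul_assoc] using weq' [⟨Gc, okGc⟩, ⟨A, okA⟩] [⟨C, okC⟩, ⟨Gc, okGc⟩] (by decide +kernel)
  · simpa [mul_assoc] using weq' [⟨Gab, okGab⟩, ⟨A, okA⟩] [⟨A, okA⟩, ⟨B, okB⟩, ⟨Gab, okGab⟩] (by decide +kernel)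
  · simpa [mul_assoc] using weq' [⟨Gac, okGac⟩, ⟨A, okA⟩] [⟨A, okA⟩, ⟨C, okC⟩, ⟨Gac, okGac⟩] (by decide +kernel)
  · simpa [mul_assoc] using weq' [⟨Gbc, okGbc⟩, ⟨A, okA⟩] [⟨B, okB⟩, ⟨C, okC⟩, ⟨Gbc, okGbc⟩] (by decide +kernel)
  · simpa [mul_assoc] using weq' [⟨Gabc, okGabc⟩, ⟨A, okA⟩] [⟨A, okA⟩, ⟨B, okB⟩, ⟨C, okC⟩, ⟨Gabc, okGabc⟩] (by decide +kernel)

theorem two [Finite E] (h : PExt 2 τ z) : z ∉ commutator E := by
  have hA := LSA h
  obtain ⟨x0, hx0⟩ := h.surj (el S23t.Y0 okS0)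
  obtain ⟨x1, hx1⟩ := h.surj (el S23t.Y1 okS1)
  obtain ⟨x2, hx2⟩ := h.surj (el S23t.Y2 okS2)
  have i0 : x0 * x0 = 1 := h.LS_conj hA (g := el H0 okH0) (k' := el S23t.Y0 okS0)
    (by simpa using weq' [⟨H0, okH0⟩, ⟨A, okA⟩] [⟨S23t.Y0, okS0⟩, ⟨H0, okH0⟩] (by decide +kernel)) _ hx0
  have i1 : x1 * x1 = 1 := h.LS_conj hA (g := el H1 okH1) (k' := el S23t.Y1 okS1)
    (by simpa using weq' [⟨H1, okH1⟩, ⟨A, okA⟩] [⟨S23t.Y1, okS1⟩, ⟨H1, okH1⟩] (by decide +kernel)) _ hx1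
  have i2 : x2 * x2 = 1 := h.LS_conj hA (g := el H2 okH2) (k' := el S23t.Y2 okS2)
    (by simpa using weq' [⟨H2, okH2⟩, ⟨A, okA⟩] [⟨S23t.Y2, okS2⟩, ⟨H2, okH2⟩] (by decide +kernel)) _ hx2
  have i01 : (x0 * x1) ^ 4 = 1 := by
    have := h.LS_conj hA (g := el H01 okH01)
      (k' := el S23t.Y0 okS0 * el S23t.Y1 okS1 * (el S23t.Y0 okS0 * el S23t.Y1 okS1))
      (by simpa [mul_assoc] using weq' [⟨H01, okH01⟩, ⟨A, okA⟩]
                [⟨S23t.Y0, okS0⟩, ⟨S23t.Y1, okS1⟩, ⟨S23t.Y0, okS0⟩, ⟨S23t.Y1, okS1⟩, ⟨H01, okH01⟩] (by decide +kernel)) (x0 * x1 * (x0 * x1)) (by simp only [map_mul, hx0, hx1])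
    rw [← this]; simp only [pow_succ, pow_zero, one_mul, mul_assoc]
  have i02 : (x0 * x2) ^ 4 = 1 := by
    have := h.LS_conj hA (g := el H02 okH02)
      (k' := el S23t.Y0 okS0 * el S23t.Y2 okS2 * (el S23t.Y0 okS0 * el S23t.Y2 okS2))
      (by simpa [mul_assoc] using weq' [⟨H02, okH02⟩, ⟨A, okA⟩]
                [⟨S23t.Y0, okS0⟩, ⟨S23t.Y2, okS2⟩, ⟨S23t.Y0, okS0⟩, ⟨S23t.Y2, okS2⟩, ⟨H02, okH02⟩] (by decide +kernel)) (x0 * x2 * (x0 * x2)) (by simp only [map_mul, hx0, hx2])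
    rw [← this]; simp only [pow_succ, pow_zero, one_mul, mul_assoc]
  have j0 : x0⁻¹ = x0 := inv_eq_iff_mul_eq_one.mpr i0
  have j1 : x1⁻¹ = x1 := inv_eq_iff_mul_eq_one.mpr i1
  have j2 : x2⁻¹ = x2 := inv_eq_iff_mul_eq_one.mpr i2
  -- the commutator relation
  have hrel : x0 * x1 * x2 * x1 * x0 * x1 * x0 * x2 * x0 * x2 * x1 * x2 = 1 := by
    obtain ⟨r, hr⟩ := h.surj (el R okR)
    have e1 : τ (r * (x0 * x1 * x0 * x1) * r⁻¹) = τ (x0 * x1 * x0) := by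
      rw [map_mul, map_mul, map_inv, mul_inv_eq_iff_eq_mul, hr]
      simp only [map_mul, hx0, hx1]
      simpa [mul_assoc] using weq' [⟨R, okR⟩, ⟨S23t.Y0, okS0⟩, ⟨S23t.Y1, okS1⟩, ⟨S23t.Y0, okS0⟩, ⟨S23t.Y1, okS1⟩]
                [⟨S23t.Y0, okS0⟩, ⟨S23t.Y1, okS1⟩, ⟨S23t.Y0, okS0⟩, ⟨R, okR⟩] (by decide +kernel)
    have e2 : τ (r * x2 * r⁻¹) = τ (x0 * x2 * x0) := by
      rw [map_mul, map_mul, map_inv, mul_inv_eq_iff_eq_mul, hr]
      simp only [map_mul, hx0, hx2]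
      simpa [mul_assoc] using weq' [⟨R, okR⟩, ⟨S23t.Y2, okS2⟩]
                [⟨S23t.Y0, okS0⟩, ⟨S23t.Y2, okS2⟩, ⟨S23t.Y0, okS0⟩, ⟨R, okR⟩] (by decide +kernel)
    have e3 := h.comm_congr e1 e2
    have e4 : r * (x0 * x1 * x0 * x1 * x2 * (x0 * x1 * x0 * x1)⁻¹ * x2⁻¹) =
        (x0 * x1 * x0 * x1 * x2 * (x0 * x1 * x0 * x1)⁻¹ * x2⁻¹) * r := by
      refine h.cm_of_coprime (n := 3) ?_ ?_ (by decide)
      · rw [mul_inv_rev, mul_inv_rev, mul_inv_rev, j0, j1, j2]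
        simp only [map_mul, hr, hx0, hx1, hx2]
        simpa [mul_assoc] using weq' [⟨R, okR⟩, ⟨S23t.Y0, okS0⟩, ⟨S23t.Y1, okS1⟩, ⟨S23t.Y0, okS0⟩, ⟨S23t.Y1, okS1⟩,
                ⟨S23t.Y2, okS2⟩, ⟨S23t.Y1, okS1⟩, ⟨S23t.Y0, okS0⟩, ⟨S23t.Y1, okS1⟩, ⟨S23t.Y0, okS0⟩, ⟨S23t.Y2, okS2⟩]
                [⟨S23t.Y0, okS0⟩, ⟨S23t.Y1, okS1⟩, ⟨S23t.Y0, okS0⟩, ⟨S23t.Y1, okS1⟩,
                ⟨S23t.Y2, okS2⟩, ⟨S23t.Y1, okS1⟩, ⟨S23t.Y0, okS0⟩, ⟨S23t.Y1, okS1⟩, ⟨S23t.Y0, okS0⟩, ⟨S23t.Y2, okS2⟩,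
                ⟨R, okR⟩] (by decide +kernel)
      · rw [hr]
        simpa [pow_succ, mul_assoc] using weq' [⟨R, okR⟩, ⟨R, okR⟩, ⟨R, okR⟩] [] (by decide +kernel)
    have e5 : r * (x0 * x1 * x0 * x1) * r⁻¹ * (r * x2 * r⁻¹) * (r * (x0 * x1 * x0 * x1) * r⁻¹)⁻¹ *
        (r * x2 * r⁻¹)⁻¹ = x0 * x1 * x0 * x1 * x2 * (x0 * x1 * x0 * x1)⁻¹ * x2⁻¹ := by
      calc _ = r * (x0 * x1 * x0 * x1 * x2 * (x0 * x1 * x0 * x1)⁻¹ * x2⁻¹) * r⁻¹ := by group
        _ = _ := by rw [e4]; group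
    rw [e5] at e3
    have e6 : x0 * x1 * x0 * x1 * x2 * (x1 * x0 * x1 * x0) * x2 = x0 * x1 * x2 * x1 * x2 * x0 := by
      have : x0 * x1 * x0 * x1 * x2 * (x0 * x1 * x0 * x1)⁻¹ * x2⁻¹ =
        x0 * x1 * x0 * x1 * x2 * (x1 * x0 * x1 * x0) * x2 := by
        rw [mul_inv_rev, mul_inv_rev, mul_inv_rev, j0, j1, j2]; simp only [mul_assoc]
      rw [← this, e3, mul_inv_rev, mul_inv_rev, mul_inv_rev, mul_inv_rev, j0, j1, j2]
      calc x0 * x1 * x0 * (x0 * x2 * x0) * (x0 * (x1 * x0)) * (x0 * (x2 * x0))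
          = x0 * x1 * (x0 * x0) * x2 * (x0 * x0) * x1 * (x0 * x0) * x2 * x0 := by group
        _ = _ := by rw [i0]; group
    calc x0 * x1 * x2 * x1 * x0 * x1 * x0 * x2 * x0 * x2 * x1 * x2
        = (x0 * x1)⁻¹ * (x0 * x1 * x0 * x1 * x2 * (x1 * x0 * x1 * x0) * x2) * x0 * x2 * x1 * x2 := by group
      _ = (x0 * x1)⁻¹ * (x0 * x1) * x2 * x1 * x2 * (x0 * x0) * x2 * x1 * x2 := by rw [e6]; group
      _ = x2 * x1 * (x2 * x2) * x1 * x2 := by rw [i0]; group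
      _ = x2 * (x1 * x1) * x2 := by rw [i2]; group
      _ = 1 := by rw [i1, mul_one, i2]
  let s : ℕ → E := fun l => if l = 0 then x0 else if l = 1 then x1 else if l = 2 then x2 else 1
  have s0 : s 0 = x0 := rfl
  have s1 : s 1 = x1 := rfl
  have s2 : s 2 = x2 := rfl
  have hinv : ∀ l, s l = (s l)⁻¹ := by
    intro l
    show (if l = 0 then x0 else if l = 1 then x1 else if l = 2 then x2 else 1) =
      (if l = 0 then x0 else if l = 1 then x1 else if l = 2 then x2 else 1)⁻¹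
    split_ifs
    · exact j0.symm
    · exact j1.symm
    · exact j2.symm
    · exact inv_one.symm
  have hr2 : ∀ p ∈ S23t.rels2, ((p.1.map s).prod) ^ p.2 = 1 := by
    intro p hp
    simp only [S23t.rels2, List.mem_cons, List.not_mem_nil, or_false] at hp
    rcases hp with rfl | rfl | rfl
    · simpa [s0, s1] using i01
    · simpa [s0, s2] using i02
    · simpa [s0, s1, s2, mul_assoc] using hrel
  obtain ⟨-, hup⟩ := S23t.upper s hinv hr2
  have hlow : 128 ≤ Nat.card ((letterGroup s 3).map τ) := by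
    apply card_map_subtype
    have hm : ∀ l < 3, (τ (s l) : Equiv.Perm GolayPt) ∈ ((letterGroup s 3).map τ).map Spor.M23.subtype :=
      fun l hl => ⟨τ (s l), ⟨s l, Subgroup.subset_closure ⟨l, hl, rfl⟩, rfl⟩, rfl⟩
    apply S23t.lower
    · have := hm 0 (by norm_num); rwa [s0, hx0] at this
    · have := hm 1 (by norm_num); rwa [s1, hx1] at this
    · have := hm 2 (by norm_num); rwa [s2, hx2] at this
  obtain ⟨hinj, hcard⟩ := compl_of_cards τ _ 128 hup hlow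
  exact h.not_mem_of_compl Nat.prime_two _ hinj
    (index_coprime _ 128 79695 2 hcard MathieuOut.card_M23' (by norm_num) (by norm_num))

end two

section three

variable {E : Type*} [Group E] [Finite E] {τ : E →* Spor.M23} {z : E}

theorem three (h : PExt 3 τ z) : z ∉ commutator E := by
  obtain ⟨x, hx⟩ := h.surj (el L23x.Y0 okU)
  obtain ⟨y, hy⟩ := h.surj (el L23x.Y1 okW)
  obtain ⟨v, hv⟩ := h.surj (el V okV)
  have hc : el L23x.Y0 okU * el L23x.Y1 okW = el L23x.Y1 okW * el L23x.Y0 okU := by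
    simpa using weq' [⟨L23x.Y0, okU⟩, ⟨L23x.Y1, okW⟩] [⟨L23x.Y1, okW⟩, ⟨L23x.Y0, okU⟩] (by decide +kernel)
  have hx3 : (el L23x.Y0 okU) ^ 3 = 1 := by
    simpa [pow_succ, mul_assoc] using weq' [⟨L23x.Y0, okU⟩, ⟨L23x.Y0, okU⟩, ⟨L23x.Y0, okU⟩] [] (by decide +kernel)
  have hy3 : (el L23x.Y1 okW) ^ 3 = 1 := by
    simpa [pow_succ, mul_assoc] using weq' [⟨L23x.Y1, okW⟩, ⟨L23x.Y1, okW⟩, ⟨L23x.Y1, okW⟩] [] (by decide +kernel)
  -- the commutator of the lifts is trivial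
  have hxy : x * y = y * x := by
    obtain ⟨m, hm⟩ : ∃ m : ℤ, x * y * x⁻¹ * y⁻¹ = z ^ m := by
      apply h.eq_zpow
      rw [map_mul, map_mul, map_mul, map_inv, map_inv, hx, hy, hc]; group
    have e1 : τ (v * x * v⁻¹) = τ x := by
      rw [map_mul, map_mul, map_inv, mul_inv_eq_iff_eq_mul, hv, hx]
      simpa using weq' [⟨V, okV⟩, ⟨L23x.Y0, okU⟩] [⟨L23x.Y0, okU⟩, ⟨V, okV⟩] (by decide +kernel)
    have e2 : τ (v * y * v⁻¹) = τ y⁻¹ := by
      rw [map_mul, map_mul, map_inv, mul_inv_eq_iff_eq_mul, hv, hy, map_inv, hy, eq_inv_mul_iff_mul_eq]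
      simpa [mul_assoc] using weq' [⟨L23x.Y1, okW⟩, ⟨V, okV⟩, ⟨L23x.Y1, okW⟩] [⟨V, okV⟩] (by decide +kernel)
    have e3 := h.comm_congr e1 e2
    have e4 : v * x * v⁻¹ * (v * y * v⁻¹) * (v * x * v⁻¹)⁻¹ * (v * y * v⁻¹)⁻¹ = z ^ m := by
      calc _ = v * (x * y * x⁻¹ * y⁻¹) * v⁻¹ := by group
        _ = z ^ m := by rw [hm, h.centz m v]; group
    have e5 : x * y⁻¹ * x⁻¹ * y⁻¹⁻¹ = z ^ (-m) := by
      have e6 : x * y * x⁻¹ = z ^ m * y := by rw [← hm]; group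
      calc x * y⁻¹ * x⁻¹ * y⁻¹⁻¹ = (x * y * x⁻¹)⁻¹ * y := by group
        _ = y⁻¹ * z ^ (-m) * y := by rw [e6]; group
        _ = z ^ (-m) := by rw [h.centz (-m) y⁻¹]; group
    rw [e4, e5] at e3
    have e7 : z ^ (2 * m) = 1 := by
      rw [two_mul, zpow_add]
      nth_rewrite 1 [e3]
      rw [← zpow_add]; simp
    rw [h.zpow_eq_one_iff] at e7
    have e8 : ((3 : ℕ) : ℤ) ∣ m := by
      push_cast at e7 ⊢
      omega
    rw [← h.zpow_eq_one_iff] at e8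
    rw [e8, mul_inv_eq_one, mul_inv_eq_iff_eq_mul] at hm
    exact hm
  have hmap : (Subgroup.closure {x, y}).map τ = Subgroup.closure {el L23x.Y0 okU, el L23x.Y1 okW} := by
    rw [MonoidHom.map_closure, Set.image_pair, hx, hy]
  obtain ⟨-, hle⟩ := card_le_9 _ _ hx3 hy3 hc
  have hge : 9 ≤ Nat.card (Subgroup.closure {el L23x.Y0 okU, el L23x.Y1 okW}) := by
    apply card_map_subtype
    apply L23x.lower
    · exact ⟨el L23x.Y0 okU, Subgroup.subset_closure (Set.mem_insert _ _), rfl⟩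
    · exact ⟨el L23x.Y1 okW, Subgroup.subset_closure (Set.mem_insert_of_mem _ rfl), rfl⟩
  refine h.not_mem_of_comm Nat.prime_three {x, y} ?_ ?_
  · rintro a (rfl | rfl) b (rfl | rfl)
    · rfl
    · exact hxy
    · exact hxy.symm
    · rfl
  · rw [hmap]
    exact index_coprime _ 9 1133440 3 (le_antisymm hle hge) MathieuOut.card_M23' (by norm_num) (by norm_num)

end three

theorem main : Cfsg.HasCyclicSchurMultiplier ↥Cfsg.Spor.M23 1 := by
  apply hasCyclic_one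
  intro p hp hd E _ _ τ z h
  rw [MathieuOut.card_M23'] at hd
  have h2 : p = 2 ∨ p = 3 :=
    two_or_three (N := 10200960) (a := 7) (b := 2) (m := 8855) (by norm_num) (by norm_num) (by norm_num)
      (by decide +kernel) hp hd
  rcases h2 with rfl | rfl
  · exact two h
  · exact three h

end Cfsg.Agent.H15.SchM23
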