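import Mathlib
import Cfsg.Agent.H15.StemRed
import Cfsg.Agent.H15.T.S24t
import Cfsg.Agent.H15.T.L24x
import Cfsg.Agent.H15.SchTool
import Cfsg.Agent.H15.MathieuOut3

/-! # The Schur multiplier of M24 -/

set_option autoImplicit false
set_option maxHeartbeats 1000000

namespace Cfsg.Agent.H15.SchM24

open Cfsg Cfsg.Agent.H7 Cfsg.Agent.H8 Cfsg.Agent.H15.MathCode Cfsg.Agent.H15.PExtN Cfsg.Agent.H15.T
open Cfsg.Agent.H15.SchTool

noncomputable abbrev el (c : ℕ) (h : okPerm c = true) : ↥M24 := ⟨mkPerm c, mkPerm_mem_M24 h⟩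

def B : ℕ := 0xb99b28523343aaa4b16f258a718820
def C : ℕ := 0xbc92655a2c3b9706cea47d0a818820
def Gb : ℕ := 0x41369346bac68c7a146992e771441
def Gc : ℕ := 0x3d4b655d349614958cd39228b8c41
def Gab : ℕ := 0x59543cee9ab8c88364f2322b28c41
def Gac : ℕ := 0x488852dd49c5a9b3e063b2f528c41
def Gbc : ℕ := 0x40e9256285ddf491acd531d328c41
def Gabc : ℕ := 0x3548224b59de4b33e1661e3470c41
def H1 : ℕ := 0x21646641f49d551b8476039626a507
def H2 : ℕ := 0x24401b3e823b24ab8e6e2b60baa506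
def H3 : ℕ := 0x250537954e1d9b5b8512801915a4e6
def H13 : ℕ := 0xdab26d0e89dde3894103296c72482
def H01 : ℕ := 0x41369346bac68c7a146992e771441
def H12 : ℕ := 0x2425470df612e219a8a6601b7aa507
def H23 : ℕ := 0x25ec229e0a5d1c19ca230358faa506
def P1 : ℕ := 0x4d309582c3c5f45a915698a41ddc2
def P2 : ℕ := 0x1cd0c548b47c5703daa9699c415c20
def Q1 : ℕ := 0x3ced810b630ab45a913925cc8dc23
def Q2 : ℕ := 0xc1333a2eca3ac45a8cdabc1289443
def R1 : ℕ := 0x48ef9a0b05048db54cc4d2eb8886e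
def R2 : ℕ := 0xbd9497ac08a0d9024cf2a99cd10625
def HY : ℕ := 0x45ebb2aed9566c0ba072d10649062
def X : ℕ := 0xb1d72634d30d69070105b892a7c464
def Z : ℕ := 0xb517733605955ec72a680a62438860

theorem okB : okPerm B = true := by decide +kernel
theorem okC : okPerm C = true := by decide +kernel
theorem okGb : okPerm Gb = true := by decide +kernel
theorem okGc : okPerm Gc = true := by decide +kernel
theorem okGab : okPerm Gab = true := by decide +kernel
theorem okGac : okPerm Gac = true := by decide +kernel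
theorem okGbc : okPerm Gbc = true := by decide +kernel
theorem okGabc : okPerm Gabc = true := by decide +kernel
theorem okH1 : okPerm H1 = true := by decide +kernel
theorem okH2 : okPerm H2 = true := by decide +kernel
theorem okH3 : okPerm H3 = true := by decide +kernel
theorem okH13 : okPerm H13 = true := by decide +kernel
theorem okH01 : okPerm H01 = true := by decide +kernel
theorem okH12 : okPerm H12 = true := by decide +kernel
theorem okH23 : okPerm H23 = true := by decide +kernel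
theorem okP1 : okPerm P1 = true := by decide +kernel
theorem okP2 : okPerm P2 = true := by decide +kernel
theorem okQ1 : okPerm Q1 = true := by decide +kernel
theorem okQ2 : okPerm Q2 = true := by decide +kernel
theorem okR1 : okPerm R1 = true := by decide +kernel
theorem okR2 : okPerm R2 = true := by decide +kernel
theorem okHY : okPerm HY = true := by decide +kernel
theorem okX : okPerm X = true := by decide +kernel
theorem okZ : okPerm Z = true := by decide +kernel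
def IA : ℕ := 0x3c8c8562943a879c9666d86a28837
def IB : ℕ := 0x410b23a4cad9511a5a23bcd3a1437
theorem okIA : okPerm IA = true := by decide +kernel
theorem okIB : okPerm IB = true := by decide +kernel
theorem okS0 : okPerm S24t.Y0 = true := by decide +kernel
theorem okS1 : okPerm S24t.Y1 = true := by decide +kernel
theorem okS2 : okPerm S24t.Y2 = true := by decide +kernel
theorem okS3 : okPerm S24t.Y3 = true := by decide +kernel
theorem okU : okPerm L24x.Y0 = true := by decide +kernel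
theorem okW : okPerm L24x.Y1 = true := by decide +kernel
theorem ok3A : okPerm H29.r3A = true := H29.reps_ok.2.2.1
theorem ok3B : okPerm H29.r3B = true := H29.reps_ok.2.2.2

/-- equality of words in the subgroup -/
theorem weq' (u v : List {c : ℕ // okPerm c = true})
    (h : Nat.beq (wl (u.map Subtype.val)) (wl (v.map Subtype.val)) = true) :
    (u.map fun c => el c.1 c.2).prod = (v.map fun c => el c.1 c.2).prod := by
  apply Subtype.ext
  have e : ∀ w : List {c : ℕ // okPerm c = true}, ((w.map fun c => el c.1 c.2).prod : M24).1 =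
      ((w.map Subtype.val).map mkPerm).prod := by
    intro w
    induction w with
    | nil => rfl
    | cons c w ih =>
      rw [List.map_cons, List.prod_cons, List.map_cons, List.map_cons, List.prod_cons, ← ih]; rfl
  have hp : ∀ w : List {c : ℕ // okPerm c = true}, (w.map Subtype.val).all isPermCode = true := by
    intro w
    rw [List.all_eq_true]
    intro c hc
    obtain ⟨d, -, rfl⟩ := List.mem_map.1 hc
    exact okPerm_isPerm d.2
  rw [e, e]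
  exact weq _ _ (hp u) (hp v) h

/-- product without trailing one -/
def pr {G : Type*} [Monoid G] : List G → G
  | [] => 1
  | [a] => a
  | a :: b :: l => a * pr (b :: l)

theorem pr_eq {G : Type*} [Monoid G] (l : List G) : pr l = l.prod := by
  induction l with
  | nil => rfl
  | cons a l ih =>
    cases l with
    | nil => simp [pr]
    | cons b l => rw [pr, ih, List.prod_cons (a := a)]

theorem wq (u v : List {c : ℕ // okPerm c = true})
    (h : Nat.beq (wl (u.map Subtype.val)) (wl (v.map Subtype.val)) = true) :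
    pr (u.map fun c => el c.1 c.2) = pr (v.map fun c => el c.1 c.2) := by
  rw [pr_eq, pr_eq]; exact weq' u v h

theorem pw (c : ℕ) (hc : okPerm c = true) (n : ℕ)
    (h : Nat.beq (wl ((List.replicate n (⟨c, hc⟩ : {c : ℕ // okPerm c = true})).map Subtype.val)) idc = true) :
    (el c hc) ^ n = 1 := by
  have h1 := weq' (List.replicate n ⟨c, hc⟩) [] h
  rw [List.map_replicate, List.prod_replicate] at h1
  exact h1

section two

variable {E : Type*} [Group E] {τ : E →* M24} {z : E}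

theorem LSA (h : PExt 2 τ z) : PExt.LS τ (el S24t.Y0 okS0) := by
  refine h.LS_pure (a := el S24t.Y0 okS0) (b := el B okB) (c := el C okC) ?_ ?_ ?_ ?_
    (el Gb okGb) (el Gc okGc) (el Gab okGab) (el Gac okGac) (el Gbc okGbc) (el Gabc okGabc) ?_ ?_ ?_ ?_ ?_ ?_
  · exact wq [⟨S24t.Y0, okS0⟩, ⟨B, okB⟩] [⟨B, okB⟩, ⟨S24t.Y0, okS0⟩] (by decide +kernel)
  · exact wq [⟨S24t.Y0, okS0⟩, ⟨C, okC⟩] [⟨C, okC⟩, ⟨S24t.Y0, okS0⟩] (by decide +kernel)
  · exact wq [⟨B, okB⟩, ⟨C, okC⟩] [⟨C, okC⟩, ⟨B, okB⟩] (by decide +kernel)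
  · exact wq [⟨S24t.Y0, okS0⟩, ⟨S24t.Y0, okS0⟩] [] (by decide +kernel)
  · (try simp only [mul_assoc]); exact wq [⟨Gb, okGb⟩, ⟨S24t.Y0, okS0⟩] [⟨B, okB⟩, ⟨Gb, okGb⟩] (by decide +kernel)
  · (try simp only [mul_assoc]); exact wq [⟨Gc, okGc⟩, ⟨S24t.Y0, okS0⟩] [⟨C, okC⟩, ⟨Gc, okGc⟩] (by decide +kernel)
  · (try simp only [mul_assoc]); exact wq [⟨Gab, okGab⟩, ⟨S24t.Y0, okS0⟩] [⟨S24t.Y0, okS0⟩, ⟨B, okB⟩, ⟨Gab, okGab⟩] (by decide +kernel)
  · (try simp only [mul_assoc]); exact wq [⟨Gac, okGac⟩, ⟨S24t.Y0, okS0⟩] [⟨S24t.Y0, okS0⟩, ⟨C, okC⟩, ⟨Gac, okGac⟩] (by decide +kernel)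
  · (try simp only [mul_assoc]); exact wq [⟨Gbc, okGbc⟩, ⟨S24t.Y0, okS0⟩] [⟨B, okB⟩, ⟨C, okC⟩, ⟨Gbc, okGbc⟩] (by decide +kernel)
  · (try simp only [mul_assoc]); exact wq [⟨Gabc, okGabc⟩, ⟨S24t.Y0, okS0⟩] [⟨S24t.Y0, okS0⟩, ⟨B, okB⟩, ⟨C, okC⟩, ⟨Gabc, okGabc⟩] (by decide +kernel)

/-- commuting with a product of two elements of odd order -/
theorem cm_prod (h : PExt 2 τ z) {x y : E} {p q : M24} {m n : ℕ} (hpq : τ y = p * q)
    (h1 : p * τ x = τ x * p) (h2 : q * τ x = τ x * q) (h3 : p ^ m = 1) (h4 : q ^ n = 1)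
    (hm : m.Coprime 2) (hn : n.Coprime 2) : x * y = y * x := by
  obtain ⟨a, ha⟩ := h.surj p
  obtain ⟨b, hb⟩ := h.surj q
  have e1 : a * x = x * a := h.cm_of_coprime (n := m) (by rw [ha]; exact h1) (by rw [ha]; exact h3) hm
  have e2 : b * x = x * b := h.cm_of_coprime (n := n) (by rw [hb]; exact h2) (by rw [hb]; exact h4) hn
  obtain ⟨k, hk⟩ := h.eq_mul (x := y) (y := a * b) (by rw [hpq, map_mul, ha, hb])
  rw [hk]
  calc x * (a * b * z ^ k) = (x * a) * b * z ^ k := by group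
    _ = a * (x * b) * z ^ k := by rw [← e1]; group
    _ = a * b * (x * z ^ k) := by rw [← e2]; group
    _ = a * b * z ^ k * x := by rw [h.centz]; group

theorem two [Finite E] (h : PExt 2 τ z) : z ∉ commutator E := by
  have hA := LSA h
  obtain ⟨x0, hx0⟩ := h.surj (el S24t.Y0 okS0)
  obtain ⟨x1, hx1⟩ := h.surj (el S24t.Y1 okS1)
  obtain ⟨x2, hx2⟩ := h.surj (el S24t.Y2 okS2)
  obtain ⟨x3, hx3⟩ := h.surj (el S24t.Y3 okS3)
  have i0 : x0 * x0 = 1 := hA _ hx0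
  have i1 : x1 * x1 = 1 := h.LS_conj hA (g := el H1 okH1) (k' := el S24t.Y1 okS1)
    (by exact wq [⟨H1, okH1⟩, ⟨S24t.Y0, okS0⟩] [⟨S24t.Y1, okS1⟩, ⟨H1, okH1⟩] (by decide +kernel)) _ hx1
  have i2 : x2 * x2 = 1 := h.LS_conj hA (g := el H2 okH2) (k' := el S24t.Y2 okS2)
    (by exact wq [⟨H2, okH2⟩, ⟨S24t.Y0, okS0⟩] [⟨S24t.Y2, okS2⟩, ⟨H2, okH2⟩] (by decide +kernel)) _ hx2
  have i3 : x3 * x3 = 1 := h.LS_conj hA (g := el H3 okH3) (k' := el S24t.Y3 okS3)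
    (by exact wq [⟨H3, okH3⟩, ⟨S24t.Y0, okS0⟩] [⟨S24t.Y3, okS3⟩, ⟨H3, okH3⟩] (by decide +kernel)) _ hx3
  have l01 := h.LS_conj hA (g := el H01 okH01)
      (k' := el S24t.Y0 okS0 * el S24t.Y1 okS1 * (el S24t.Y0 okS0 * el S24t.Y1 okS1))
      (by (try simp only [mul_assoc]); exact wq [⟨H01, okH01⟩, ⟨S24t.Y0, okS0⟩]
                [⟨S24t.Y0, okS0⟩, ⟨S24t.Y1, okS1⟩, ⟨S24t.Y0, okS0⟩, ⟨S24t.Y1, okS1⟩, ⟨H01, okH01⟩] (by decide +kernel))
  have l12 := h.LS_conj hA (g := el H12 okH12)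
      (k' := el S24t.Y1 okS1 * el S24t.Y2 okS2 * (el S24t.Y1 okS1 * el S24t.Y2 okS2))
      (by (try simp only [mul_assoc]); exact wq [⟨H12, okH12⟩, ⟨S24t.Y0, okS0⟩]
                [⟨S24t.Y1, okS1⟩, ⟨S24t.Y2, okS2⟩, ⟨S24t.Y1, okS1⟩, ⟨S24t.Y2, okS2⟩, ⟨H12, okH12⟩] (by decide +kernel))
  have l23 := h.LS_conj hA (g := el H23 okH23)
      (k' := el S24t.Y2 okS2 * el S24t.Y3 okS3 * (el S24t.Y2 okS2 * el S24t.Y3 okS3))
      (by (try simp only [mul_assoc]); exact wq [⟨H23, okH23⟩, ⟨S24t.Y0, okS0⟩]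
                [⟨S24t.Y2, okS2⟩, ⟨S24t.Y3, okS3⟩, ⟨S24t.Y2, okS2⟩, ⟨S24t.Y3, okS3⟩, ⟨H23, okH23⟩] (by decide +kernel))
  have t01 : τ (x0 * x1 * (x0 * x1)) = el S24t.Y0 okS0 * el S24t.Y1 okS1 * (el S24t.Y0 okS0 * el S24t.Y1 okS1) := by
    simp only [map_mul, hx0, hx1]
  have t12 : τ (x1 * x2 * (x1 * x2)) = el S24t.Y1 okS1 * el S24t.Y2 okS2 * (el S24t.Y1 okS1 * el S24t.Y2 okS2) := by
    simp only [map_mul, hx1, hx2]
  have t23 : τ (x2 * x3 * (x2 * x3)) = el S24t.Y2 okS2 * el S24t.Y3 okS3 * (el S24t.Y2 okS2 * el S24t.Y3 okS3) := by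
    simp only [map_mul, hx2, hx3]
  have i01 : (x0 * x1) ^ 4 = 1 := by
    rw [← l01 _ t01]; simp only [pow_succ, pow_zero, one_mul, mul_assoc]
  have i12 : (x1 * x2) ^ 4 = 1 := by
    rw [← l12 _ t12]; simp only [pow_succ, pow_zero, one_mul, mul_assoc]
  have i23 : (x2 * x3) ^ 4 = 1 := by
    rw [← l23 _ t23]; simp only [pow_succ, pow_zero, one_mul, mul_assoc]
  have i13 : (x1 * x3) ^ 2 = 1 := by
    have := h.LS_conj hA (g := el H13 okH13) (k' := el S24t.Y1 okS1 * el S24t.Y3 okS3)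
      (by (try simp only [mul_assoc]); exact wq [⟨H13, okH13⟩, ⟨S24t.Y0, okS0⟩] [⟨S24t.Y1, okS1⟩, ⟨S24t.Y3, okS3⟩, ⟨H13, okH13⟩] (by decide +kernel))
      (x1 * x3) (by simp only [map_mul, hx1, hx3])
    rw [pow_two]; exact this
  have j0 : x0⁻¹ = x0 := inv_eq_iff_mul_eq_one.mpr i0
  have j1 : x1⁻¹ = x1 := inv_eq_iff_mul_eq_one.mpr i1
  have j2 : x2⁻¹ = x2 := inv_eq_iff_mul_eq_one.mpr i2
  have j3 : x3⁻¹ = x3 := inv_eq_iff_mul_eq_one.mpr i3
  have c02 : x0 * x2 = x2 * x0 := by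
    refine cm_prod h (p := el P1 okP1) (q := el P2 okP2) (m := 3) (n := 3) ?_ ?_ ?_ ?_ ?_ (by decide) (by decide)
    · rw [hx2]; exact wq [⟨S24t.Y2, okS2⟩] [⟨P1, okP1⟩, ⟨P2, okP2⟩] (by decide +kernel)
    · rw [hx0]; exact wq [⟨P1, okP1⟩, ⟨S24t.Y0, okS0⟩] [⟨S24t.Y0, okS0⟩, ⟨P1, okP1⟩] (by decide +kernel)
    · rw [hx0]; exact wq [⟨P2, okP2⟩, ⟨S24t.Y0, okS0⟩] [⟨S24t.Y0, okS0⟩, ⟨P2, okP2⟩] (by decide +kernel)
    · exact pw P1 okP1 3 (by decide +kernel)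
    · exact pw P2 okP2 3 (by decide +kernel)
  have c03 : x0 * x3 = x3 * x0 := by
    refine cm_prod h (p := el Q1 okQ1) (q := el Q2 okQ2) (m := 7) (n := 7) ?_ ?_ ?_ ?_ ?_ (by decide) (by decide)
    · rw [hx3]; exact wq [⟨S24t.Y3, okS3⟩] [⟨Q1, okQ1⟩, ⟨Q2, okQ2⟩] (by decide +kernel)
    · rw [hx0]; exact wq [⟨Q1, okQ1⟩, ⟨S24t.Y0, okS0⟩] [⟨S24t.Y0, okS0⟩, ⟨Q1, okQ1⟩] (by decide +kernel)
    · rw [hx0]; exact wq [⟨Q2, okQ2⟩, ⟨S24t.Y0, okS0⟩] [⟨S24t.Y0, okS0⟩, ⟨Q2, okQ2⟩] (by decide +kernel)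
    · exact pw Q1 okQ1 7 (by decide +kernel)
    · exact pw Q2 okQ2 7 (by decide +kernel)
  have i02 : (x0 * x2) ^ 2 = 1 := by
    calc (x0 * x2) ^ 2 = x0 * (x2 * x0) * x2 := by rw [pow_two]; group
      _ = (x0 * x0) * (x2 * x2) := by rw [← c02]; group
      _ = 1 := by rw [i0, i2, one_mul]
  have i03 : (x0 * x3) ^ 2 = 1 := by
    calc (x0 * x3) ^ 2 = x0 * (x3 * x0) * x3 := by rw [pow_two]; group
      _ = (x0 * x0) * (x3 * x3) := by rw [← c03]; group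
      _ = 1 := by rw [i0, i3, one_mul]
  have cA : x0 * x1 * (x0 * x1) * (x1 * x2 * (x1 * x2)) = x1 * x2 * (x1 * x2) * (x0 * x1 * (x0 * x1)) := by
    refine cm_prod h (p := el R1 okR1) (q := el R2 okR2) (m := 7) (n := 7) ?_ ?_ ?_ ?_ ?_ (by decide) (by decide)
    · rw [t12]; (try simp only [mul_assoc]); exact wq [⟨S24t.Y1, okS1⟩, ⟨S24t.Y2, okS2⟩, ⟨S24t.Y1, okS1⟩, ⟨S24t.Y2, okS2⟩] [⟨R1, okR1⟩, ⟨R2, okR2⟩] (by decide +kernel)
    · rw [t01]; (try simp only [mul_assoc]); exact wq [⟨R1, okR1⟩, ⟨S24t.Y0, okS0⟩, ⟨S24t.Y1, okS1⟩, ⟨S24t.Y0, okS0⟩, ⟨S24t.Y1, okS1⟩]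
                [⟨S24t.Y0, okS0⟩, ⟨S24t.Y1, okS1⟩, ⟨S24t.Y0, okS0⟩, ⟨S24t.Y1, okS1⟩, ⟨R1, okR1⟩] (by decide +kernel)
    · rw [t01]; (try simp only [mul_assoc]); exact wq [⟨R2, okR2⟩, ⟨S24t.Y0, okS0⟩, ⟨S24t.Y1, okS1⟩, ⟨S24t.Y0, okS0⟩, ⟨S24t.Y1, okS1⟩]
                [⟨S24t.Y0, okS0⟩, ⟨S24t.Y1, okS1⟩, ⟨S24t.Y0, okS0⟩, ⟨S24t.Y1, okS1⟩, ⟨R2, okR2⟩] (by decide +kernel)
    · exact pw R1 okR1 7 (by decide +kernel)
    · exact pw R2 okR2 7 (by decide +kernel)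
  have cB : x1 * x2 * (x1 * x2) * (x2 * x3 * (x2 * x3)) = x2 * x3 * (x2 * x3) * (x1 * x2 * (x1 * x2)) := by
    apply h.cm_of_LS
    · rw [t12]; exact l12
    · rw [t23]; exact l23
    · rw [t12, t23]
      exact h.LS_conj hA (g := el HY okHY)
        (by (try simp only [mul_assoc]); exact wq [⟨HY, okHY⟩, ⟨S24t.Y0, okS0⟩]
                [⟨S24t.Y1, okS1⟩, ⟨S24t.Y2, okS2⟩, ⟨S24t.Y1, okS1⟩, ⟨S24t.Y2, okS2⟩, ⟨S24t.Y2, okS2⟩, ⟨S24t.Y3, okS3⟩, ⟨S24t.Y2, okS2⟩, ⟨S24t.Y3, okS3⟩, ⟨HY, okHY⟩] (by decide +kernel))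
  have rA : x0 * x1 * x0 * x1 * x1 * x2 * x1 * x2 * x1 * x0 * x1 * x0 * x2 * x1 * x2 * x1 = 1 := by
    have e : x1 * x0 * x1 * x0 * x2 * x1 * x2 * x1 = (x1 * x2 * (x1 * x2) * (x0 * x1 * (x0 * x1)))⁻¹ := by
      simp only [mul_inv_rev, j0, j1, j2, mul_assoc]
    calc _ = (x0 * x1 * (x0 * x1) * (x1 * x2 * (x1 * x2))) * (x1 * x0 * x1 * x0 * x2 * x1 * x2 * x1) := by
          group
      _ = 1 := by rw [e, cA, mul_inv_cancel]
  have rB : x1 * x2 * x1 * x2 * x2 * x3 * x2 * x3 * x2 * x1 * x2 * x1 * x3 * x2 * x3 * x2 = 1 := by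
    have e : x2 * x1 * x2 * x1 * x3 * x2 * x3 * x2 = (x2 * x3 * (x2 * x3) * (x1 * x2 * (x1 * x2)))⁻¹ := by
      simp only [mul_inv_rev, j3, j1, j2, mul_assoc]
    calc _ = (x1 * x2 * (x1 * x2) * (x2 * x3 * (x2 * x3))) * (x2 * x1 * x2 * x1 * x3 * x2 * x3 * x2) := by
          group
      _ = 1 := by rw [e, cB, mul_inv_cancel]
  let s : ℕ → E := fun l => if l = 0 then x0 else if l = 1 then x1 else if l = 2 then x2 else if l = 3 then x3 else 1
  have s0 : s 0 = x0 := rfl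
  have s1 : s 1 = x1 := rfl
  have s2 : s 2 = x2 := rfl
  have s3 : s 3 = x3 := rfl
  have hinv : ∀ l, s l = (s l)⁻¹ := by
    intro l
    show (if l = 0 then x0 else if l = 1 then x1 else if l = 2 then x2 else if l = 3 then x3 else 1) =
      (if l = 0 then x0 else if l = 1 then x1 else if l = 2 then x2 else if l = 3 then x3 else 1)⁻¹
    split_ifs
    · exact j0.symm
    · exact j1.symm
    · exact j2.symm
    · exact j3.symm
    · exact inv_one.symm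
  have hr2 : ∀ p ∈ S24t.rels2, ((p.1.map s).prod) ^ p.2 = 1 := by
    intro p hp
    simp only [S24t.rels2, List.mem_cons, List.not_mem_nil, or_false] at hp
    rcases hp with rfl | rfl | rfl | rfl | rfl | rfl | rfl | rfl
    · simpa only [List.map_cons, List.map_nil, List.prod_cons, List.prod_nil, mul_one, s0, s1, s2, s3] using i02
    · simpa only [List.map_cons, List.map_nil, List.prod_cons, List.prod_nil, mul_one, s0, s1, s2, s3] using i03
    · simpa only [List.map_cons, List.map_nil, List.prod_cons, List.prod_nil, mul_one, s0, s1, s2, s3] using i13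
    · simpa only [List.map_cons, List.map_nil, List.prod_cons, List.prod_nil, mul_one, s0, s1, s2, s3] using i01
    · simpa only [List.map_cons, List.map_nil, List.prod_cons, List.prod_nil, mul_one, s0, s1, s2, s3] using i12
    · simpa only [List.map_cons, List.map_nil, List.prod_cons, List.prod_nil, mul_one, s0, s1, s2, s3] using i23
    · simpa only [List.map_cons, List.map_nil, List.prod_cons, List.prod_nil, mul_one, s0, s1, s2, s3, pow_one, mul_assoc] using rA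
    · simpa only [List.map_cons, List.map_nil, List.prod_cons, List.prod_nil, mul_one, s0, s1, s2, s3, pow_one, mul_assoc] using rB
  obtain ⟨-, hup⟩ := S24t.upper s hinv hr2
  have hlow : 1024 ≤ Nat.card ((letterGroup s 4).map τ) := by
    apply card_map_subtype
    have hm : ∀ l < 4, (τ (s l) : Equiv.Perm GolayPt) ∈ ((letterGroup s 4).map τ).map M24.subtype :=
      fun l hl => ⟨τ (s l), ⟨s l, Subgroup.subset_closure ⟨l, hl, rfl⟩, rfl⟩, rfl⟩
    apply S24t.lower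
    · have := hm 0 (by norm_num); rwa [s0, hx0] at this
    · have := hm 1 (by norm_num); rwa [s1, hx1] at this
    · have := hm 2 (by norm_num); rwa [s2, hx2] at this
    · have := hm 3 (by norm_num); rwa [s3, hx3] at this
  obtain ⟨hinj, hcard⟩ := compl_of_cards τ _ 1024 hup hlow
  exact h.not_mem_of_compl Nat.prime_two _ hinj
    (index_coprime _ 1024 239085 2 hcard card_M24 (by norm_num) (by norm_num))

end two

/-- elements of order three are real -/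
theorem real3 (σ : M24) (h3 : σ ^ 3 = 1) : ∃ g : M24, g * σ * g⁻¹ = σ⁻¹ := by
  by_cases h1 : σ = 1
  · exact ⟨1, by rw [h1]; group⟩
  have key : ∀ (r i : ℕ) (hr : okPerm r = true) (hi : okPerm i = true),
      el i hi * el r hr = el r hr * el r hr * el i hi → el r hr * (el r hr * el r hr) = 1 →
      ∀ t : M24, t * σ * t⁻¹ = el r hr → ∃ g : M24, g * σ * g⁻¹ = σ⁻¹ := by
    intro r i hr hi h4 h5 t ht
    have e1 : el i hi * el r hr * (el i hi)⁻¹ = (el r hr)⁻¹ := by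
      rw [h4, mul_inv_cancel_right, eq_inv_iff_mul_eq_one, mul_assoc]; exact h5
    refine ⟨t⁻¹ * el i hi * t, ?_⟩
    calc t⁻¹ * el i hi * t * σ * (t⁻¹ * el i hi * t)⁻¹
        = t⁻¹ * (el i hi * (t * σ * t⁻¹) * (el i hi)⁻¹) * t := by group
      _ = t⁻¹ * (t * σ * t⁻¹)⁻¹ * t := by rw [ht, e1]
      _ = σ⁻¹ := by group
  obtain ⟨t, ht, h | h⟩ := H29.order3_class σ.2 (by
    have := congrArg Subtype.val h3
    exact this) (fun h => h1 (Subtype.ext h))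
  · refine key H29.r3A IA ok3A okIA ?_ ?_ ⟨t, ht⟩ (Subtype.ext h)
    · (try simp only [mul_assoc]); exact wq [⟨IA, okIA⟩, ⟨H29.r3A, ok3A⟩] [⟨H29.r3A, ok3A⟩, ⟨H29.r3A, ok3A⟩, ⟨IA, okIA⟩] (by decide +kernel)
    · (try simp only [mul_assoc]); exact wq [⟨H29.r3A, ok3A⟩, ⟨H29.r3A, ok3A⟩, ⟨H29.r3A, ok3A⟩] [] (by decide +kernel)
  · refine key H29.r3B IB ok3B okIB ?_ ?_ ⟨t, ht⟩ (Subtype.ext h)
    · (try simp only [mul_assoc]); exact wq [⟨IB, okIB⟩, ⟨H29.r3B, ok3B⟩] [⟨H29.r3B, ok3B⟩, ⟨H29.r3B, ok3B⟩, ⟨IB, okIB⟩] (by decide +kernel)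
    · (try simp only [mul_assoc]); exact wq [⟨H29.r3B, ok3B⟩, ⟨H29.r3B, ok3B⟩, ⟨H29.r3B, ok3B⟩] [] (by decide +kernel)

section three

variable {E : Type*} [Group E] [Finite E] {τ : E →* M24} {z : E}

theorem three (h : PExt 3 τ z) : z ∉ commutator E := by
  have hp3 : ∀ x : E, τ x ^ 3 = 1 → x ^ 3 = 1 := by
    intro x hx
    obtain ⟨g, hg⟩ := real3 _ hx
    obtain ⟨w, hw⟩ := h.surj g
    exact h.pow_eq_one_of_real Nat.prime_three (by norm_num) hx (g := w) (by rw [hw]; exact hg)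
  obtain ⟨x, hx⟩ := h.surj (el L24x.Y0 okU)
  obtain ⟨y, hy⟩ := h.surj (el L24x.Y1 okW)
  have x3 : x ^ 3 = 1 := hp3 x (by
    rw [hx]
    simp only [pow_succ, pow_zero, one_mul, mul_assoc]; exact wq [⟨L24x.Y0, okU⟩, ⟨L24x.Y0, okU⟩, ⟨L24x.Y0, okU⟩] [] (by decide +kernel))
  have y3' : (el L24x.Y1 okW) * ((el L24x.Y1 okW) * (el L24x.Y1 okW)) = 1 := by
    (try simp only [mul_assoc]); exact wq [⟨L24x.Y1, okW⟩, ⟨L24x.Y1, okW⟩, ⟨L24x.Y1, okW⟩] [] (by decide +kernel)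
  have y3 : y ^ 3 = 1 := hp3 y (by
    rw [hy, ← y3']; simp only [pow_succ, pow_zero, one_mul, mul_assoc])
  have xy3 : (x * y) ^ 3 = 1 := hp3 _ (by
    rw [map_mul, hx, hy]
    simp only [pow_succ, pow_zero, one_mul, mul_assoc]; exact wq [⟨L24x.Y0, okU⟩, ⟨L24x.Y1, okW⟩, ⟨L24x.Y0, okU⟩, ⟨L24x.Y1, okW⟩, ⟨L24x.Y0, okU⟩, ⟨L24x.Y1, okW⟩] [] (by decide +kernel))
  have xy3' : (x * y⁻¹) ^ 3 = 1 := hp3 _ (by
    have e : (el L24x.Y1 okW)⁻¹ = (el L24x.Y1 okW) * (el L24x.Y1 okW) := by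
      rw [inv_eq_iff_mul_eq_one]; exact y3'
    rw [map_mul, map_inv, hx, hy, e]
    simp only [pow_succ, pow_zero, one_mul, mul_assoc]; exact wq [⟨L24x.Y0, okU⟩, ⟨L24x.Y1, okW⟩, ⟨L24x.Y1, okW⟩, ⟨L24x.Y0, okU⟩, ⟨L24x.Y1, okW⟩, ⟨L24x.Y1, okW⟩, ⟨L24x.Y0, okU⟩, ⟨L24x.Y1, okW⟩, ⟨L24x.Y1, okW⟩] [] (by decide +kernel))
  obtain ⟨-, hup⟩ := card_le_27 x y x3 y3 xy3 xy3'
  have hmap : (Subgroup.closure {x, y}).map τ = Subgroup.closure {el L24x.Y0 okU, el L24x.Y1 okW} := by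
    rw [MonoidHom.map_closure, Set.image_pair, hx, hy]
  have hlow : 27 ≤ Nat.card ((Subgroup.closure {x, y}).map τ) := by
    rw [hmap]
    apply card_map_subtype
    apply L24x.lower
    · exact ⟨el L24x.Y0 okU, Subgroup.subset_closure (Set.mem_insert _ _), rfl⟩
    · exact ⟨el L24x.Y1 okW, Subgroup.subset_closure (Set.mem_insert_of_mem _ rfl), rfl⟩
  obtain ⟨hinj, hcard⟩ := compl_of_cards τ _ 27 hup hlow
  exact h.not_mem_of_compl Nat.prime_three _ hinj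
    (index_coprime _ 27 9067520 3 hcard card_M24 (by norm_num) (by norm_num))

end three

theorem main : Cfsg.HasCyclicSchurMultiplier ↥Cfsg.M24 1 := by
  apply hasCyclic_one
  intro p hp hd E _ _ τ z h
  rw [card_M24] at hd
  have h2 : p = 2 ∨ p = 3 :=
    two_or_three (N := 244823040) (a := 10) (b := 3) (m := 8855) (by norm_num) (by norm_num) (by norm_num)
      (by decide +kernel) hp hd
  rcases h2 with rfl | rfl
  · exact two h
  · exact three h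

end Cfsg.Agent.H15.SchM24
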