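import Mathlib
import Cfsg.Agent.H15.Schur5
import Cfsg.Agent.H3.Core4

/-! # Schur multiplier API, part 6: the exponent bound -/

set_option autoImplicit false

universe u v w w'

open scoped commutatorElement

namespace Cfsg.Agent.H15.Schur

/-- central elements act by scalars on irreducible representations -/
theorem exists_central_scalar {G : Type u} [Group G] {n : ℕ}
    (ρ : Representation ℂ G (Fin n → ℂ)) [ρ.IsIrreducible] (z : G) (hz : z ∈ Subgroup.center G) :
    ∃ c : ℂ, ρ z = c • LinearMap.id := by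
  let T : Representation.IntertwiningMap ρ ρ :=
    ⟨ρ z, fun g => LinearMap.ext fun v => by
      show ρ z (ρ g v) = ρ g (ρ z v)
      rw [← Module.End.mul_apply, ← Module.End.mul_apply, ← map_mul, ← map_mul,
        Subgroup.mem_center_iff.mp hz g]⟩
  obtain ⟨c, hc⟩ := (Representation.IsIrreducible.algebraMap_intertwiningMap_bijective_of_isAlgClosed
    (ρ := ρ)).2 T
  refine ⟨c, ?_⟩
  have := congrArg (fun x : Representation.IntertwiningMap ρ ρ => x.toLinearMap) hc
  rw [Representation.IntertwiningMap.algebraMap_apply] at this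
  exact this.symm

/-- the central character of an irreducible character, with determinant relation -/
theorem exists_central_char {G : Type u} [Group G] (χ : Cfsg.IrrCharacter G) (K : Subgroup G)
    (hK : K ≤ Subgroup.center G) (hK' : K ≤ commutator G) :
    ∃ (n : ℕ) (ω : K →* ℂˣ), 0 < n ∧ (χ : G → ℂ) 1 = n ∧
      (∀ k : K, (χ : G → ℂ) k.1 = n * (ω k : ℂ)) ∧ ω ^ n = 1 := by
  obtain ⟨χ, n, ρ, hirr, rfl⟩ := χ
  have hdim : (ρ.character 1 : ℂ) = n := by
    rw [Representation.char_one, Module.finrank_fin_fun]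
  have hne : ρ.character 1 ≠ 0 :=
    Cfsg.Agent.H3.irr_one_ne_zero (χ := ρ.character) ⟨n, ρ, hirr, rfl⟩
  have hn : 0 < n := by
    rcases Nat.eq_zero_or_pos n with h | h
    · rw [hdim, h] at hne; simp at hne
    · exact h
  choose c hc using fun k : K => exists_central_scalar ρ k.1 (hK k.2)
  have hv : ∃ v : Fin n → ℂ, v ≠ 0 := ⟨fun _ => 1, fun h => by
    have := congrFun h ⟨0, hn⟩
    simp at this⟩
  obtain ⟨v, hv⟩ := hv
  have hc1 : c 1 = 1 := by
    have h1 := hc 1
    have h2 := LinearMap.congr_fun h1 v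
    have h3 : ρ (1 : G) v = c 1 • v := h2
    rw [map_one] at h3
    have h4 : (1 : ℂ) • v = c 1 • v := by rw [one_smul]; exact h3
    exact (smul_left_injective ℂ hv h4).symm
  have hcm : ∀ a b : K, c (a * b) = c a * c b := by
    intro a b
    have h2 := LinearMap.congr_fun (hc (a * b)) v
    have h3 : ρ (a.1 * b.1) v = c (a * b) • v := h2
    rw [map_mul] at h3
    have h4 : ρ a.1 (ρ b.1 v) = c (a * b) • v := h3
    rw [hc b, hc a] at h4
    have h5 : (c a * c b) • v = c (a * b) • v := by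
      rw [← h4, mul_smul]; rfl
    exact (smul_left_injective ℂ hv h5).symm
  let ω0 : K →* ℂ := { toFun := c, map_one' := hc1, map_mul' := hcm }
  refine ⟨n, ω0.toHomUnits, hn, hdim, ?_, ?_⟩
  · intro k
    show LinearMap.trace ℂ _ (ρ k.1) = _
    rw [hc k, map_smul, LinearMap.trace_id, Module.finrank_fin_fun, smul_eq_mul, mul_comm]
    rfl
  · -- determinant
    let d : G →* ℂˣ := (((LinearMap.det : ((Fin n → ℂ) →ₗ[ℂ] (Fin n → ℂ)) →* ℂ)).comp ρ).toHomUnits
    have h1 : commutator G ≤ d.ker := by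
      rw [commutator_def, Subgroup.commutator_le]
      intro a _ b _
      rw [MonoidHom.mem_ker, map_commutatorElement]
      exact commutatorElement_eq_one_iff_mul_comm.mpr (mul_comm _ _)
    ext k
    have h2 : d k.1 = 1 := h1 (hK' k.2)
    have h3 : (d k.1 : ℂ) = c k ^ n := by
      show LinearMap.det (ρ k.1) = c k ^ n
      rw [hc k, LinearMap.det_smul, LinearMap.det_id, mul_one, Module.finrank_fin_fun]
    rw [h2] at h3
    show (c k) ^ n = 1
    rw [← h3]; rfl

open Classical in
theorem exponent_sq_dvd {G : Type u} [Group G] [Finite G] (K : Subgroup G)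
    (hK : K ≤ Subgroup.center G) (hK' : K ≤ commutator G) (lam : K →* ℂˣ) :
    orderOf lam ^ 2 ∣ K.index := by
  have hfi := Fintype.ofFinite G
  have hfi2 : Fintype (Cfsg.IrrCharacter G) := by
    have h0 : Finite (Cfsg.IrrCharacter G) := by
      apply Nat.finite_of_card_ne_zero
      rw [Cfsg.Agent.H3.card_irr_eq]
      exact Nat.card_pos.ne'
    exact Fintype.ofFinite _
  have hfk : Fintype K := Fintype.ofFinite K
  choose n ω hn h1 hω hdet using fun χ : Cfsg.IrrCharacter G => exists_central_char χ K hK hK'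
  -- sum over K of the regular character times conj(lam)
  have hreg : ∀ k : K, ∑ χ : Cfsg.IrrCharacter G, (n χ : ℂ) ^ 2 * (ω χ k : ℂ) =
      if k = 1 then (Nat.card G : ℂ) else 0 := by
    intro k
    have h2 := Cfsg.Agent.H3.sum_degree_mul (G := G) k.1
    have h3 : (k.1 = 1) ↔ k = 1 := by
      constructor
      · intro h; exact Subtype.ext h
      · intro h; rw [h]; rfl
    simp only [h3] at h2
    rw [← h2]
    refine Finset.sum_congr rfl fun χ _ => ?_
    rw [h1, hω]; ring
  have hsum : ∑ k : K, ∑ χ : Cfsg.IrrCharacter G,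
      (n χ : ℂ) ^ 2 * (ω χ k : ℂ) * ((lam k)⁻¹ : ℂˣ) = (Nat.card G : ℂ) := by
    rw [Finset.sum_eq_single 1]
    · rw [← Finset.sum_mul, hreg 1, if_pos rfl, map_one, inv_one]; simp
    · intro k _ hk
      rw [← Finset.sum_mul, hreg k, if_neg hk, zero_mul]
    · intro h; exact absurd (Finset.mem_univ _) h
  rw [Finset.sum_comm] at hsum
  have horth : ∀ χ : Cfsg.IrrCharacter G, ∑ k : K, (n χ : ℂ) ^ 2 * (ω χ k : ℂ) * ((lam k)⁻¹ : ℂˣ) =
      if ω χ = lam then (Nat.card K : ℂ) * (n χ : ℂ) ^ 2 else 0 := by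
    intro χ
    have h2 : ∀ k : K, (n χ : ℂ) ^ 2 * (ω χ k : ℂ) * ((lam k)⁻¹ : ℂˣ) =
        (n χ : ℂ) ^ 2 * ((Units.coeHom ℂ).comp (ω χ * lam⁻¹)) k := by
      intro k
      show _ = (n χ : ℂ) ^ 2 * (((ω χ k) * (lam k)⁻¹ : ℂˣ) : ℂ)
      rw [Units.val_mul]; ring
    rw [Finset.sum_congr rfl fun k _ => h2 k, ← Finset.mul_sum]
    split_ifs with h
    · have h3 : ω χ * lam⁻¹ = 1 := by
        ext k
        rw [h]
        simp [MonoidHom.mul_apply, MonoidHom.inv_apply]
      rw [h3]
      simp [mul_comm]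
    · rw [sum_hom_units_eq_zero, mul_zero]
      intro h3
      apply h
      ext k
      have h4 := DFunLike.congr_fun h3 k
      have h5 : (((ω χ k) * (lam k)⁻¹ : ℂˣ) : ℂ) = 1 := h4
      have h6 : (ω χ k) * (lam k)⁻¹ = 1 := Units.ext h5
      rw [mul_inv_eq_one.mp h6]
  rw [Finset.sum_congr rfl fun χ _ => horth χ, ← Finset.sum_filter, ← Finset.mul_sum] at hsum
  have hcardG : (Nat.card G : ℂ) = (Nat.card K : ℂ) * (K.index : ℂ) := by
    rw [← Subgroup.card_mul_index K]; push_cast; ring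
  rw [hcardG] at hsum
  have hK0 : (Nat.card K : ℂ) ≠ 0 := by exact_mod_cast Nat.card_pos.ne'
  have hfin := mul_left_cancel₀ hK0 hsum
  have hfin2 : ∑ χ ∈ Finset.univ.filter (fun χ : Cfsg.IrrCharacter G => ω χ = lam), (n χ) ^ 2 =
      K.index := by exact_mod_cast hfin
  rw [← hfin2]
  apply Finset.dvd_sum
  intro χ hχ
  have h2 : ω χ = lam := (Finset.mem_filter.mp hχ).2
  apply pow_dvd_pow_of_dvd
  rw [orderOf_dvd_iff_pow_eq_one, ← h2]
  exact hdet χ

end Cfsg.Agent.H15.Schur
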