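import Mathlib
import Cfsg.Agent.H15.Schur3

/-! # Schur multipliers: deficiency of presentations -/

set_option autoImplicit false

universe u v w w' w''

open scoped commutatorElement

namespace Cfsg.Agent.H15.Schur

/-- exponent sums on the free group -/
noncomputable def expSum (α : Type u) : FreeGroup α →* Multiplicative (α →₀ ℤ) where
  toFun f := Multiplicative.ofAdd (FreeAbelianGroup.equivFinsupp α
    (Additive.ofMul (Abelianization.of f) : FreeAbelianGroup α))
  map_one' := by
    rw [map_one]
    exact congrArg Multiplicative.ofAdd (map_zero _)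
  map_mul' a b := by
    rw [map_mul]
    exact congrArg Multiplicative.ofAdd (map_add (FreeAbelianGroup.equivFinsupp α)
      (Additive.ofMul (Abelianization.of a)) (Additive.ofMul (Abelianization.of b)))

theorem expSum_of {α : Type u} (a : α) :
    expSum α (FreeGroup.of a) = Multiplicative.ofAdd (Finsupp.single a 1) := by
  show Multiplicative.ofAdd (FreeAbelianGroup.equivFinsupp α (FreeAbelianGroup.of a)) = _
  congr 1
  exact FreeAbelianGroup.toFinsupp_of a

theorem expSum_eq_one_iff {α : Type u} (f : FreeGroup α) :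
    expSum α f = 1 ↔ f ∈ commutator (FreeGroup α) := by
  rw [← Abelianization.ker_of, MonoidHom.mem_ker]
  constructor
  · intro h
    have h1 : FreeAbelianGroup.equivFinsupp α
      (Additive.ofMul (Abelianization.of f) : FreeAbelianGroup α) = 0 := h
    have h2 := (FreeAbelianGroup.equivFinsupp α).injective (h1.trans (map_zero _).symm)
    exact congrArg Additive.toMul h2
  · intro h
    show Multiplicative.ofAdd (FreeAbelianGroup.equivFinsupp α
      (Additive.ofMul (Abelianization.of f) : FreeAbelianGroup α)) = 1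
    rw [h]
    exact congrArg Multiplicative.ofAdd (map_zero _)

theorem deficiency {n : ℕ} {P : Type v} [Group P] [Finite P] (φ : FreeGroup (Fin n) →* P)
    (rels : Finset (FreeGroup (Fin n)))
    (hk : φ.ker = Subgroup.normalClosure (rels : Set (FreeGroup (Fin n)))) :
    Group.rank ↥(SM φ) ≤ rels.card - n := by
  classical
  let F := FreeGroup (Fin n)
  let K := (pr φ).ker
  have hr : ∀ r : rels, (QuotientGroup.mk r.1 : CE φ) ∈ (pr φ).ker := by
    intro r
    show r.1 ∈ φ.ker
    rw [hk]
    exact Subgroup.subset_normalClosure r.2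
  let v : rels → Additive K := fun r => Additive.ofMul ⟨QuotientGroup.mk r.1, hr r⟩
  let π : (rels → ℤ) →ₗ[ℤ] Additive K := Fintype.linearCombination ℤ v
  have hπv : ∀ r, π (Pi.single r 1) = v r := by
    intro r
    show Fintype.linearCombination ℤ v (Pi.single r 1) = v r
    rw [Fintype.linearCombination_apply_single, one_smul]
  -- surjectivity
  let W : Subgroup K :=
    { carrier := {k | Additive.ofMul k ∈ LinearMap.range π}
      mul_mem' := fun {a b} ha hb => by
        show Additive.ofMul a + Additive.ofMul b ∈ LinearMap.range π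
        exact add_mem ha hb
      one_mem' := zero_mem (LinearMap.range π)
      inv_mem' := fun {a} ha => by
        show -Additive.ofMul a ∈ LinearMap.range π
        exact neg_mem ha }
  have hW : (W.map K.subtype) ≤ (pr φ).ker := by
    rintro _ ⟨k, _, rfl⟩; exact k.2
  have hWn : (W.map K.subtype).Normal := normal_of_le_ker φ hW
  have hWc : φ.ker ≤ (W.map K.subtype).comap (QuotientGroup.mk' ⁅φ.ker, (⊤ : Subgroup F)⁆) := by
    have hN : ((W.map K.subtype).comap
      (QuotientGroup.mk' ⁅φ.ker, (⊤ : Subgroup F)⁆)).Normal := hWn.comap _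
    refine hk.le.trans (Subgroup.normalClosure_le_normal ?_)
    intro r hr'
    refine ⟨⟨QuotientGroup.mk r, by
      have := hr ⟨r, hr'⟩
      exact this⟩, ?_, rfl⟩
    exact ⟨Pi.single ⟨r, hr'⟩ 1, hπv ⟨r, hr'⟩⟩
  have hπs : ∀ k : K, ∃ f, π f = Additive.ofMul k := by
    rintro ⟨x, hx⟩
    obtain ⟨f, rfl⟩ := QuotientGroup.mk_surjective x
    obtain ⟨y, hy, hyx⟩ := hWc (show f ∈ φ.ker from hx)
    obtain ⟨g, hg⟩ := hy
    refine ⟨g, ?_⟩
    rw [hg]
    congr 1
    exact Subtype.ext hyx
  -- exponent sums
  have hE : ⁅φ.ker, (⊤ : Subgroup F)⁆ ≤ (expSum (Fin n)).ker := by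
    rw [Subgroup.commutator_le]
    intro a _ b _
    rw [MonoidHom.mem_ker, map_commutatorElement, commutatorElement_eq_one_iff_mul_comm]
    exact mul_comm _ _
  let θ0 : CE φ →* Multiplicative (Fin n →₀ ℤ) := QuotientGroup.lift _ (expSum (Fin n)) hE
  have hθ0 : ∀ x : CE φ, θ0 x = 1 ↔ x ∈ commutator (CE φ) := by
    intro x
    obtain ⟨f, rfl⟩ := QuotientGroup.mk_surjective x
    rw [mk_mem_commutator_iff]
    exact expSum_eq_one_iff f
  let θ : Additive K →ₗ[ℤ] (Fin n →₀ ℤ) :=
    (AddMonoidHom.toMultiplicativeRight.symm (θ0.comp K.subtype)).toIntLinearMap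
  have hθ : ∀ k : K, θ (Additive.ofMul k) = (θ0 k.1).toAdd := fun k => rfl
  let Λ := θ.comp π
  -- rank of the range
  let q := Nat.card P
  have hq : (q : ℤ) ≠ 0 := by exact_mod_cast Nat.card_pos.ne'
  have hrange : ∀ i : Fin n, (q : ℤ) • (Finsupp.single i (1 : ℤ)) ∈ LinearMap.range Λ := by
    intro i
    have h1 : (FreeGroup.of i) ^ q ∈ φ.ker := by
      rw [MonoidHom.mem_ker, map_pow, pow_card_eq_one']
    obtain ⟨f, hf⟩ := hπs ⟨QuotientGroup.mk ((FreeGroup.of i) ^ q), h1⟩
    refine ⟨f, ?_⟩
    show θ (π f) = _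
    rw [hf, hθ]
    show (expSum (Fin n) (FreeGroup.of i ^ q)).toAdd = _
    rw [map_pow, expSum_of, ← ofAdd_nsmul, natCast_zsmul]
    rfl
  let w : Fin n → LinearMap.range Λ := fun i => ⟨_, hrange i⟩
  have hli : LinearIndependent ℤ w := by
    rw [Fintype.linearIndependent_iff]
    intro g hg i
    have h1 := congrArg (LinearMap.range Λ).subtype hg
    rw [map_sum, map_zero] at h1
    have h2 : (∑ j, g j • ((q : ℤ) • (Finsupp.single j (1 : ℤ)))) = 0 := by
      rw [← h1]
      refine Finset.sum_congr rfl fun j _ => ?_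
      rw [map_smul]; rfl
    have h3 := DFunLike.congr_fun h2 i
    rw [Finsupp.finsetSum_apply, Finset.sum_eq_single i] at h3
    · have h4 : g i * ((q : ℤ) * 1) = 0 := by
        have h5 : (g i • ((q : ℤ) • (Finsupp.single i (1 : ℤ)))) i = g i * ((q : ℤ) * 1) := by
          rw [Finsupp.smul_apply, Finsupp.smul_apply, Finsupp.single_eq_same, smul_eq_mul,
            smul_eq_mul]
        rw [← h5]; exact h3
      rw [mul_one] at h4
      exact (mul_eq_zero.mp h4).resolve_right hq
    · intro j _ hj
      rw [Finsupp.smul_apply, Finsupp.smul_apply, Finsupp.single_eq_of_ne hj.symm, smul_zero,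
        smul_zero]
    · intro h; exact absurd (Finset.mem_univ _) h
  have hn : n ≤ Module.finrank ℤ (LinearMap.range Λ) := by
    have := hli.fintype_card_le_finrank
    rwa [Fintype.card_fin] at this
  have hker : Module.finrank ℤ (LinearMap.ker Λ) ≤ rels.card - n := by
    have h1 := Submodule.finrank_quotient_add_finrank (LinearMap.ker Λ)
    rw [Λ.quotKerEquivRange.finrank_eq, Module.finrank_fintype_fun_eq_card, Fintype.card_coe] at h1
    omega
  refine le_trans ?_ hker
  let b := Module.finBasis ℤ (LinearMap.ker Λ)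
  have hb : ∀ i, (π (b i).1).toMul.1 ∈ SM φ := by
    intro i
    refine ⟨(π (b i).1).toMul.2, (hθ0 _).mp ?_⟩
    have h1 : θ (π (b i).1) = 0 := (b i).2
    exact h1
  let S : Finset ↥(SM φ) := Finset.univ.image (fun i => (⟨(π (b i).1).toMul.1, hb i⟩ : ↥(SM φ)))
  have hS : Subgroup.closure (S : Set ↥(SM φ)) = ⊤ := by
    rw [eq_top_iff]
    rintro ⟨x, hx⟩ _
    obtain ⟨f, hf⟩ := hπs ⟨x, hx.1⟩
    have h1 : f ∈ LinearMap.ker Λ := by
      show θ (π f) = 0
      rw [hf, hθ]
      have := (hθ0 x).mpr hx.2
      show (θ0 x).toAdd = 0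
      rw [this]; rfl
    -- hom from ker Λ to SM
    let ψ : LinearMap.ker Λ →+ Additive ↥(SM φ) :=
      { toFun := fun y => Additive.ofMul ⟨(π y.1).toMul.1, ⟨(π y.1).toMul.2, (hθ0 _).mp (show θ (π y.1) = 0 from y.2)⟩⟩
        map_zero' := by
          apply congrArg Additive.ofMul
          apply Subtype.ext
          show (π 0).toMul.1 = 1
          rw [map_zero]; rfl
        map_add' := by
          intro y z
          apply congrArg Additive.ofMul
          apply Subtype.ext
          show (π (y.1 + z.1)).toMul.1 = _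
          rw [map_add]; rfl }
    have h2 : ∀ y : LinearMap.ker Λ, (ψ y).toMul ∈ Subgroup.closure (S : Set ↥(SM φ)) := by
      intro y
      have h3 := b.sum_repr y
      rw [← h3, map_sum]
      have h4 : ∀ t : Finset (Fin (Module.finrank ℤ (LinearMap.ker Λ))),
          (∑ i ∈ t, ψ ((b.repr y) i • b i)).toMul ∈ Subgroup.closure (S : Set ↥(SM φ)) := by
        intro t
        induction t using Finset.induction_on with
        | empty => exact one_mem _
        | insert a s ha ih =>
          rw [Finset.sum_insert ha]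
          refine mul_mem ?_ ih
          rw [map_zsmul]
          refine zpow_mem (Subgroup.subset_closure ?_) _
          exact Finset.mem_coe.mpr (Finset.mem_image.mpr ⟨a, Finset.mem_univ _, rfl⟩)
      exact h4 _
    have h5 := h2 ⟨f, h1⟩
    have h6 : (ψ ⟨f, h1⟩).toMul = ⟨x, hx⟩ := by
      apply Subtype.ext
      show (π f).toMul.1 = x
      rw [hf]; rfl
    rw [← h6]; exact h5
  refine (Group.rank_le hS).trans ?_
  refine Finset.card_image_le.trans ?_
  simp

end Cfsg.Agent.H15.Schur
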