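import Mathlib
import Cfsg.Agent.H15.Schur5

/-! # Uniqueness of Schur covers -/

set_option autoImplicit false

universe u v w w' w''

open scoped commutatorElement

namespace Cfsg.Agent.H15.Schur

section Uniq

/-- the quotient of the abelianization of `E` by the image of `ker η` -/
theorem index_ker_sup_commutator {E : Type u} [Group E] {Γ : Type v} [Group Γ] (η : E →* Γ)
    (hη : Function.Surjective η) :
    (η.ker ⊔ commutator E).index = Nat.card (Abelianization Γ) := by
  have h1 : η.ker ⊔ commutator E = (commutator Γ).comap η := by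
    have h2 : (commutator E).map η = commutator Γ := commutator_map_of_surjective η hη
    rw [← h2, Subgroup.comap_map_eq, sup_comm]
  rw [h1, Subgroup.index_comap_of_surjective _ hη]
  rfl

theorem abelianization_card_of_stem {Γ : Type v} [Group Γ] {Q : Type w} [Group Q] (σ : Γ →* Q)
    (hσ : Cfsg.IsStemExtension σ) :
    Nat.card (Abelianization Γ) = Nat.card (Abelianization Q) := by
  have h1 := index_ker_sup_commutator σ hσ.1
  rw [sup_eq_right.mpr hσ.2.2] at h1
  exact h1

/-- extension of homomorphisms of coprime index -/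
theorem exists_extension_coprime {E : Type u} [Group E] (S : Subgroup E)
    (hS : S ⊓ commutator E = ⊥) {D : Type v} [CommGroup D] [Finite D]
    (hcop : Nat.Coprime (S ⊔ commutator E).index (Nat.card D)) (δ : S →* D) :
    ∃ θ : E →* D, ∀ s : S, θ s = δ s := by
  let A := Abelianization E
  let j : S →* A := Abelianization.of.comp S.subtype
  have hj : Function.Injective j := by
    rw [injective_iff_map_eq_one]
    intro a ha
    have h1 : a.1 ∈ commutator E := by
      rw [← Abelianization.ker_of]; exact ha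
    have h2 : a.1 ∈ S ⊓ commutator E := ⟨a.2, h1⟩
    rw [hS] at h2
    exact Subtype.ext (by simpa using h2)
  let q := (S ⊔ commutator E).index
  have hq : ∀ a : A, a ^ q ∈ j.range := by
    intro a
    obtain ⟨x, rfl⟩ := QuotientGroup.mk_surjective a
    have hN : (S ⊔ commutator E).Normal := Subgroup.Normal.of_commutator_le _ le_sup_right
    have h1 : x ^ q ∈ S ⊔ commutator E := Subgroup.pow_index_mem _ x
    obtain ⟨s, hs, c, hc, hsc⟩ := Subgroup.mem_sup_of_normal_right.mp h1
    refine ⟨⟨s, hs⟩, ?_⟩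
    show Abelianization.of s = (Abelianization.of x) ^ q
    rw [← map_pow, ← hsc, map_mul]
    have h2 : Abelianization.of c = 1 := by
      rw [← MonoidHom.mem_ker, Abelianization.ker_of]; exact hc
    rw [h2, mul_one]
  let e : S ≃* j.range := MulEquiv.ofBijective j.rangeRestrict
    ⟨j.rangeRestrict_injective_iff.mpr hj, j.rangeRestrict_surjective⟩
  let pq : A →* j.range := (powMonoidHom q).codRestrict j.range hq
  let r : D ≃* D := MulEquiv.ofBijective (powMonoidHom q : D →* D) (powCoprime hcop.symm).bijective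
  have hr : ∀ d : D, r.symm (d ^ q) = d := fun d => r.symm_apply_apply d
  refine ⟨(r.symm.toMonoidHom.comp ((δ.comp e.symm.toMonoidHom).comp pq)).comp
    Abelianization.of, ?_⟩
  intro s
  show r.symm (δ (e.symm (pq (Abelianization.of s.1)))) = δ s
  have h1 : pq (Abelianization.of s.1) = e (s ^ q) := by
    apply Subtype.ext
    show (Abelianization.of s.1) ^ q = Abelianization.of (s ^ q : S).1
    rw [← map_pow]; rfl
  rw [h1, e.symm_apply_apply, map_pow, hr]

/-- twisting a homomorphism by a central one -/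
def twistHom {E : Type u} [Group E] {X : Type v} [Group X] (η : E →* X) (Z : Subgroup X)
    (hZ : Z ≤ Subgroup.center X) (θ : E →* Z) : E →* X where
  toFun x := η x * (θ x).1
  map_one' := by simp
  map_mul' x y := by
    have h1 := mul_comm_of_center (hZ (θ x).2) (η y)
    rw [map_mul, map_mul]
    show η x * η y * ((θ x).1 * (θ y).1) = _
    calc η x * η y * ((θ x).1 * (θ y).1) = η x * (η y * (θ x).1) * (θ y).1 := by
          simp only [mul_assoc]
      _ = η x * ((θ x).1 * η y) * (θ y).1 := by rw [h1]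
      _ = _ := by simp only [mul_assoc]

theorem uniq_of_coprime {Q : Type u} [Group Q] [Finite Q] {Γ₁ : Type v} {Γ₂ : Type w}
    [Group Γ₁] [Finite Γ₁] [Group Γ₂] [Finite Γ₂] (σ₁ : Γ₁ →* Q) (σ₂ : Γ₂ →* Q)
    (h₁ : Cfsg.IsStemExtension σ₁) (h₂ : Cfsg.IsStemExtension σ₂)
    (k₁ : Nonempty (σ₁.ker ≃* SM (canPres Q))) (k₂ : Nonempty (σ₂.ker ≃* SM (canPres Q)))
    (hcop : Nat.Coprime (Nat.card (Abelianization Q)) (Nat.card (SM (canPres Q)))) :
    ∃ e : Γ₁ ≃* Γ₂, σ₂.comp e.toMonoidHom = σ₁ := by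
  let φ := canPres Q
  have hφ : Function.Surjective φ := canPres_surjective Q
  obtain ⟨η₁, hη₁⟩ := exists_ceLift φ σ₁ h₁.1 h₁.2.1
  obtain ⟨η₂, hη₂⟩ := exists_ceLift φ σ₂ h₂.1 h₂.2.1
  have hs₁ := surjective_of_isStem (pr φ) (pr_surjective φ hφ) σ₁ h₁ η₁ hη₁
  have hinj := smMap_injective_of_card φ hφ σ₁ h₁ k₁ η₁ hη₁
  let S := η₁.ker
  have hSk : ∀ s ∈ S, s ∈ (pr φ).ker := by
    intro s hs
    rw [MonoidHom.mem_ker, ← hη₁]
    show σ₁ (η₁ s) = 1
    rw [MonoidHom.mem_ker.mp hs, map_one]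
  have hS : S ⊓ commutator (CE φ) = ⊥ := by
    rw [Subgroup.eq_bot_iff_forall]
    rintro x ⟨hx1, hx2⟩
    have h1 : (⟨x, hSk x hx1, hx2⟩ : SM φ) = 1 := by
      apply hinj
      rw [map_one]
      apply Subtype.ext
      exact hx1
    exact congrArg Subtype.val h1
  let _ : CommGroup σ₂.ker :=
    { (inferInstance : Group σ₂.ker) with
      mul_comm := fun a b => Subtype.ext
        (((Subgroup.mem_center_iff.mp (h₂.2.1 a.2)) b.1).symm) }
  let δ : S →* σ₂.ker := ((η₂.comp S.subtype).codRestrict σ₂.ker (by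
    intro s
    show σ₂ (η₂ s.1) = 1
    have h3 : σ₂ (η₂ s.1) = pr φ s.1 := DFunLike.congr_fun hη₂ s.1
    rw [h3]; exact hSk s.1 s.2))
  have hcop' : Nat.Coprime (S ⊔ commutator (CE φ)).index (Nat.card σ₂.ker) := by
    rw [index_ker_sup_commutator η₁ hs₁, abelianization_card_of_stem σ₁ h₁,
      Nat.card_congr k₂.some.toEquiv]
    exact hcop
  obtain ⟨θ, hθ⟩ := exists_extension_coprime S hS hcop' δ⁻¹
  let η : CE φ →* Γ₂ := twistHom η₂ σ₂.ker h₂.2.1 θ
  have hη : σ₂.comp η = pr φ := by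
    apply MonoidHom.ext
    intro x
    show σ₂ (η₂ x * (θ x).1) = pr φ x
    rw [map_mul, MonoidHom.mem_ker.mp (θ x).2, mul_one]
    exact DFunLike.congr_fun hη₂ x
  have hker : η₁.ker ≤ η.ker := by
    intro s hs
    show η₂ s * (θ s).1 = 1
    have h3 : θ s = (δ ⟨s, hs⟩)⁻¹ := hθ ⟨s, hs⟩
    rw [h3]
    show η₂ s * (η₂ s)⁻¹ = 1
    rw [mul_inv_cancel]
  let e₀ : Γ₁ →* Γ₂ := η₁.liftOfSurjective hs₁ ⟨η, hker⟩
  have he₀ : ∀ x, e₀ (η₁ x) = η x := fun x =>
    MonoidHom.liftOfRightInverse_comp_apply _ _ _ ⟨η, hker⟩ x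
  have hσ : σ₂.comp e₀ = σ₁ := by
    apply MonoidHom.ext
    intro y
    obtain ⟨x, rfl⟩ := hs₁ y
    show σ₂ (e₀ (η₁ x)) = σ₁ (η₁ x)
    rw [he₀]
    have h3 : σ₂ (η x) = pr φ x := DFunLike.congr_fun hη x
    have h4 : σ₁ (η₁ x) = pr φ x := DFunLike.congr_fun hη₁ x
    rw [h3, h4]
  have hsurj := surjective_of_isStem σ₁ h₁.1 σ₂ h₂ e₀ hσ
  have hcard : Nat.card Γ₁ = Nat.card Γ₂ := by
    rw [← Subgroup.card_mul_index σ₁.ker, Subgroup.index_ker, MonoidHom.range_eq_top.mpr h₁.1,
      Nat.card_congr Subgroup.topEquiv.toEquiv, ← Subgroup.card_mul_index σ₂.ker,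
      Subgroup.index_ker, MonoidHom.range_eq_top.mpr h₂.1,
      Nat.card_congr Subgroup.topEquiv.toEquiv, Nat.card_congr (k₁.some.trans k₂.some.symm).toEquiv]
  exact ⟨MulEquiv.ofBijective e₀ ((Nat.bijective_iff_surjective_and_card e₀).mpr ⟨hsurj, hcard⟩), hσ⟩

/-- the difference of two homomorphisms agreeing modulo a central subgroup -/
def diffHom {E : Type u} [Group E] {X : Type v} [Group X] (f₁ f₂ : E →* X) (Z : Subgroup X)
    (hZ : Z ≤ Subgroup.center X) (hf : ∀ x, (f₂ x)⁻¹ * f₁ x ∈ Z) : E →* Z where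
  toFun x := ⟨(f₂ x)⁻¹ * f₁ x, hf x⟩
  map_one' := by apply Subtype.ext; simp
  map_mul' := by
    intro x y
    apply Subtype.ext
    have h3 := mul_comm_of_center (hZ (hf x)) (f₂ y)⁻¹
    show (f₂ (x * y))⁻¹ * f₁ (x * y) = ((f₂ x)⁻¹ * f₁ x) * ((f₂ y)⁻¹ * f₁ y)
    rw [map_mul, map_mul, mul_inv_rev]
    calc (f₂ y)⁻¹ * (f₂ x)⁻¹ * (f₁ x * f₁ y) = (f₂ y)⁻¹ * ((f₂ x)⁻¹ * f₁ x) * f₁ y := by
          group
      _ = (f₂ x)⁻¹ * f₁ x * (f₂ y)⁻¹ * f₁ y := by rw [h3]
      _ = _ := by group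

theorem diffHom_coe {E : Type u} [Group E] {X : Type v} [Group X] (f₁ f₂ : E →* X)
    (Z : Subgroup X) (hZ : Z ≤ Subgroup.center X) (hf : ∀ x, (f₂ x)⁻¹ * f₁ x ∈ Z) (x : E) :
    ((diffHom f₁ f₂ Z hZ hf x : Z) : X) = (f₂ x)⁻¹ * f₁ x := rfl

/-- twisting a central subgroup -/
def twSub {E : Type u} [Group E] (S M : Subgroup E) (hM : M ≤ Subgroup.center E)
    (δ : S →* M) : S →* E where
  toFun s := s.1 * (δ s).1
  map_one' := by simp
  map_mul' := by
    intro x y
    have h3 := mul_comm_of_center (hM (δ x).2) y.1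
    rw [map_mul]
    show x.1 * y.1 * ((δ x).1 * (δ y).1) = _
    calc x.1 * y.1 * ((δ x).1 * (δ y).1) = x.1 * (y.1 * (δ x).1) * (δ y).1 := by
          simp only [mul_assoc]
      _ = x.1 * ((δ x).1 * y.1) * (δ y).1 := by rw [h3]
      _ = _ := by simp only [mul_assoc]

theorem coverHom_mk {F : Type u} [Group F] {Q : Type v} [Group Q] (φ : F →* Q)
    (S : Subgroup (CE φ)) [S.Normal] (hS : S ≤ (pr φ).ker) (x : CE φ) :
    coverHom φ S hS (QuotientGroup.mk x) = pr φ x := rfl

/-- a coordinate function on a free abelian group detecting non-divisibility -/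
theorem exists_coord {M : Type u} [AddCommGroup M] [Module.Finite ℤ M] [Module.Free ℤ M]
    (p : ℕ) (x : M) (hx : ∀ y : M, p • y ≠ x) : ∃ h : M →+ ℤ, ¬ (p : ℤ) ∣ h x := by
  by_contra hcon
  push Not at hcon
  let b := Module.finBasis ℤ M
  have h1 : ∀ i, (p : ℤ) ∣ b.repr x i := fun i => hcon (b.coord i).toAddMonoidHom
  choose c hc using h1
  apply hx (∑ i, c i • b i)
  conv_rhs => rw [← b.sum_repr x]
  rw [Finset.smul_sum]
  refine Finset.sum_congr rfl fun i _ => ?_
  rw [hc i, mul_smul, natCast_zsmul]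

theorem exists_nonextendable {E : Type u} [Group E] [Group.FG E]
    (htor : ∀ (x : E) (n : ℕ), n ≠ 0 → x ^ n ∈ commutator E → x ∈ commutator E)
    (S : Subgroup E) (hSc : S ≤ Subgroup.center E) (hS : S ⊓ commutator E = ⊥)
    (p : ℕ) (hp : p.Prime) (hfi : (S ⊔ commutator E).index ≠ 0)
    (hpi : p ∣ (S ⊔ commutator E).index) {D : Type v} [CommGroup D] [Finite D]
    (hpD : p ∣ Nat.card D) :
    ∃ δ : S →* D, ∀ θ : E →* D, ∃ s : S, θ s ≠ δ s := by
  have : Fact p.Prime := ⟨hp⟩
  let _ : CommGroup S :=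
    { (inferInstance : Group S) with
      mul_comm := fun a b => Subtype.ext
        (((Subgroup.mem_center_iff.mp (hSc a.2)) b.1).symm) }
  have hN : (S ⊔ commutator E).Normal := Subgroup.Normal.of_commutator_le _ le_sup_right
  -- an element of order p in the quotient
  have hfin : Finite (E ⧸ (S ⊔ commutator E)) := by
    apply Nat.finite_of_card_ne_zero
    exact hfi
  obtain ⟨y, hy⟩ := exists_prime_orderOf_dvd_card' (G := E ⧸ (S ⊔ commutator E)) p hpi
  obtain ⟨x, rfl⟩ := QuotientGroup.mk_surjective y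
  have hx1 : x ∉ S ⊔ commutator E := by
    intro h
    rw [(QuotientGroup.eq_one_iff x).mpr h, orderOf_one] at hy
    exact hp.one_lt.ne hy
  have hx2 : x ^ p ∈ S ⊔ commutator E := by
    rw [← QuotientGroup.eq_one_iff, QuotientGroup.mk_pow, ← hy, pow_orderOf_eq_one]
  obtain ⟨s0, hs0, c, hc, hsc⟩ := Subgroup.mem_sup_of_normal_right.mp hx2
  -- s0 is not a p-th power in S
  have hs0p : ∀ s1 : S, s1 ^ p ≠ ⟨s0, hs0⟩ := by
    intro s1 h
    have h1 : s1.1 ^ p = s0 := congrArg Subtype.val h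
    apply hx1
    have h2 : (x * s1.1⁻¹) ^ p ∈ commutator E := by
      have h3 : Commute x s1.1⁻¹ := by
        have := mul_comm_of_center (inv_mem (hSc s1.2)) x
        exact this
      rw [h3.mul_pow, inv_pow, h1, ← hsc]
      have h4 : s0 * c = c * s0 := (mul_comm_of_center (hSc hs0) c).symm
      rw [h4, mul_inv_cancel_right]
      exact hc
    have h3 := htor _ p hp.ne_zero h2
    have h4 : x = s1.1 * (s1.1⁻¹ * (x * s1.1⁻¹) * s1.1) := by group
    rw [h4]
    refine Subgroup.mul_mem_sup s1.2 ?_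
    have := (inferInstance : (commutator E).Normal).conj_mem _ h3 s1.1⁻¹
    simpa using this
  -- S is free abelian of finite rank
  let j : S →* Abelianization E := Abelianization.of.comp S.subtype
  have hj : Function.Injective j := by
    rw [injective_iff_map_eq_one]
    intro a ha
    have h1 : a.1 ∈ commutator E := by
      rw [← Abelianization.ker_of]; exact ha
    have h2 : a.1 ∈ S ⊓ commutator E := ⟨a.2, h1⟩
    rw [hS] at h2
    exact Subtype.ext (by simpa using h2)
  have hfgA : Group.FG (Abelianization E) := inferInstanceAs (Group.FG (E ⧸ commutator E))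
  have hM0 : Module.Finite ℤ (Additive (Abelianization E)) := by
    rw [Module.Finite.iff_addGroup_fg]; infer_instance
  have hMS : Module.Finite ℤ (Additive S) :=
    Module.Finite.of_injective (MonoidHom.toAdditive j).toIntLinearMap hj
  have hnt : ∀ (n : ℕ) (b : Additive S), n ≠ 0 → n • b = 0 → b = 0 := by
    intro n b hn hb
    have h1 : (Additive.toMul b) ^ n = 1 := congrArg Additive.toMul hb
    have h2 : (Additive.toMul b).1 ^ n = 1 := congrArg Subtype.val h1
    have h3 := htor (Additive.toMul b).1 n hn (by rw [h2]; exact one_mem _)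
    have h4 : (Additive.toMul b).1 ∈ S ⊓ commutator E := ⟨(Additive.toMul b).2, h3⟩
    rw [hS] at h4
    have h5 : Additive.toMul b = 1 := Subtype.ext (by simpa using h4)
    exact congrArg Additive.ofMul h5
  have htf : Module.IsTorsionFree ℤ (Additive S) := by
    constructor
    intro r hr x y h
    have hr0 : r ≠ 0 := hr.ne_zero
    have h1 : r • (x - y) = 0 := by
      rw [smul_sub, sub_eq_zero]; exact h
    have h2 : r.natAbs • (x - y) = 0 := by
      rcases Int.natAbs_eq r with h3 | h3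
      · rw [h3] at h1; simpa using h1
      · rw [h3, neg_smul, neg_eq_zero] at h1; simpa using h1
    have h3 := hnt r.natAbs (x - y) (Int.natAbs_ne_zero.mpr hr0) h2
    exact sub_eq_zero.mp h3
  have hfree : Module.Free ℤ (Additive S) := Module.free_of_finite_type_torsion_free'
  obtain ⟨h, hh⟩ := exists_coord p (Additive.ofMul (⟨s0, hs0⟩ : S)) (fun y hy =>
    hs0p y.toMul (congrArg Additive.toMul hy))
  -- an element of D which is not a p-th power
  obtain ⟨d, hd⟩ := exists_prime_orderOf_dvd_card' (G := D) p hpD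
  have hninj : ¬ Function.Injective (powMonoidHom p : D →* D) := by
    intro hi
    have h1 : d = 1 := by
      apply hi
      show d ^ p = 1 ^ p
      rw [← hd, pow_orderOf_eq_one, one_pow]
    rw [h1, orderOf_one] at hd
    exact hp.one_lt.ne hd
  have hnsurj : ¬ Function.Surjective (powMonoidHom p : D →* D) := fun hs =>
    hninj (Finite.injective_iff_surjective.mpr hs)
  rw [Function.Surjective] at hnsurj
  push Not at hnsurj
  obtain ⟨m0, hm0⟩ := hnsurj
  let δ : S →* D := (zpowersHom D m0).comp (AddMonoidHom.toMultiplicative h)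
  have hδ : ∀ s : S, δ s = m0 ^ (h (Additive.ofMul s)) := fun s => rfl
  refine ⟨δ, ?_⟩
  intro θ
  by_contra hcon
  push Not at hcon
  have h1 := hcon ⟨s0, hs0⟩
  rw [hδ] at h1
  have h2 : θ s0 = (θ x) ^ p := by
    rw [← map_pow, ← hsc, map_mul]
    have h3 : commutator E ≤ θ.ker := Abelianization.commutator_subset_ker θ
    rw [MonoidHom.mem_ker.mp (h3 hc), mul_one]
  have h1' : (θ x) ^ p = m0 ^ (h (Additive.ofMul ⟨s0, hs0⟩)) := by rw [← h2]; exact h1
  -- Bezout
  have hcop : IsCoprime (p : ℤ) (h (Additive.ofMul ⟨s0, hs0⟩)) :=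
    (Prime.coprime_iff_not_dvd (Nat.prime_iff_prime_int.mp hp)).mpr hh
  obtain ⟨u, v, huv⟩ := hcop
  apply hm0 (m0 ^ u * (θ x) ^ v)
  show (m0 ^ u * (θ x) ^ v) ^ p = m0
  rw [mul_pow, ← zpow_natCast, ← zpow_mul, ← zpow_natCast ((θ x) ^ v), zpow_comm, zpow_natCast,
    h1', ← zpow_mul, ← zpow_add, mul_comm (h _) v, huv, zpow_one]

end Uniq

end Cfsg.Agent.H15.Schur
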