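import Mathlib
import Cfsg.Agent.H15.SzPart
import Cfsg.Agent.H15.SzElem

/-! # Suzuki groups: automorphisms -/

set_option autoImplicit false

open scoped Pointwise commutatorElement

namespace Cfsg.Agent.H15.Suz

open Cfsg.Agent.H15.IrrLin

section

variable {F : Type*} [Field F] [Fintype F] (m : ℕ) [hS : SzF F m]

theorem ring_th (s : F ≃+* F) (x : F) : s (th F m x) = th F m (s x) := by
  rw [th_apply, th_apply, map_pow]

theorem ring_ta (s : F ≃+* F) (x : F) : s (ta F m x) = ta F m (s x) := by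
  rw [ta_apply, ta_apply, map_pow]

theorem ring_fo (s : F ≃+* F) (x y : F) : s (fo m x y) = fo m (s x) (s y) := by
  rw [fo, fo, map_add, map_add, map_mul, map_mul, map_pow, ring_th, ring_th]

theorem map_T (s : F ≃+* F) (a b : F) :
    Matrix.SpecialLinearGroup.map s.toRingHom (t m a b).1 = (t m (s a) (s b)).1 := by
  apply Subtype.ext
  show ((t m a b).1 : Matrix (Fin 4) (Fin 4) F).map s = ((t m (s a) (s b)).1 : Matrix _ _ F)
  rw [t_mat, t_mat]
  ext i j
  fin_cases i <;> fin_cases j <;> simp [ring_fo, ring_th]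

theorem map_D (s : F ≃+* F) (k : Fˣ) :
    Matrix.SpecialLinearGroup.map s.toRingHom (dd m k).1 = (dd m (Units.map s.toMonoidHom k)).1 := by
  apply Subtype.ext
  show ((dd m k).1 : Matrix (Fin 4) (Fin 4) F).map s =
    ((dd m (Units.map s.toMonoidHom k)).1 : Matrix (Fin 4) (Fin 4) F)
  rw [dd_mat, dd_mat]
  ext i j
  fin_cases i <;> fin_cases j <;> simp [ring_ta]

theorem map_W (s : F ≃+* F) :
    Matrix.SpecialLinearGroup.map s.toRingHom (w F m).1 = (w F m).1 := by
  apply Subtype.ext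
  show ((w F m).1 : Matrix (Fin 4) (Fin 4) F).map s = ((w F m).1 : Matrix _ _ F)
  rw [w_mat]
  ext i j
  fin_cases i <;> fin_cases j <;> simp

theorem map_mem (s : F ≃+* F) (g : Sg F m) :
    Matrix.SpecialLinearGroup.map s.toRingHom g.1 ∈ Cfsg.Sz F m := by
  refine Sg_induction m (P := fun g => Matrix.SpecialLinearGroup.map s.toRingHom g.1 ∈
    Cfsg.Sz F m) ?_ ?_ ?_ ?_ g
  · intro a b; rw [map_T]; exact (t m _ _).2
  · intro k; rw [map_D]; exact (dd m _).2
  · rw [map_W]; exact (w F m).2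
  · intro x y hx hy
    have : (x * y).1 = x.1 * y.1 := rfl
    rw [this, map_mul]
    exact mul_mem hx hy

/-- field automorphisms act -/
noncomputable def fa (s : F ≃+* F) : Sg F m →* Sg F m where
  toFun g := ⟨Matrix.SpecialLinearGroup.map s.toRingHom g.1, map_mem m s g⟩
  map_one' := Subtype.ext (map_one _)
  map_mul' := fun x y => Subtype.ext (map_mul _ x.1 y.1)

theorem fa_t (s : F ≃+* F) (a b : F) : fa m s (t m a b) = t m (s a) (s b) :=
  Subtype.ext (map_T m s a b)

theorem fa_dd (s : F ≃+* F) (k : Fˣ) : fa m s (dd m k) = dd m (Units.map s.toMonoidHom k) :=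
  Subtype.ext (map_D m s k)

theorem fa_w (s : F ≃+* F) : fa m s (w F m) = w F m := Subtype.ext (map_W m s)

theorem fa_comp (s s' : F ≃+* F) (g : Sg F m) : fa m (s * s') g = fa m s (fa m s' g) := by
  refine Sg_induction m (P := fun g => fa m (s * s') g = fa m s (fa m s' g)) ?_ ?_ ?_ ?_ g
  · intro a b; rw [fa_t, fa_t, fa_t]; rfl
  · intro k; rw [fa_dd, fa_dd, fa_dd]; rfl
  · rw [fa_w, fa_w, fa_w]
  · intro x y hx hy
    rw [map_mul, hx, hy, map_mul, map_mul]

theorem fa_one (g : Sg F m) : fa m (1 : F ≃+* F) g = g := by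
  refine Sg_induction m (P := fun g => fa m (1 : F ≃+* F) g = g) ?_ ?_ ?_ ?_ g
  · intro a b; rw [fa_t]; rfl
  · intro k; rw [fa_dd]; congr 1
  · rw [fa_w]
  · intro x y hx hy
    rw [map_mul, hx, hy]

variable (F) in
/-- field automorphisms as a homomorphism -/
noncomputable def faHom : (F ≃+* F) →* MulAut (Sg F m) where
  toFun s :=
    { toFun := fa m s
      invFun := fa m s⁻¹
      left_inv := fun g => by rw [← fa_comp, inv_mul_cancel, fa_one]
      right_inv := fun g => by rw [← fa_comp, mul_inv_cancel, fa_one]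
      map_mul' := map_mul _ }
  map_one' := MulEquiv.ext (fa_one m)
  map_mul' := fun s s' => MulEquiv.ext (fa_comp m s s')

theorem faHom_apply (s : F ≃+* F) (g : Sg F m) : faHom F m s g = fa m s g := rfl

/-- an automorphism normalising `U` and the opposite point, trivial on `U`, is trivial -/
theorem aut_eq_one {α : MulAut (Sg F m)} (hU : ∀ a b : F, α (t m a b) = t m a b)
    (hw : α (w F m) • oinf F m = op m (0 : F) 0) : α = 1 := by
  -- α stabilises B
  have hB : ∀ g ∈ BB F m, α g ∈ BB F m := by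
    intro g hg
    rw [mem_BB]
    have h1 : t m (1 : F) 0 ≠ 1 := by
      rw [← t_zero m]; intro h; exact one_ne_zero (t_inj m h).1
    apply fix_t m h1
    have h2 := BB_normal_UU m (inv_mem hg) (t_mem_UU m (1 : F) 0)
    obtain ⟨c, d, hcd⟩ := h2
    have h3 : t m (1 : F) 0 = α g * t m c d * (α g)⁻¹ := by
      rw [← hU c d, ← map_inv, ← map_mul, ← map_mul, ← hcd, inv_inv]
      rw [show g * (g⁻¹ * t m (1 : F) 0 * g) * g⁻¹ = t m 1 0 by group, hU]
    rw [← mul_smul]
    have h4 : t m (1 : F) 0 * α g = α g * t m c d := by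
      rw [h3]; group
    rw [h4, mul_smul, t_oinf]
  -- the induced map on points is trivial
  have hpt : ∀ g : Sg F m, α g • oinf F m = g • oinf F m := by
    intro g
    rcases bruhat m g with h | ⟨a, b, k, c, d, rfl⟩
    · rw [(mem_BB m).mp h, (mem_BB m).mp (hB g h)]
    · have h1 : t m a b * w F m * dd m k * t m c d = t m a b * (w F m * (dd m k * t m c d)) := by
        simp only [mul_assoc]
      rw [h1, map_mul, map_mul, hU, mul_smul, mul_smul, mul_smul, mul_smul]
      have h2 : dd m k * t m c d ∈ BB F m := by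
        rw [mem_BB, mul_smul, t_oinf, dd_oinf]
      rw [(mem_BB m).mp h2, (mem_BB m).mp (hB _ h2), hw, w_oinf]
  ext g : 1
  apply ext_points m
  intro p
  obtain ⟨x, rfl⟩ := exists_to_inf m p
  rw [MulAut.one_apply, ← mul_smul g x, ← hpt (g * x), map_mul, mul_smul, hpt x]

theorem aut_step7 {ε : MulAut (Sg F m)} (hD : ∀ k : Fˣ, ε (dd m k) = dd m k)
    (h1 : ∀ a : F, ∃ h : F, ε (t m a 0) = t m a h) (h0 : ∀ b : F, ∃ e : F, ε (t m 0 b) = t m 0 e)
    (hw : ε (w F m) • oinf F m = op m (0 : F) 0) : ε = 1 := by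
  choose h hh using h1
  choose e he using h0
  have hconj : ∀ (k : Fˣ) (x : Sg F m), ε (dd m k * x * (dd m k)⁻¹) = dd m k * ε x * (dd m k)⁻¹ := by
    intro k x
    rw [map_mul, map_mul, map_inv, hD]
  have he1 : ∀ l : F, e l = l * e 1 := by
    intro l
    by_cases hl : l = 0
    · subst hl
      have h2 := he 0
      rw [t_zero, map_one, ← t_zero m] at h2
      rw [zero_mul]; exact (t_inj m h2).2.symm
    · obtain ⟨k, hk⟩ := (norm_bijective (F := F) m).2 l
      simp only at hk
      have hk0 : k ≠ 0 := by rintro rfl; apply hl; rw [← hk]; simp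
      have h2 := hconj (Units.mk0 k hk0) (t m 0 1)
      rw [dd_t_conj, he, dd_t_conj, Units.val_mk0, hk, mul_one, mul_zero, he] at h2
      exact (t_inj m h2).2
  have hh1 : ∀ l : F, h l = l * th F m l * h 1 := by
    intro l
    by_cases hl : l = 0
    · subst hl
      have h2 := hh 0
      rw [t_zero, map_one, ← t_zero m] at h2
      rw [zero_mul, zero_mul]; exact (t_inj m h2).2.symm
    · have h2 := hconj (Units.mk0 l hl) (t m 1 0)
      rw [dd_t_conj, hh, dd_t_conj, Units.val_mk0, mul_one, mul_zero, hh] at h2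
      exact (t_inj m h2).2
  have hkey : ∀ a : F, a = (a + th F m a) * h 1 + a * e 1 := by
    intro a
    have h2 : t m (1 : F) 0 * t m a 0 = t m (1 + a) 0 * t m 0 a := by
      rw [t_mul, t_mul]; congr 1 <;> simp
    have h3 := congrArg ε h2
    rw [map_mul, map_mul, hh, hh, hh, he, t_mul, t_mul] at h3
    have h4 := (t_inj m h3).2
    rw [hh1 a, hh1 (1 + a), he1 a, map_add, map_one] at h4
    linear_combination h4
  have he2 : e 1 = 1 := by
    have h2 := hkey 1
    rw [map_one, add_self' m, zero_mul, zero_add, one_mul] at h2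
    exact h2.symm
  have hh2 : h 1 = 0 := by
    obtain ⟨c, hc⟩ := exists_th_ne (F := F) m
    have h2 := hkey c
    rw [he2, mul_one] at h2
    have h3 : (c + th F m c) * h 1 = 0 := by linear_combination -h2
    exact (mul_eq_zero.mp h3).resolve_left hc
  apply aut_eq_one m _ hw
  intro a b
  have h2 : t m a b = t m a 0 * t m 0 b := by rw [t_mul]; simp
  rw [h2, map_mul, hh, he, hh1, he1, hh2, he2, mul_zero, mul_one]

theorem map_UU_eq {β : MulAut (Sg F m)} (h : ∀ u ∈ UU F m, β u ∈ UU F m) :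
    ∀ u, β u ∈ UU F m ↔ u ∈ UU F m := by
  have h1 : (UU F m).map β.toMonoidHom = UU F m := by
    apply Subgroup.eq_of_le_of_card_ge
    · rintro _ ⟨u, hu, rfl⟩; exact h u hu
    · exact (Nat.card_congr ((UU F m).equivMapOfInjective β.toMonoidHom β.injective).toEquiv).le
  intro u
  constructor
  · intro hu
    rw [← h1] at hu
    obtain ⟨v, hv, hvu⟩ := hu
    rw [← β.injective hvu]; exact hv
  · exact h u

theorem map_BB_iff {β : MulAut (Sg F m)} (h : ∀ u ∈ UU F m, β u ∈ UU F m) (g : Sg F m) :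
    β g ∈ BB F m ↔ g ∈ BB F m := by
  have h1 := map_UU_eq m h
  rw [← normalizer_UU, Subgroup.mem_normalizer_iff, Subgroup.mem_normalizer_iff]
  constructor
  · intro h2 u
    have h3 := h2 (β u)
    rw [← map_mul, ← map_inv, ← map_mul, h1, h1] at h3
    exact h3
  · intro h2 u
    obtain ⟨v, rfl⟩ := β.surjective u
    rw [← map_mul, ← map_inv, ← map_mul, h1, h1]
    exact h2 v

theorem dd_conj_inv (c : Fˣ) (x : Sg F m) :
    (dd m c)⁻¹ * x * dd m c = dd m c⁻¹ * x * (dd m c⁻¹)⁻¹ := by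
  rw [← dd_inv, inv_inv]

theorem aut_form (α : MulAut (Sg F m)) :
    ∃ (g : Sg F m) (s : F ≃+* F), α = MulAut.conj g * faHom F m s := by
  have hfact : Fact (Nat.Prime 2) := ⟨Nat.prime_two⟩
  -- step 1
  obtain ⟨x, hx⟩ : ∃ x : Sg F m, ∀ u ∈ UU F m, x⁻¹ * α u * x ∈ UU F m := by
    obtain ⟨Q, hQ⟩ := exists_sylow_UU (F := F) m
    let S : Sylow 2 (Sg F m) := Q.mapSurjective (f := α.toMonoidHom) α.surjective
    have hS' : (S : Subgroup (Sg F m)) = (UU F m).map α.toMonoidHom := by
      rw [← hQ]; rfl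
    obtain ⟨x, hx⟩ := sylow_eq m S
    refine ⟨x, fun u hu => (hx _).mp ?_⟩
    rw [hS']
    exact ⟨u, hu, rfl⟩
  let β : MulAut (Sg F m) := MulAut.conj x⁻¹ * α
  have hβ : ∀ g, β g = x⁻¹ * α g * x := by
    intro g
    show x⁻¹ * α g * x⁻¹⁻¹ = _
    rw [inv_inv]
  have hβU : ∀ u ∈ UU F m, β u ∈ UU F m := fun u hu => by rw [hβ]; exact hx u hu
  -- step 3
  obtain ⟨a, b, hab⟩ : ∃ a b : F, β (w F m) • oinf F m = op m a b := by
    rcases Om_cases m (β (w F m) • oinf F m) with h | h
    · exfalso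
      have h1 : β (w F m) ∈ BB F m := h
      rw [map_BB_iff m hβU, mem_BB, w_oinf] at h1
      exact op_ne_oinf m _ _ h1
    · exact h
  let γ : MulAut (Sg F m) := MulAut.conj (t m a b)⁻¹ * β
  have hγ : ∀ g, γ g = (t m a b)⁻¹ * β g * t m a b := by
    intro g
    show (t m a b)⁻¹ * β g * (t m a b)⁻¹⁻¹ = _
    rw [inv_inv]
  have hγU : ∀ u ∈ UU F m, γ u ∈ UU F m := fun u hu => by
    rw [hγ]
    exact mul_mem (mul_mem (inv_mem (t_mem_UU m a b)) (hβU u hu)) (t_mem_UU m a b)
  have hγw : γ (w F m) • oinf F m = op m (0 : F) 0 := by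
    rw [hγ, mul_smul, mul_smul, t_oinf, hab, inv_smul_eq_iff, t_op]; simp
  -- step 4
  have hγD : ∀ k : Fˣ, ∃ l : Fˣ, γ (dd m k) = dd m l := by
    intro k
    have hB : ∀ k : Fˣ, γ (dd m k) ∈ BB F m := fun k => by
      rw [map_BB_iff m hγU]; exact dd_oinf m k
    apply exists_dd m (hB k)
    rw [← hγw, ← mul_smul, ← map_mul, show dd m k * w F m = w F m * dd m k⁻¹ by
      rw [w_dd, inv_inv], map_mul, mul_smul, (mem_BB m).mp (hB k⁻¹)]
  choose σ hσ using hγD
  -- step 5
  have hγ1 : ∀ a : F, ∃ f h : F, γ (t m a 0) = t m f h := fun a => by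
    obtain ⟨f, h, hh⟩ := hγU _ (t_mem_UU m a 0)
    exact ⟨f, h, hh⟩
  choose f h hf using hγ1
  have hγ0 : ∀ b : F, ∃ e : F, γ (t m 0 b) = t m 0 e := by
    intro b
    apply mem_ZU_of_sq m (hγU _ (t_mem_UU m 0 b))
    rw [← map_pow, sq, t_sq]; simp [t_zero]
  have hconj : ∀ (k : Fˣ) (a : F), f ((k : F) * a) = (σ k : F) * f a := by
    intro k a
    have h1 : γ (dd m k * t m a 0 * (dd m k)⁻¹) = dd m (σ k) * γ (t m a 0) * (dd m (σ k))⁻¹ := by
      rw [map_mul, map_mul, map_inv, hσ]
    rw [dd_t_conj, hf, dd_t_conj, mul_zero, hf] at h1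
    exact (t_inj m h1).1
  have hadd : ∀ a a' : F, f (a + a') = f a + f a' := by
    intro a a'
    have h1 : t m a 0 * t m a' 0 = t m (a + a') 0 * t m 0 (th F m a * a') := by
      rw [t_mul, t_mul]; congr 1 <;> simp
    have h2 := congrArg γ h1
    obtain ⟨e, he⟩ := hγ0 (th F m a * a')
    rw [map_mul, map_mul, hf, hf, hf, he, t_mul, t_mul] at h2
    have h3 := (t_inj m h2).1
    rw [add_zero] at h3
    exact h3.symm
  have hc : f 1 ≠ 0 := by
    intro hc
    have h1 := hf 1
    rw [hc] at h1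
    have h2 : γ (t m 1 0 * t m 1 0) = 1 := by
      rw [map_mul, h1, t_sq]; simp [t_zero]
    rw [t_sq, map_one, mul_one] at h2
    have h3 : t m (0 : F) 1 = t m 0 0 := by
      rw [t_zero]; exact γ.injective (h2.trans (map_one γ).symm)
    exact one_ne_zero (t_inj m h3).2
  have hfk : ∀ k : Fˣ, f k = (σ k : F) * f 1 := by
    intro k
    have := hconj k 1
    rwa [mul_one] at this
  have hf0 : f 0 = 0 := by
    have := hadd 0 0
    rw [add_zero] at this
    have h2 := add_self' m (f 0)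
    rw [this, h2]
  have hσ1 : ∀ k l : Fˣ, σ (k * l) = σ k * σ l := by
    intro k l
    apply dd_inj m
    rw [← hσ, dd_mul, map_mul, hσ, hσ, dd_mul]
  let s0 : F →+* F :=
    { toFun := fun a => f a / f 1
      map_one' := div_self hc
      map_mul' := by
        intro a b
        by_cases ha : a = 0
        · rw [ha, zero_mul, hf0, zero_div, zero_mul]
        by_cases hb : b = 0
        · rw [hb, mul_zero, hf0, zero_div, mul_zero]
        have h1 := hfk (Units.mk0 a ha)
        have h2 := hfk (Units.mk0 b hb)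
        have h3 := hfk (Units.mk0 a ha * Units.mk0 b hb)
        rw [hσ1] at h3
        rw [Units.val_mk0] at h1 h2
        rw [Units.val_mul, Units.val_mul, Units.val_mk0, Units.val_mk0] at h3
        rw [h1, h2, h3]
        field_simp
      map_zero' := by rw [hf0, zero_div]
      map_add' := by
        intro a b
        rw [hadd, add_div] }
  have hs0 : ∀ a, s0 a = f a / f 1 := fun _ => rfl
  let s : F ≃+* F := RingEquiv.ofBijective s0
    (Finite.injective_iff_bijective.mp s0.injective)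
  have hs : ∀ a, s a = f a / f 1 := fun _ => rfl
  have hsσ : ∀ k : Fˣ, Units.map s.toMonoidHom k = σ k := by
    intro k
    apply Units.ext
    show s (k : F) = σ k
    rw [hs, hfk]
    field_simp
  -- step 6
  let c : Fˣ := Units.mk0 (f 1) hc
  let ε : MulAut (Sg F m) := MulAut.conj (dd m c)⁻¹ * γ * (faHom F m s)⁻¹
  have hε : ∀ g, ε (fa m s g) = (dd m c)⁻¹ * γ g * dd m c := by
    intro g
    have h1 : (faHom F m s)⁻¹ (fa m s g) = g := by
      rw [← faHom_apply, ← MulAut.mul_apply, inv_mul_cancel, MulAut.one_apply]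
    show (dd m c)⁻¹ * γ ((faHom F m s)⁻¹ (fa m s g)) * (dd m c)⁻¹⁻¹ = _
    rw [inv_inv, h1]
  have hε1 : ε = 1 := by
    apply aut_step7
    · intro k
      obtain ⟨l, hl⟩ : ∃ l : Fˣ, Units.map s.toMonoidHom l = k := by
        refine ⟨Units.map s.symm.toMonoidHom k, Units.ext ?_⟩
        exact s.apply_symm_apply k
      rw [← hl, ← fa_dd, hε, hσ, fa_dd, hsσ, dd_inv, ← dd_mul, ← dd_mul]
      congr 1
      rw [mul_comm, mul_inv_cancel_left]
    · intro a
      obtain ⟨a', ha'⟩ := s.surjective a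
      have h1 : t m a 0 = fa m s (t m a' 0) := by rw [fa_t, ha', map_zero]
      rw [h1, hε, hf, dd_conj_inv, dd_t_conj]
      have h2 : ((c⁻¹ : Fˣ) : F) * f a' = a := by
        rw [← ha', hs, Units.val_inv_eq_inv_val, Units.val_mk0]
        field_simp
      rw [h2]
      exact ⟨_, rfl⟩
    · intro b
      obtain ⟨b', hb'⟩ := s.surjective b
      obtain ⟨e, he⟩ := hγ0 b'
      have h1 : t m 0 b = fa m s (t m 0 b') := by rw [fa_t, hb', map_zero]
      rw [h1, hε, he]
      rw [dd_conj_inv, dd_t_conj, mul_zero]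
      exact ⟨_, rfl⟩
    · have h1 : w F m = fa m s (w F m) := (fa_w m s).symm
      rw [h1, hε, mul_smul, mul_smul, dd_oinf, hγw, dd_inv, dd_op]; simp
  -- conclusion
  refine ⟨x * t m a b * dd m c, s, ?_⟩
  have h1 : MulAut.conj (dd m c)⁻¹ * γ = faHom F m s := mul_inv_eq_one.mp hε1
  rw [← h1]
  show α = MulAut.conj (x * t m a b * dd m c) * (MulAut.conj (dd m c)⁻¹ *
    (MulAut.conj (t m a b)⁻¹ * (MulAut.conj x⁻¹ * α)))
  rw [← mul_assoc, ← mul_assoc, ← mul_assoc, ← map_mul, ← map_mul, ← map_mul]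
  rw [show x * t m a b * dd m c * (dd m c)⁻¹ * (t m a b)⁻¹ * x⁻¹ = 1 by group, map_one, one_mul]

end

end Cfsg.Agent.H15.Suz
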