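import Mathlib
import Cfsg.Agent.H15.SzPart

/-! # Suzuki groups: 2-generation -/

set_option autoImplicit false

open scoped Pointwise commutatorElement

namespace Cfsg.Agent.H15.Suz

section

variable {F : Type*} [Field F] [Fintype F] (m : ℕ) [hS : SzF F m]

/-- the set of first coordinates of a subgroup -/
theorem full_of_coord {H : Subgroup (Sg F m)} (h : ∀ a : F, ∃ b, t m a b ∈ H) : UU F m ≤ H := by
  have h0 : ∀ c : F, t m 0 c ∈ H := by
    intro c
    obtain ⟨x, y, x', y', hc⟩ := exists_comm_eq m c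
    obtain ⟨z, hz⟩ := h x
    obtain ⟨z', hz'⟩ := h x'
    have h1 : t m 0 c = ⁅t m x z, t m x' z'⁆ := by rw [hc, comm_t, comm_t]
    rw [h1, commutatorElement_def]
    exact H.mul_mem (H.mul_mem (H.mul_mem hz hz') (H.inv_mem hz)) (H.inv_mem hz')
  rintro _ ⟨a, b, rfl⟩
  obtain ⟨c, hc⟩ := h a
  have h2 : t m a b = t m a c * t m 0 (b - c) := by
    rw [t_mul]; simp
  rw [h2]
  exact H.mul_mem hc (h0 _)

theorem two_gen : ∃ a b : Sg F m, Subgroup.closure ({a, b} : Set (Sg F m)) = ⊤ := by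
  obtain ⟨k, hk⟩ := IsCyclic.exists_generator (α := Fˣ)
  have hk1 : k ≠ 1 := by
    rintro rfl
    obtain ⟨l, hl⟩ := exists_ne_one (F := F) m
    obtain ⟨n, hn⟩ := Subgroup.mem_zpowers_iff.mp (hk l)
    rw [one_zpow] at hn
    exact hl hn.symm
  refine ⟨dd m k, t m (1 : F) 0 * w F m, ?_⟩
  set H := Subgroup.closure ({dd m k, t m (1 : F) 0 * w F m} : Set (Sg F m)) with hH
  have hd : dd m k ∈ H := Subgroup.subset_closure (by simp)
  have hx : t m (1 : F) 0 * w F m ∈ H := Subgroup.subset_closure (by simp)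
  have hD : ∀ l : Fˣ, dd m l ∈ H := by
    intro l
    obtain ⟨n, hn⟩ := Subgroup.mem_zpowers_iff.mp (hk l)
    have : dd m l = (dd m k) ^ n := by
      rw [← hn]; exact map_zpow (ddHom m) k n
    rw [this]
    exact H.zpow_mem hd n
  -- conjugate torus
  have h1 : ∀ l : Fˣ, t m (1 : F) 0 * dd m l * (t m (1 : F) 0)⁻¹ ∈ H := by
    intro l
    have h2 : t m (1 : F) 0 * dd m l * (t m (1 : F) 0)⁻¹ =
        (t m (1 : F) 0 * w F m) * dd m l⁻¹ * (t m (1 : F) 0 * w F m)⁻¹ := by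
      rw [mul_inv_rev, w_inv, mul_assoc (t m (1 : F) 0) (w F m), w_dd, inv_inv]
      rw [show t m (1 : F) 0 * (dd m l * w F m) * (w F m * (t m 1 0)⁻¹) =
        t m (1 : F) 0 * dd m l * (w F m * w F m) * (t m (1 : F) 0)⁻¹ by group, w_sq, mul_one]
    rw [h2]
    exact H.mul_mem (H.mul_mem hx (hD _)) (H.inv_mem hx)
  -- first coordinates
  let A : AddSubgroup F :=
    { carrier := {a | ∃ b, t m a b ∈ H}
      add_mem' := by
        rintro a a' ⟨b, hb⟩ ⟨b', hb'⟩
        exact ⟨b + b' + th F m a * a', by rw [← t_mul]; exact H.mul_mem hb hb'⟩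
      zero_mem' := ⟨0, by rw [t_zero]; exact H.one_mem⟩
      neg_mem' := by
        rintro a ⟨b, hb⟩
        rw [Set.mem_ofPred_eq, neg_eq' m]
        exact ⟨b, hb⟩ }
  have hA : ∀ (l : Fˣ) (a : F), a ∈ A → (l : F) * a ∈ A := by
    rintro l a ⟨b, hb⟩
    refine ⟨(l : F) * th F m l * b, ?_⟩
    rw [← dd_t_conj]
    exact H.mul_mem (H.mul_mem (hD l) hb) (H.inv_mem (hD l))
  have hA1 : (1 : F) + k ∈ A := by
    have h2 := H.mul_mem (h1 k) (H.inv_mem (hD k))
    rw [t_dd_conj, mul_inv_cancel_right] at h2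
    refine ⟨k * th F m k * (0 + th F m 1 * 1) + th F m 1 * (k * 1), ?_⟩
    simpa using h2
  have hAtop : ∀ a : F, a ∈ A := by
    intro a
    by_cases ha : a = 0
    · rw [ha]; exact A.zero_mem
    · have h2 := one_add_ne_zero m hk1
      have h3 := hA (Units.mk0 (a / (1 + k)) (div_ne_zero ha h2)) _ hA1
      rw [Units.val_mk0, div_mul_cancel₀ _ h2] at h3
      exact h3
  have hU : UU F m ≤ H := full_of_coord m hAtop
  have hw : w F m ∈ H := by
    have h2 := H.mul_mem (H.inv_mem (hU (t_mem_UU m (1 : F) 0))) hx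
    rwa [inv_mul_cancel_left] at h2
  rw [eq_top_iff]
  intro g _
  exact Sg_induction m (P := fun g => g ∈ H) (fun a b => hU (t_mem_UU m a b)) hD hw
    (fun x y hx hy => H.mul_mem hx hy) g

end

end Cfsg.Agent.H15.Suz
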