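import Mathlib
import Cfsg.Prelude.Def_KGroupFacts
import Cfsg.Agent.H15.SzAut
import Cfsg.Agent.H15.SzLie

/-! # Suzuki groups: outer automorphism group -/

set_option autoImplicit false

open scoped Pointwise commutatorElement

namespace Cfsg.Agent.H15.Suz

universe u

theorem card_out_congr {G : Type u} {H : Type u} [Group G] [Group H] (e : G ≃* H) :
    Nat.card (Cfsg.Out G) = Nat.card (Cfsg.Out H) := by
  have h1 : (Cfsg.Inn G).map (MulAut.congr e).toMonoidHom = Cfsg.Inn H := by
    ext φ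
    constructor
    · rintro ⟨_, ⟨g, rfl⟩, rfl⟩
      refine ⟨e g, ?_⟩
      ext x
      show e g * x * (e g)⁻¹ = e (g * e.symm x * g⁻¹)
      simp
    · rintro ⟨h, rfl⟩
      refine ⟨MulAut.conj (e.symm h), ⟨_, rfl⟩, ?_⟩
      ext x
      show e (e.symm h * e.symm x * (e.symm h)⁻¹) = h * x * h⁻¹
      simp
  exact Nat.card_congr (QuotientGroup.congr (Cfsg.Inn G) (Cfsg.Inn H) (MulAut.congr e) h1).toEquiv

section

variable {F : Type*} [Field F] [Fintype F] (m : ℕ) [hS : SzF F m]

include hS in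
theorem card_ringAut : Nat.card (F ≃+* F) = 2 * m + 1 := by
  have := charTwo F m
  have hfact : Fact (Nat.Prime 2) := ⟨Nat.prime_two⟩
  let := ZMod.algebra F 2
  have h2 : Module.finrank (ZMod 2) F = 2 * m + 1 := by
    have := FiniteField.pow_finrank_eq_card 2 F
    rw [hS.card] at this
    exact Nat.pow_right_injective le_rfl this
  have h3 : Nat.card (F ≃ₐ[ZMod 2] F) = 2 * m + 1 := by
    rw [← h2]; exact IsGalois.card_aut_eq_finrank _ _
  rw [← h3]
  refine Nat.card_congr
    { toFun := fun s => AlgEquiv.ofRingEquiv (f := s) (fun r => by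
        have : s.toRingHom.comp (algebraMap (ZMod 2) F) = algebraMap (ZMod 2) F :=
          Subsingleton.elim _ _
        exact RingHom.congr_fun this r)
      invFun := fun s => s.toRingEquiv
      left_inv := fun s => by ext x; rfl
      right_inv := fun s => by ext x; rfl }

theorem fa_inner {s : F ≃+* F} {g : Sg F m} (h : faHom F m s = MulAut.conj g) : s = 1 := by
  have h1 : ∀ x, fa m s x = g * x * g⁻¹ := fun x => by
    rw [← faHom_apply, h]; rfl
  have hgB : g • oinf F m = oinf F m := by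
    have h2 := h1 (t m 1 0)
    rw [fa_t, map_one, map_zero] at h2
    have h3 : t m (1 : F) 0 ≠ 1 := by
      rw [← t_zero m]; intro h; exact one_ne_zero (t_inj m h).1
    apply fix_t m h3
    rw [h2, mul_smul, mul_smul, inv_smul_smul, t_oinf]
  have hg0 : g • op m (0 : F) 0 = op m (0 : F) 0 := by
    have h2 := h1 (w F m)
    rw [fa_w] at h2
    have h3 : w F m * g = g * w F m := by
      nth_rewrite 1 [h2]; group
    rw [← w_oinf, ← mul_smul, ← h3, mul_smul, hgB]
  obtain ⟨k, rfl⟩ := exists_dd m hgB hg0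
  have h4 : ∀ a : F, s a = k * a := by
    intro a
    have h2 := h1 (t m a 0)
    rw [fa_t, dd_t_conj] at h2
    exact (t_inj m h2).1
  have h5 := h4 1
  rw [map_one, mul_one] at h5
  ext a
  rw [h4, ← h5, one_mul]; rfl

theorem card_out : Nat.card (Cfsg.Out (Sg F m)) = 2 * m + 1 := by
  rw [← card_ringAut (F := F) m]
  symm
  refine Nat.card_congr (Equiv.ofBijective
    ((QuotientGroup.mk' (Cfsg.Inn (Sg F m))).comp (faHom F m)) ⟨?_, ?_⟩)
  · rw [injective_iff_map_eq_one]
    intro s hs
    have h1 : faHom F m s ∈ Cfsg.Inn (Sg F m) := (QuotientGroup.eq_one_iff _).mp hs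
    obtain ⟨g, hg⟩ := h1
    exact fa_inner m hg.symm
  · intro x
    obtain ⟨α, rfl⟩ := QuotientGroup.mk'_surjective _ x
    obtain ⟨g, s, h⟩ := aut_form m α
    refine ⟨s, ?_⟩
    show QuotientGroup.mk' _ (faHom F m s) = QuotientGroup.mk' _ α
    rw [h, map_mul]
    have h1 : QuotientGroup.mk' (Cfsg.Inn (Sg F m)) (MulAut.conj g) = 1 :=
      (QuotientGroup.eq_one_iff _).mpr ⟨g, rfl⟩
    rw [h1, one_mul]

theorem card_out_lie : Nat.card (Cfsg.Out ↥(Cfsg.Lie.Sz F (2 ^ (m + 1)))) = 2 * m + 1 := by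
  rw [← card_out_congr (lieEquiv F m), card_out]

end

end Cfsg.Agent.H15.Suz
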