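import Mathlib
import Cfsg.Agent.H15.SzMain
import Cfsg.Agent.H15.SzE
import Cfsg.Agent.H15.SchurTr

/-! # Suzuki groups: double covers -/

set_option autoImplicit false

namespace Cfsg.Agent.H15.Suz

open Cfsg Cfsg.Agent.H15.SchurTr

variable {F : Type*} [Field F] [Fintype F] {m : ℕ} [hS : SzF F m]

/-- first coordinate -/
def ca (g : Sg F m) : F := (g.1 : Matrix (Fin 4) (Fin 4) F) 0 1
/-- second coordinate -/
def cb (g : Sg F m) : F := (g.1 : Matrix (Fin 4) (Fin 4) F) 1 3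

theorem ca_t (a b : F) : ca (t m a b) = a := by unfold ca; rw [t_mat]; rfl
theorem cb_t (a b : F) : cb (t m a b) = b := by unfold cb; rw [t_mat]; rfl

/-- a central extension with kernel of order two -/
structure Dbl {E : Type*} [Group E] (σ : E →* Sg F m) (z : E) : Prop where
  surj : Function.Surjective σ
  ne : z ≠ 1
  sq : z * z = 1
  cent : ∀ x, x * z = z * x
  ker : ∀ x, σ x = 1 ↔ x = 1 ∨ x = z

variable {E : Type*} [Group E] {σ : E →* Sg F m} {z : E}

/-- preimage of the centre -/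
noncomputable def Zh (σ : E →* Sg F m) : Subgroup E := (ZU F m).comap σ
/-- preimage of the Sylow subgroup -/
noncomputable def Uh (σ : E →* Sg F m) : Subgroup E := (UU F m).comap σ


theorem mem_Zh' {x : E} : x ∈ Zh σ ↔ ∃ b : F, σ x = t m 0 b := Iff.rfl

theorem mem_Uh' {x : E} : x ∈ Uh σ ↔ ∃ a b : F, σ x = t m a b := Iff.rfl


theorem Zh_le_Uh : Zh σ ≤ Uh σ := by
  rintro x ⟨b, h⟩
  exact ⟨0, b, h⟩

namespace Dbl

variable (h : Dbl σ z)

include h

theorem z_mem : σ z = 1 := (h.ker z).mpr (Or.inr rfl)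

theorem eq_or {x y : E} (hxy : σ x = σ y) : x = y ∨ x = y * z := by
  have h1 : σ (y⁻¹ * x) = 1 := by rw [map_mul, map_inv, hxy, inv_mul_cancel]
  rcases (h.ker _).mp h1 with h2 | h2
  · left; exact (inv_mul_eq_one.mp h2).symm
  · right; rw [← h2]; group

theorem conj_mem_Zh {g x : E} {k : Fˣ} (hg : σ g = dd m k) (hx : x ∈ Zh σ) :
    g * x * g⁻¹ ∈ Zh σ := by
  obtain ⟨b, hb⟩ := hx
  refine ⟨(k : F) * th F m k * b, ?_⟩
  rw [map_mul, map_mul, map_inv, hg, hb, dd_t_conj, mul_zero]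

theorem conj_mem_Uh {g x : E} {k : Fˣ} (hg : σ g = dd m k) (hx : x ∈ Uh σ) :
    g * x * g⁻¹ ∈ Uh σ := by
  obtain ⟨a, b, hb⟩ := hx
  refine ⟨(k : F) * a, (k : F) * th F m k * b, ?_⟩
  rw [map_mul, map_mul, map_inv, hg, hb, dd_t_conj]

/-- the preimage of the centre is elementary abelian -/
theorem sq_Zh : ∀ x ∈ Zh σ, x * x = 1 := by
  have key := quad (E := E) (F := F) (eight_le_q (F := F) m) (add_self' m) (Zh σ) σ.ker ⊥
    (fun x hx => ⟨0, by rw [t_zero]; exact hx⟩) bot_le (fun x => cb (σ x)) ?_ ?_ ?_ ?_ ?_ ?_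
  · intro x hx
    exact Subgroup.mem_bot.mp (key x hx)
  · intro b
    obtain ⟨x, hx⟩ := h.surj (t m 0 b)
    exact ⟨x, ⟨b, hx⟩, by show cb (σ x) = b; rw [hx, cb_t]⟩
  · rintro x ⟨b, hb⟩ y ⟨c, hc⟩
    show cb (σ (x * y)) = cb (σ x) + cb (σ y)
    rw [map_mul, hb, hc, t_mul, cb_t, cb_t, cb_t]
    simp
  · rintro x ⟨b, hb⟩
    show cb (σ x) = 0 ↔ σ x = 1
    rw [hb, cb_t]
    constructor
    · rintro rfl; exact t_zero m
    · intro h1
      rw [← t_zero] at h1
      exact (t_inj m h1).2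
  · intro k hk x _
    rcases (h.ker k).mp hk with rfl | rfl
    · rw [one_mul, mul_one]
    · exact (h.cent x).symm
  · intro k hk l hl hk1 hl1
    rcases (h.ker k).mp hk with rfl | rfl
    · exact absurd (Subgroup.mem_bot.mpr rfl) hk1
    · rcases (h.ker l).mp hl with rfl | rfl
      · exact absurd (Subgroup.mem_bot.mpr rfl) hl1
      · exact Subgroup.mem_bot.mpr h.sq
  · intro a b ha hb
    obtain ⟨k, hk⟩ := (norm_bijective (F := F) m).2 (b / a)
    have hk' : k * th F m k = b / a := hk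
    have hk0 : k ≠ 0 := by
      rintro rfl
      rw [zero_mul] at hk'
      exact (div_ne_zero hb ha) hk'.symm
    obtain ⟨g, hg⟩ := h.surj (dd m (Units.mk0 k hk0))
    refine ⟨g, fun x hx hxa => ⟨h.conj_mem_Zh hg hx, ?_⟩, ?_⟩
    · obtain ⟨c, hc⟩ := hx
      have hxa' : cb (σ x) = a := hxa
      show cb (σ (g * x * g⁻¹)) = b
      rw [hc, cb_t] at hxa'
      rw [map_mul, map_mul, map_inv, hg, hc, dd_t_conj, cb_t, Units.val_mk0, hk', hxa',
        div_mul_cancel₀ _ ha]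
    · intro k hk
      rw [Subgroup.mem_bot] at hk ⊢
      rw [hk]; group

theorem comm_Zh {x y : E} (hx : x ∈ Zh σ) (hy : y ∈ Zh σ) : x * y = y * x := by
  have h1 := h.sq_Zh _ hx
  have h2 := h.sq_Zh _ hy
  have h3 := h.sq_Zh _ ((Zh σ).mul_mem hx hy)
  have e1 : y⁻¹ = y := inv_eq_of_mul_eq_one_right h2
  have e2 : x⁻¹ = x := inv_eq_of_mul_eq_one_right h1
  have e3 : (x * y)⁻¹ = x * y := inv_eq_of_mul_eq_one_right h3
  rw [mul_inv_rev, e1, e2] at e3
  exact e3.symm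

/-- commutators are central involutions -/
theorem comm_cases {x y : E} (hx : x ∈ Uh σ) (hy : y ∈ Zh σ) :
    x * y * x⁻¹ * y⁻¹ = 1 ∨ x * y * x⁻¹ * y⁻¹ = z := by
  apply (h.ker _).mp
  obtain ⟨a, b, hab⟩ := hx
  obtain ⟨c, hc⟩ := hy
  rw [map_mul, map_mul, map_mul, map_inv, map_inv, hab, hc, t_conj, t_inv, t_mul, ← t_zero m]
  simp [add_self' m]

theorem comm_central {x y : E} (hx : x ∈ Uh σ) (hy : y ∈ Zh σ) (g : E) :
    g * (x * y * x⁻¹ * y⁻¹) = (x * y * x⁻¹ * y⁻¹) * g := by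
  rcases h.comm_cases hx hy with h1 | h1
  · rw [h1, one_mul, mul_one]
  · rw [h1, h.cent]

theorem comm_mul_left {x x' y : E} (hx' : x' ∈ Uh σ) (hy : y ∈ Zh σ) :
    (x * x') * y * (x * x')⁻¹ * y⁻¹ = (x * y * x⁻¹ * y⁻¹) * (x' * y * x'⁻¹ * y⁻¹) := by
  have h1 := h.comm_central hx' hy x
  calc (x * x') * y * (x * x')⁻¹ * y⁻¹ = (x * (x' * y * x'⁻¹ * y⁻¹)) * y * x⁻¹ * y⁻¹ := by group
    _ = (x' * y * x'⁻¹ * y⁻¹) * (x * y * x⁻¹ * y⁻¹) := by rw [h1]; group
    _ = _ := (h.comm_central hx' hy _).symm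

theorem comm_mul_right {x y y' : E} (hx : x ∈ Uh σ) (hy' : y' ∈ Zh σ) :
    x * (y * y') * x⁻¹ * (y * y')⁻¹ = (x * y * x⁻¹ * y⁻¹) * (x * y' * x⁻¹ * y'⁻¹) := by
  have h1 := h.comm_central hx hy' y
  calc x * (y * y') * x⁻¹ * (y * y')⁻¹ = x * y * x⁻¹ * ((x * y' * x⁻¹ * y'⁻¹) * y⁻¹) := by group
    _ = x * y * x⁻¹ * (y⁻¹ * (x * y' * x⁻¹ * y'⁻¹)) := by rw [h.comm_central hx hy' y⁻¹]
    _ = _ := by group

/-- the commutator depends only on coordinates -/
theorem comm_dep {x x' y y' : E} (hx : x ∈ Uh σ) (hx' : x' ∈ Uh σ) (hy : y ∈ Zh σ)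
    (h1 : ca (σ x) = ca (σ x')) (h2 : σ y = σ y') :
    x * y * x⁻¹ * y⁻¹ = x' * y' * x'⁻¹ * y'⁻¹ := by
  have hu : x'⁻¹ * x ∈ Zh σ := by
    obtain ⟨a, b, hab⟩ := hx
    obtain ⟨a', b', hab'⟩ := hx'
    rw [hab, hab', ca_t, ca_t] at h1
    subst h1
    refine ⟨b' + th F m a * a + b + th F m a * a, ?_⟩
    rw [map_mul, map_inv, hab, hab', t_inv, t_mul, add_self' m]
  have h3 : x * y * x⁻¹ * y⁻¹ = x' * y * x'⁻¹ * y⁻¹ := by
    have h4 := h.comm_mul_left (x := x') (x' := x'⁻¹ * x) (Zh_le_Uh hu) hy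
    rw [mul_inv_cancel_left] at h4
    rw [h4]
    have h5 := h.comm_Zh hu hy
    rw [h5]
    group
  rw [h3]
  rcases h.eq_or h2 with h4 | h4
  · rw [h4]
  · rw [h4]
    have h5 := h.cent
    calc x' * (y' * z) * x'⁻¹ * (y' * z)⁻¹ = x' * (y' * z) * x'⁻¹ * z⁻¹ * y'⁻¹ := by group
      _ = x' * (z * y') * x'⁻¹ * z⁻¹ * y'⁻¹ := by rw [h5]
      _ = (x' * z) * y' * x'⁻¹ * z⁻¹ * y'⁻¹ := by group
      _ = z * (x' * y' * x'⁻¹) * z⁻¹ * y'⁻¹ := by rw [h5]; group
      _ = (x' * y' * x'⁻¹) * z * z⁻¹ * y'⁻¹ := by rw [← h5]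
      _ = _ := by group

omit h in
/-- polynomial argument -/
theorem exists_good (hm : 2 ≤ m) : ∃ x : F, x ≠ 0 ∧ x + 1 ≠ 0 ∧
    x * th F m x + (x + 1) * (th F m x + 1) + x * th F m x * ((x + 1) * (th F m x + 1)) ≠ 0 := by
  classical
  set r := 2 ^ (m + 1) with hr
  have hr1 : 8 ≤ r := by
    rw [hr]
    calc 8 = 2 ^ 3 := by norm_num
      _ ≤ 2 ^ (m + 1) := Nat.pow_le_pow_right (by norm_num) (by omega)
  have hq : r ^ 2 = 2 * Fintype.card F := r_sq m
  have hq2 : 2 * r + 4 < Fintype.card F := by nlinarith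
  open Polynomial in
  let P : F[X] := X * X ^ r + (X + C 1) * (X ^ r + C 1) + X * X ^ r * ((X + C 1) * (X ^ r + C 1))
  open Polynomial in
  let Q : F[X] := P * (X * (X + C 1))
  have hP : P ≠ 0 := by
    intro h0
    have h1 := congrArg (Polynomial.eval 0) h0
    simp only [P, Polynomial.eval_add, Polynomial.eval_mul, Polynomial.eval_pow, Polynomial.eval_X,
      Polynomial.eval_C, Polynomial.eval_zero] at h1
    rw [zero_pow (by omega)] at h1
    simp at h1
  have hX1 : (Polynomial.X + Polynomial.C 1 : Polynomial F) ≠ 0 := Polynomial.X_add_C_ne_zero 1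
  have hQ : Q ≠ 0 := mul_ne_zero hP (mul_ne_zero Polynomial.X_ne_zero hX1)
  have e1 : (Polynomial.X + Polynomial.C 1 : Polynomial F).natDegree ≤ 1 :=
    (Polynomial.natDegree_X_add_C 1).le
  have e2 : (Polynomial.X ^ r + Polynomial.C 1 : Polynomial F).natDegree ≤ r := by
    refine (Polynomial.natDegree_add_le _ _).trans ?_
    rw [Polynomial.natDegree_X_pow, Polynomial.natDegree_C]
    simp
  have e3 : ((Polynomial.X + Polynomial.C 1) * (Polynomial.X ^ r + Polynomial.C 1) :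
      Polynomial F).natDegree ≤ 1 + r := Polynomial.natDegree_mul_le.trans (by omega)
  have e4 : (Polynomial.X * Polynomial.X ^ r : Polynomial F).natDegree ≤ 1 + r := by
    refine Polynomial.natDegree_mul_le.trans ?_
    rw [Polynomial.natDegree_X, Polynomial.natDegree_X_pow]
  have e5 : P.natDegree ≤ 2 * r + 2 := by
    refine (Polynomial.natDegree_add_le _ _).trans (max_le ?_ ?_)
    · refine (Polynomial.natDegree_add_le _ _).trans (max_le ?_ ?_) <;> omega
    · refine Polynomial.natDegree_mul_le.trans ?_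
      omega
  have e6 : Q.natDegree ≤ 2 * r + 4 := by
    refine Polynomial.natDegree_mul_le.trans ?_
    have e7 : (Polynomial.X * (Polynomial.X + Polynomial.C 1) : Polynomial F).natDegree ≤ 2 := by
      refine Polynomial.natDegree_mul_le.trans ?_
      rw [Polynomial.natDegree_X]
      omega
    omega
  have hcard : (Q.natDegree : Cardinal) < Cardinal.mk F := by
    rw [Cardinal.mk_fintype, Nat.cast_lt]
    omega
  obtain ⟨x, hx⟩ := Q.exists_eval_ne_zero_of_natDegree_lt_card hQ hcard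
  simp only [Q, P, Polynomial.eval_add, Polynomial.eval_mul, Polynomial.eval_pow, Polynomial.eval_X,
      Polynomial.eval_C] at hx
  have h1 := left_ne_zero_of_mul hx
  have h2 := right_ne_zero_of_mul hx
  refine ⟨x, left_ne_zero_of_mul h2, right_ne_zero_of_mul h2, ?_⟩
  rw [th_apply]
  exact h1

/-- the preimage of the centre is central -/
theorem central (hm : 2 ≤ m) {x y : E} (hx : x ∈ Uh σ) (hy : y ∈ Zh σ) : x * y = y * x := by
  choose X hX using fun a : F => h.surj (t m a 0)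
  choose Y hY using fun b : F => h.surj (t m 0 b)
  have hXm : ∀ a, X a ∈ Uh σ := fun a => ⟨a, 0, hX a⟩
  have hYm : ∀ b, Y b ∈ Zh σ := fun b => ⟨b, hY b⟩
  let cc : F → F → E := fun a b => X a * Y b * (X a)⁻¹ * (Y b)⁻¹
  have hdep : ∀ x ∈ Uh σ, ∀ y ∈ Zh σ, x * y * x⁻¹ * y⁻¹ = cc (ca (σ x)) (cb (σ y)) := by
    intro x hx y hy
    apply h.comm_dep hx (hXm _) hy
    · rw [hX, ca_t]
    · obtain ⟨b, hb⟩ := hy
      rw [hY, hb, cb_t]
  have hleft : ∀ a a' b, cc (a + a') b = cc a b * cc a' b := by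
    intro a a' b
    have h1 := h.comm_mul_left (x := X a) (hXm a') (hYm b)
    rw [hdep _ ((Uh σ).mul_mem (hXm a) (hXm a')) _ (hYm b), map_mul, hX, hX, hY, t_mul, ca_t,
      cb_t] at h1
    exact h1
  have hright : ∀ a b b', cc a (b + b') = cc a b * cc a b' := by
    intro a b b'
    have h1 := h.comm_mul_right (y := Y b) (hXm a) (hYm b')
    rw [hdep _ (hXm a) _ ((Zh σ).mul_mem (hYm b) (hYm b')), map_mul, hX, hY, hY, t_mul, ca_t,
      cb_t, map_zero, zero_mul, add_zero] at h1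
    exact h1
  have hsq : ∀ a b, cc a b * cc a b = 1 := by
    intro a b
    rcases h.comm_cases (hXm a) (hYm b) with h1 | h1
    · show (X a * Y b * (X a)⁻¹ * (Y b)⁻¹) * (X a * Y b * (X a)⁻¹ * (Y b)⁻¹) = 1
      rw [h1, one_mul]
    · show (X a * Y b * (X a)⁻¹ * (Y b)⁻¹) * (X a * Y b * (X a)⁻¹ * (Y b)⁻¹) = 1
      rw [h1, h.sq]
  have hinv : ∀ (k : Fˣ) a b, cc ((k : F) * a) ((k : F) * th F m k * b) = cc a b := by
    intro k a b
    obtain ⟨g, hg⟩ := h.surj (dd m k)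
    have h1 := hdep _ (h.conj_mem_Uh hg (hXm a)) _ (h.conj_mem_Zh hg (hYm b))
    have h2 : g * X a * g⁻¹ * (g * Y b * g⁻¹) * (g * X a * g⁻¹)⁻¹ * (g * Y b * g⁻¹)⁻¹ = cc a b := by
      have h3 := h.comm_central (hXm a) (hYm b) g
      calc g * X a * g⁻¹ * (g * Y b * g⁻¹) * (g * X a * g⁻¹)⁻¹ * (g * Y b * g⁻¹)⁻¹ =
          g * (X a * Y b * (X a)⁻¹ * (Y b)⁻¹) * g⁻¹ := by group
        _ = _ := by rw [h3, mul_inv_cancel_right]
    rw [h2, map_mul, map_mul, map_inv, hg, hX, dd_t_conj, ca_t, map_mul, map_mul, map_inv, hg, hY,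
      dd_t_conj, cb_t] at h1
    exact h1.symm
  have hone : ∀ x : F, x ≠ 0 → ∀ b, cc x b = cc 1 (b / (x * th F m x)) := by
    intro x hx b
    have h1 := hinv (Units.mk0 x hx) 1 (b / (x * th F m x))
    rw [Units.val_mk0, mul_one, mul_div_cancel₀ _ (mul_ne_zero hx (th_ne_zero m hx))] at h1
    exact h1
  obtain ⟨u, hu0, hu1, hu⟩ := exists_good (F := F) hm
  have htu := th_ne_zero m hu0
  have htu1 : th F m u + 1 ≠ 0 := by
    have := th_ne_zero m hu1
    rwa [map_add, map_one] at this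
  have hall : ∀ b, cc 1 b = 1 := by
    have h1 : ∀ b, cc 1 (b * (1 / ((u + 1) * (th F m u + 1)) + 1 / (u * th F m u) + 1)) = 1 := by
      intro b
      have h2 := hleft u 1 b
      rw [hone u hu0 b, hone (u + 1) hu1 b, map_add, map_one] at h2
      have h3 : b * (1 / ((u + 1) * (th F m u + 1)) + 1 / (u * th F m u) + 1) =
          b / ((u + 1) * (th F m u + 1)) + (b / (u * th F m u) + b) := by ring
      rw [h3, hright, hright, h2]
      set p := cc 1 (b / (u * th F m u))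
      set q := cc 1 b
      have e1 : p * p = 1 := hsq _ _
      have e2 : q * q = 1 := hsq _ _
      have e3 : p * q * (p * q) = 1 := by rw [← h2]; exact hsq _ _
      exact e3
    intro b
    have h2 : (1 / ((u + 1) * (th F m u + 1)) + 1 / (u * th F m u) + 1) ≠ 0 := by
      intro h0
      apply hu
      field_simp at h0
      linear_combination h0
    have h3 := h1 (b / (1 / ((u + 1) * (th F m u + 1)) + 1 / (u * th F m u) + 1))
    rwa [div_mul_cancel₀ _ h2] at h3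
  have hall' : ∀ a b, cc a b = 1 := by
    intro a b
    by_cases ha : a = 0
    · subst ha
      have h1 := hleft 0 0 b
      rw [add_zero] at h1
      exact (mul_eq_left.mp h1.symm)
    · rw [hone a ha, hall]
  have h1 := hdep x hx y hy
  rw [hall'] at h1
  calc x * y = (x * y * x⁻¹ * y⁻¹) * (y * x) := by group
    _ = y * x := by rw [h1, one_mul]

end Dbl

end Cfsg.Agent.H15.Suz
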