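import Mathlib
import Cfsg.Agent.H15.SzSchur
import Cfsg.Agent.H15.SzLie
import Cfsg.Agent.H15.Schur2
import Cfsg.Agent.H15.Schur4

/-! # Suzuki groups: Schur multipliers -/

set_option autoImplicit false

namespace Cfsg.Agent.H15.Suz

open Cfsg Cfsg.Agent.H15.SchurTr

variable {F : Type*} [Field F] [Fintype F] {m : ℕ} [hS : SzF F m]

theorem dd_pow (k : Fˣ) (n : ℕ) : dd m k ^ n = dd m (k ^ n) := by
  induction n with
  | zero => rw [pow_zero, pow_zero, dd_one]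
  | succ n ih => rw [pow_succ, ih, pow_succ, dd_mul]

variable {E : Type*} [Group E] {σ : E →* Sg F m} {z : E}

namespace Dbl

variable (h : Dbl σ z)

/-- an odd order lift of a generator of the torus -/
theorem exists_lift (h : Dbl σ z) (k : Fˣ) : ∃ d : E, σ d = dd m k ∧ d ^ (Fintype.card F - 1) = 1 := by
  have h8 := eight_le_q (F := F) m
  have hk : k ^ (Fintype.card F - 1) = 1 := by
    classical
    rw [← Fintype.card_units]; exact pow_card_eq_one
  obtain ⟨d, hd⟩ := h.surj (dd m k)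
  have h1 : σ (d ^ (Fintype.card F - 1)) = 1 := by rw [map_pow, hd, dd_pow, hk, dd_one]
  refine ⟨d ^ Fintype.card F, ?_, ?_⟩
  · rw [map_pow, hd, dd_pow]
    congr 1
    calc k ^ Fintype.card F = k ^ (Fintype.card F - 1 + 1) := by congr 1; omega
      _ = k := by rw [pow_succ, hk, one_mul]
  · rw [← pow_mul, mul_comm, pow_mul]
    have h2 : ∃ n, Fintype.card F = 2 * n := ⟨2 ^ (2 * m), by rw [hS.card, pow_succ]; ring⟩
    obtain ⟨n, hn⟩ := h2
    rcases (h.ker _).mp h1 with h3 | h3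
    · rw [h3, one_pow]
    · rw [h3, hn, pow_mul, pow_two, h.sq, one_pow]

/-- the commutator group `[Zh, d]` -/
def VV (h : Dbl σ z) (d : E) {k : Fˣ} (hd : σ d = dd m k) : Subgroup E where
  carrier := {v | ∃ x ∈ Zh σ, v = d * x * d⁻¹ * x⁻¹}
  mul_mem' := by
    rintro _ _ ⟨x, hx, rfl⟩ ⟨y, hy, rfl⟩
    refine ⟨x * y, (Zh σ).mul_mem hx hy, ?_⟩
    have h1 := h.comm_Zh ((Zh σ).inv_mem hx) (h.conj_mem_Zh hd hy)
    have h2 := h.comm_Zh ((Zh σ).inv_mem hx) ((Zh σ).inv_mem hy)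
    calc d * x * d⁻¹ * x⁻¹ * (d * y * d⁻¹ * y⁻¹) = d * x * d⁻¹ * (x⁻¹ * (d * y * d⁻¹)) * y⁻¹ := by
          group
      _ = d * x * d⁻¹ * (d * y * d⁻¹) * (x⁻¹ * y⁻¹) := by rw [h1]; group
      _ = d * (x * y) * d⁻¹ * (x * y)⁻¹ := by rw [h2]; group
  one_mem' := ⟨1, (Zh σ).one_mem, by group⟩
  inv_mem' := by
    rintro _ ⟨x, hx, rfl⟩
    refine ⟨x⁻¹, (Zh σ).inv_mem hx, ?_⟩
    have h1 := h.comm_Zh hx (h.conj_mem_Zh hd ((Zh σ).inv_mem hx))
    calc (d * x * d⁻¹ * x⁻¹)⁻¹ = x * (d * x⁻¹ * d⁻¹) := by group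
      _ = d * x⁻¹ * d⁻¹ * x⁻¹⁻¹ := by rw [h1, inv_inv]

theorem mem_VV (h : Dbl σ z) {d : E} {k : Fˣ} (hd : σ d = dd m k) {v : E} :
    v ∈ h.VV d hd ↔ ∃ x ∈ Zh σ, v = d * x * d⁻¹ * x⁻¹ := Iff.rfl

theorem VV_le (h : Dbl σ z) {d : E} {k : Fˣ} (hd : σ d = dd m k) : h.VV d hd ≤ Zh σ := by
  rintro _ ⟨x, hx, rfl⟩
  exact (Zh σ).mul_mem (h.conj_mem_Zh hd hx) ((Zh σ).inv_mem hx)

theorem VV_conj (h : Dbl σ z) {d : E} {k : Fˣ} (hd : σ d = dd m k) {v : E} (hv : v ∈ h.VV d hd) :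
    d * v * d⁻¹ ∈ h.VV d hd := by
  obtain ⟨x, hx, rfl⟩ := hv
  exact ⟨_, h.conj_mem_Zh hd hx, by group⟩

theorem VV_conj_pow (h : Dbl σ z) {d : E} {k : Fˣ} (hd : σ d = dd m k) {v : E}
    (hv : v ∈ h.VV d hd) (n : ℕ) : d ^ n * v * (d ^ n)⁻¹ ∈ h.VV d hd := by
  induction n with
  | zero => simpa using hv
  | succ n ih =>
    have := h.VV_conj hd ih
    rwa [show d * (d ^ n * v * (d ^ n)⁻¹) * d⁻¹ = d ^ (n + 1) * v * (d ^ (n + 1))⁻¹ by
      rw [pow_succ']; group] at this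

theorem z_notin_VV (h : Dbl σ z) {d : E} {k : Fˣ} (hd : σ d = dd m k)
    (hdo : d ^ (Fintype.card F - 1) = 1) : z ∉ h.VV d hd := by
  rintro ⟨x, hx, hzx⟩
  have h8 := eight_le_q (F := F) m
  have h1 : d * x * d⁻¹ = z * x := by rw [hzx]; group
  have h2 : ∀ n : ℕ, d ^ n * x * (d ^ n)⁻¹ = z ^ n * x := by
    intro n
    induction n with
    | zero => simp
    | succ n ih =>
      have hc : d * z ^ n = z ^ n * d := by
        have : Commute d z := h.cent d
        exact this.pow_right n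
      calc d ^ (n + 1) * x * (d ^ (n + 1))⁻¹ = d * (d ^ n * x * (d ^ n)⁻¹) * d⁻¹ := by
            rw [pow_succ']; group
        _ = (d * z ^ n) * x * d⁻¹ := by rw [ih]; group
        _ = z ^ n * (d * x * d⁻¹) := by rw [hc]; group
        _ = z ^ (n + 1) * x := by rw [h1, pow_succ]; group
  have h3 := h2 (Fintype.card F - 1)
  rw [hdo, inv_one, one_mul, mul_one] at h3
  have h4 : z ^ (Fintype.card F - 1) = 1 := (mul_eq_right.mp h3.symm)
  obtain ⟨n, hn⟩ : ∃ n, Fintype.card F - 1 = 2 * n + 1 :=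
    ⟨2 ^ (2 * m) - 1, by rw [hS.card, pow_succ]; have := Nat.one_le_two_pow (n := 2 * m); omega⟩
  rw [hn, pow_succ, pow_mul, pow_two, h.sq, one_pow, one_mul] at h4
  exact h.ne h4

theorem VV_cover (h : Dbl σ z) {d : E} {k : Fˣ} (hd : σ d = dd m k) (hk : k ≠ 1) {x : E}
    (hx : x ∈ Zh σ) : x ∈ h.VV d hd ∨ z * x ∈ h.VV d hd := by
  obtain ⟨b, hb⟩ := hx
  have hk1 : (k : F) * th F m k + 1 ≠ 0 := by
    intro h0
    apply hk
    have h1 : (k : F) * th F m k = 1 * th F m 1 := by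
      rw [map_one, mul_one]
      linear_combination h0 - add_self' m (1 : F)
    exact Units.ext (norm_inj m h1)
  obtain ⟨y, hy⟩ := h.surj (t m 0 (b / ((k : F) * th F m k + 1)))
  have hv : d * y * d⁻¹ * y⁻¹ ∈ h.VV d hd := ⟨y, ⟨_, hy⟩, rfl⟩
  have h1 : σ (d * y * d⁻¹ * y⁻¹) = σ x := by
    rw [map_mul, map_mul, map_mul, map_inv, map_inv, hd, hy, dd_t_conj, t_inv, t_mul, hb]
    congr 1
    · simp
    · simp only [map_zero, zero_mul, mul_zero, add_zero]
      field_simp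
  rcases h.eq_or h1 with h2 | h2
  · left; rw [← h2]; exact hv
  · right
    have h3 : z * x = d * y * d⁻¹ * y⁻¹ := by rw [h2, h.cent]
    rw [h3]; exact hv

/-- all squares of the preimage of the Sylow group are in a subgroup missing the centre -/
theorem squares (h : Dbl σ z) (hm : 2 ≤ m) : ∃ V : Subgroup E, V ≤ Zh σ ∧ z ∉ V ∧
    ∀ x ∈ Uh σ, x * x ∈ V := by
  classical
  obtain ⟨k₀, hk₀⟩ := IsCyclic.exists_generator (α := Fˣ)
  have h8 := eight_le_q (F := F) m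
  have hk1 : k₀ ≠ 1 := by
    rintro rfl
    obtain ⟨k, hk⟩ := exists_ne_one (F := F) m
    obtain ⟨n, hn⟩ := Subgroup.mem_zpowers_iff.mp (hk₀ k)
    rw [one_zpow] at hn
    exact hk hn.symm
  obtain ⟨d, hd, hdo⟩ := h.exists_lift k₀
  refine ⟨h.VV d hd, h.VV_le hd, h.z_notin_VV hd hdo, ?_⟩
  have hzk : ∀ x, z * (z * x) = x := by
    intro x; rw [← mul_assoc, h.sq, one_mul]
  refine quad (E := E) (F := F) h8 (add_self' m) (Uh σ) (Zh σ) (h.VV d hd) Zh_le_Uh (h.VV_le hd)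
    (fun x => ca (σ x)) ?_ ?_ ?_ ?_ ?_ ?_
  · intro a
    obtain ⟨x, hx⟩ := h.surj (t m a 0)
    exact ⟨x, ⟨a, 0, hx⟩, by show ca (σ x) = a; rw [hx, ca_t]⟩
  · rintro x ⟨a, b, hb⟩ y ⟨c, e, hc⟩
    show ca (σ (x * y)) = ca (σ x) + ca (σ y)
    rw [map_mul, hb, hc, t_mul, ca_t, ca_t, ca_t]
  · rintro x ⟨a, b, hb⟩
    show ca (σ x) = 0 ↔ x ∈ Zh σ
    rw [hb, ca_t]
    constructor
    · rintro rfl; exact ⟨b, hb⟩
    · rintro ⟨b', hb'⟩
      rw [hb] at hb'
      exact (t_inj m hb').1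
  · intro k hk x hx
    exact (h.central hm hx hk).symm
  · intro x hx y hy hxV hyV
    have e1 := (h.VV_cover hd hk1 hx).resolve_left hxV
    have e2 := (h.VV_cover hd hk1 hy).resolve_left hyV
    have e3 := (h.VV d hd).mul_mem e1 e2
    have e4 : z * x * (z * y) = x * y := by
      rw [← h.cent x]
      calc x * z * (z * y) = x * (z * z) * y := by group
        _ = x * y := by rw [h.sq, mul_one]
    rwa [e4] at e3
  · intro a b ha hb
    obtain ⟨n, hn⟩ := Submonoid.mem_powers_iff _ _ |>.mp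
      ((mem_powers_iff_mem_zpowers (x := k₀)).mpr (hk₀ (Units.mk0 (b / a) (div_ne_zero hb ha))))
    have hdn : σ (d ^ n) = dd m (Units.mk0 (b / a) (div_ne_zero hb ha)) := by
      rw [map_pow, hd, dd_pow, hn]
    refine ⟨d ^ n, fun x hx hxa => ⟨h.conj_mem_Uh hdn hx, ?_⟩, fun v hv => h.VV_conj_pow hd hv n⟩
    obtain ⟨c, e, hc⟩ := hx
    have hxa' : ca (σ x) = a := hxa
    show ca (σ (d ^ n * x * (d ^ n)⁻¹)) = b
    rw [hc, ca_t] at hxa'
    rw [map_mul, map_mul, map_inv, hdn, hc, dd_t_conj, ca_t, Units.val_mk0, hxa',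
      div_mul_cancel₀ _ ha]

/-- there is no perfect double cover -/
theorem not_mem_commutator [Finite E] (h : Dbl σ z) (hm : 2 ≤ m) : z ∉ commutator E := by
  intro hz
  obtain ⟨V, hV1, hV2, hV3⟩ := h.squares hm
  have hcen : ∀ v ∈ V, ∀ x ∈ Uh σ, x * v = v * x := fun v hv x hx => h.central hm hx (hV1 hv)
  have hsub : ∀ g ∈ commutator (Uh σ), (g : E) ∈ V := by
    have h1 : commutator (Uh σ) ≤ V.subgroupOf (Uh σ) := by
      rw [commutator_def, Subgroup.commutator_le]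
      intro x _ y _
      rw [Subgroup.mem_subgroupOf]
      show (x : E) * y * (x : E)⁻¹ * (y : E)⁻¹ ∈ V
      have e1 := hV3 _ ((Uh σ).mul_mem x.2 y.2)
      have e2 := hV3 _ ((Uh σ).inv_mem x.2)
      have e3 := hV3 _ ((Uh σ).inv_mem y.2)
      have e4 := hcen _ e2 _ ((Uh σ).inv_mem y.2)
      have e5 : (x : E) * y * (x : E)⁻¹ * (y : E)⁻¹ =
          ((x : E) * y * (x * y)) * (((x : E)⁻¹ * (x : E)⁻¹) * ((y : E)⁻¹ * (y : E)⁻¹)) := by
        calc (x : E) * y * (x : E)⁻¹ * (y : E)⁻¹ =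
            ((x : E) * y * (x * y)) * ((y : E)⁻¹ * ((x : E)⁻¹ * (x : E)⁻¹)) * (y : E)⁻¹ := by group
          _ = _ := by rw [e4]; group
      rw [e5]
      exact V.mul_mem e1 (V.mul_mem e2 e3)
    intro g hg
    exact h1 hg
  have hcz : z ∈ Subgroup.center E := Subgroup.mem_center_iff.mpr h.cent
  obtain ⟨h1, h2⟩ := transfer_central (Uh σ) hcz hz
  have h3 : z ^ (Uh σ).index ∈ V := hsub _ h2
  have h4 : (Uh σ).index = (UU F m).index := Subgroup.index_comap_of_surjective _ h.surj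
  have h5 : Odd (UU F m).index := by
    obtain ⟨P, hP⟩ := exists_sylow_UU (F := F) m
    have : Fact (Nat.Prime 2) := ⟨Nat.prime_two⟩
    have h6 := P.not_dvd_index
    rw [hP] at h6
    rw [← Nat.not_even_iff_odd, even_iff_two_dvd]
    exact h6
  obtain ⟨n, hn⟩ := h5
  rw [h4, hn, pow_succ, pow_mul, pow_two, h.sq, one_pow, one_mul] at h3
  exact hV2 h3

end Dbl

/-- reduction to kernels of order two -/
theorem exists_dbl {Γ : Type*} [Group Γ] [Finite Γ] (σ : Γ →* Sg F m)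
    (hst : Cfsg.IsStemExtension σ) (h2 : 2 ∣ Nat.card σ.ker) :
    ∃ (M : Subgroup Γ) (_ : M.Normal) (τ : Γ ⧸ M →* Sg F m) (z : Γ ⧸ M), Dbl τ z ∧
      z ∈ commutator (Γ ⧸ M) := by
  classical
  obtain ⟨hsurj, hc, hcomm⟩ := hst
  let K := σ.ker
  let _ : CommGroup K :=
    { (inferInstance : Group K) with
      mul_comm := fun a b => Subtype.ext (((Subgroup.mem_center_iff.mp (hc a.2)) b.1).symm) }
  obtain ⟨e⟩ := Cfsg.Agent.H15.Schur.dual_equiv K
  have hcard : 2 ∣ Nat.card (K →* ℂˣ) := by rw [Nat.card_congr e.toEquiv]; exact h2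
  have hfin : Finite (K →* ℂˣ) := Finite.of_equiv _ e.symm.toEquiv
  have : Fact (Nat.Prime 2) := ⟨Nat.prime_two⟩
  obtain ⟨lam, hlam⟩ := exists_prime_orderOf_dvd_card' 2 hcard
  have hl2 : ∀ k : K, lam k * lam k = 1 := by
    intro k
    have h1 : lam ^ 2 = 1 := by rw [← hlam]; exact pow_orderOf_eq_one _
    have h3 := DFunLike.congr_fun h1 k
    rw [sq] at h3
    exact h3
  have hl1 : ∃ k : K, lam k ≠ 1 := by
    by_contra hcon
    push Not at hcon
    have : lam = 1 := MonoidHom.ext hcon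
    rw [this, orderOf_one] at hlam
    omega
  have hpm : ∀ k : K, lam k = 1 ∨ lam k = -1 := by
    intro k
    have h1 : ((lam k : ℂ) - 1) * ((lam k : ℂ) + 1) = 0 := by
      have h3 : (lam k : ℂ) * (lam k : ℂ) = 1 := by
        rw [← Units.val_mul, hl2 k, Units.val_one]
      linear_combination h3
    rcases mul_eq_zero.mp h1 with h3 | h3
    · left; exact Units.ext (by rw [Units.val_one]; linear_combination h3)
    · right; exact Units.ext (by rw [Units.val_neg, Units.val_one]; linear_combination h3)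
  let M : Subgroup Γ := lam.ker.map K.subtype
  have hMK : M ≤ K := Subgroup.map_subtype_le _
  have hMn : M.Normal := by
    constructor
    intro x hx g
    have h1 := (Subgroup.mem_center_iff.mp (hc (hMK hx))) g
    rw [h1, mul_inv_cancel_right]
    exact hx
  have hM : ∀ x (hx : x ∈ K), x ∈ M ↔ lam ⟨x, hx⟩ = 1 := by
    intro x hx
    constructor
    · rintro ⟨y, hy, rfl⟩
      exact hy
    · intro h; exact ⟨⟨x, hx⟩, h, rfl⟩
  obtain ⟨⟨k, hk⟩, hk1⟩ := hl1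
  have hkM : k ∉ M := fun h => hk1 ((hM k hk).mp h)
  have hlk : lam ⟨k, hk⟩ = -1 := (hpm _).resolve_left hk1
  refine ⟨M, hMn, QuotientGroup.lift M σ hMK, QuotientGroup.mk k, ⟨?_, ?_, ?_, ?_, ?_⟩, ?_⟩
  · intro g
    obtain ⟨x, rfl⟩ := hsurj g
    exact ⟨QuotientGroup.mk x, rfl⟩
  · intro h0
    exact hkM ((QuotientGroup.eq_one_iff k).mp h0)
  · rw [← QuotientGroup.mk_mul, QuotientGroup.eq_one_iff, hM _ (K.mul_mem hk hk)]
    have : (⟨k * k, K.mul_mem hk hk⟩ : K) = ⟨k, hk⟩ * ⟨k, hk⟩ := rfl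
    rw [this, map_mul, hl2]
  · intro x
    induction x using QuotientGroup.induction_on with
    | H x =>
      rw [← QuotientGroup.mk_mul, ← QuotientGroup.mk_mul, (Subgroup.mem_center_iff.mp (hc hk)) x]
  · intro x
    induction x using QuotientGroup.induction_on with
    | H x =>
      show σ x = 1 ↔ _
      constructor
      · intro hx
        rcases hpm ⟨x, hx⟩ with h3 | h3
        · left
          rw [QuotientGroup.eq_one_iff, hM x hx]; exact h3
        · right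
          rw [QuotientGroup.eq, hM _ (K.mul_mem (K.inv_mem hx) hk)]
          have : (⟨x⁻¹ * k, K.mul_mem (K.inv_mem hx) hk⟩ : K) = (⟨x, hx⟩ : K)⁻¹ * ⟨k, hk⟩ := rfl
          rw [this, map_mul, map_inv, h3, hlk, inv_mul_cancel]
      · rintro (h3 | h3)
        · exact hMK ((QuotientGroup.eq_one_iff x).mp h3)
        · rw [QuotientGroup.eq] at h3
          have h4 : x⁻¹ * k ∈ K := hMK h3
          have h5 := K.mul_mem hk (K.inv_mem h4)
          rwa [show k * (x⁻¹ * k)⁻¹ = x by group] at h5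
  · have h1 : (commutator Γ).map (QuotientGroup.mk' M) = commutator (Γ ⧸ M) := by
      rw [commutator_def, Subgroup.map_commutator, commutator_def,
        Subgroup.map_top_of_surjective _ (QuotientGroup.mk'_surjective _)]
    rw [← h1]
    exact ⟨k, hcomm hk, rfl⟩

/-- stem extensions of the Suzuki groups are trivial -/
theorem stem_trivial (hm : 2 ≤ m) {Γ : Type*} [Group Γ] [Finite Γ] (σ : Γ →* Sg F m)
    (hst : Cfsg.IsStemExtension σ) : σ.ker = ⊥ := by
  by_contra hne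
  have h1 : Nat.card σ.ker ≠ 1 := fun h => hne (Subgroup.eq_bot_of_card_eq _ h)
  obtain ⟨p, hp, hpd⟩ := Nat.exists_prime_and_dvd h1
  have : Fact p.Prime := ⟨hp⟩
  by_cases hp2 : p = 2
  · subst hp2
    obtain ⟨M, hM, τ, z, h2, h3⟩ := exists_dbl σ hst hpd
    exact h2.not_mem_commutator hm h3
  · exact not_dvd_of_cyclic σ hst.2.1 hst.2.2 p (fun P => sylow_odd_cyclic m hp2 P) hpd

end Cfsg.Agent.H15.Suz
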